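import Cfsg.Agent.S0288
import Cfsg.Agent.S0303
import Cfsg.Agent.S0815
import Cfsg.Agent.Lib.OrthRefl.Basic
import Cfsg.Agent.Lib.Classical.HermOrders

/-!
# `O₆⁻(2)` is the full automorphism group of `PSU₄(2)`
-/

set_option autoImplicit false
set_option linter.unusedSectionVars false
set_option linter.unusedVariables false
set_option linter.style.longLine false

namespace Cfsg.Agent.Lib.ThreeT.O6Aut

open Cfsg Matrix

section abstract

variable {O S : Type*} [Group O] [Finite O] [Group S]

/-- A group with trivial centre, whose commutator subgroup modulo its centre is `S`, of order `2 |S|`, equal to the order of `Aut S`, is `Aut S`. -/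
theorem aut_iso_of (hZ : Subgroup.center O = ⊥) (e : ↥(commutator O) ⧸ Subgroup.center ↥(commutator O) ≃* S)
    (h1 : Nat.card O = 2 * Nat.card S) (h2 : Nat.card (MulAut S) = Nat.card O) (hS : 0 < Nat.card S) : Nonempty (O ≃* MulAut S) := by
  classical
  set Ω := commutator O with hΩ
  have hc1 : Nat.card Ω = Nat.card S * Nat.card (Subgroup.center Ω) := by
    rw [Subgroup.card_eq_card_quotient_mul_card_subgroup (Subgroup.center Ω), Nat.card_congr e.toEquiv]
  have hd : Nat.card Ω ∣ Nat.card O := Subgroup.card_subgroup_dvd_card _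
  rw [hc1, h1, mul_comm 2] at hd
  have hd2 : Nat.card (Subgroup.center Ω) ∣ 2 := Nat.dvd_of_mul_dvd_mul_left hS hd
  have hle : Nat.card (Subgroup.center Ω) ≤ 2 := Nat.le_of_dvd (by norm_num) hd2
  have hpos : 0 < Nat.card (Subgroup.center Ω) := Nat.card_pos
  have hcenter : Subgroup.center Ω = ⊥ := by
    apply Subgroup.eq_bot_of_card_eq
    by_contra hne
    have h3 : Nat.card (Subgroup.center Ω) = 2 := by omega
    have htop : Ω = ⊤ := by
      apply Subgroup.eq_top_of_card_eq
      rw [hc1, h3, h1, mul_comm]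
    have h4 : ∀ z : Subgroup.center Ω, z = 1 := by
      intro z
      have h5 : (z.1 : O) ∈ Subgroup.center O := by
        rw [Subgroup.mem_center_iff]
        intro g
        have hg : g ∈ Ω := by rw [htop]; exact Subgroup.mem_top g
        have h6 := Subgroup.mem_center_iff.1 z.2 ⟨g, hg⟩
        exact congrArg Subtype.val h6
      rw [hZ] at h5
      apply Subtype.ext
      apply Subtype.ext
      exact Subgroup.mem_bot.1 h5
    have h7 : Nat.card (Subgroup.center Ω) = 1 := Nat.card_eq_one_iff_unique.2 ⟨⟨fun x y => by rw [h4 x, h4 y]⟩, ⟨1⟩⟩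
    omega
  have heq : Ω ≃* S := (MulEquiv.ofBijective (QuotientGroup.mk' (Subgroup.center Ω)) ⟨by
    rw [← MonoidHom.ker_eq_bot_iff, QuotientGroup.ker_mk', hcenter], QuotientGroup.mk'_surjective _⟩).trans e
  -- the action by conjugation
  haveI hN : Ω.Normal := inferInstance
  let φ : O →* MulAut Ω := MulAut.conjNormal
  have hφ : ∀ c : O, φ c = 1 → ∀ w : Ω, c * w.1 * c⁻¹ = w.1 := by
    intro c hc w
    have h3 : φ c w = w := by rw [hc]; rfl
    exact congrArg Subtype.val h3
  have hcard : Nat.card Ω = Nat.card S := by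
    rw [Nat.card_congr heq.toEquiv]
  -- the kernel meets `Ω` trivially
  have hcap : ∀ c : O, φ c = 1 → c ∈ Ω → c = 1 := by
    intro c hc hcΩ
    have h3 : (⟨c, hcΩ⟩ : Ω) ∈ Subgroup.center Ω := by
      rw [Subgroup.mem_center_iff]
      intro w
      apply Subtype.ext
      show w.1 * c = c * w.1
      have h4 := hφ c hc w
      calc w.1 * c = c * w.1 * c⁻¹ * c := by rw [h4]
        _ = c * w.1 := by group
    rw [hcenter] at h3
    exact congrArg Subtype.val (Subgroup.mem_bot.1 h3)
  have hkercard : Nat.card φ.ker ≤ 2 := by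
    have hinj : Function.Injective (fun p : φ.ker × Ω => (p.1.1 * p.2.1 : O)) := by
      rintro ⟨c, w⟩ ⟨c', w'⟩ h
      have h3 : (c'.1⁻¹ * c.1 : O) = w'.1 * w.1⁻¹ := by
        have h4 : c.1 * w.1 = c'.1 * w'.1 := h
        calc (c'.1⁻¹ * c.1 : O) = c'.1⁻¹ * (c.1 * w.1) * w.1⁻¹ := by group
          _ = c'.1⁻¹ * (c'.1 * w'.1) * w.1⁻¹ := by rw [h4]
          _ = _ := by group
      have h4 : (c'.1⁻¹ * c.1 : O) = 1 := by
        apply hcap
        · have : (c'⁻¹ * c).1 ∈ φ.ker := (c'⁻¹ * c).2
          exact this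
        · rw [h3]
          exact Subgroup.mul_mem _ w'.2 (Subgroup.inv_mem _ w.2)
      have h5 : c.1 = c'.1 := (inv_mul_eq_one.1 h4).symm
      have h6 : w.1 = w'.1 := by
        have h7 : c.1 * w.1 = c'.1 * w'.1 := h
        rw [h5] at h7
        exact mul_left_cancel h7
      exact Prod.ext (Subtype.ext h5) (Subtype.ext h6)
    have h3 := Nat.card_le_card_of_injective _ hinj
    rw [Nat.card_prod, hcard, h1, mul_comm, mul_comm 2] at h3
    exact Nat.le_of_mul_le_mul_left h3 hS
  have hker : φ.ker = ⊥ := by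
    rw [eq_bot_iff]
    intro c hc
    by_contra hc1
    have hc1' : c ≠ 1 := hc1
    have h3 : c ∈ Subgroup.center O := by
      rw [Subgroup.mem_center_iff]
      intro g
      have h4 : g * c * g⁻¹ ∈ φ.ker := (MonoidHom.normal_ker φ).conj_mem c hc g
      have h5 : g * c * g⁻¹ ≠ 1 := by
        intro h6
        apply hc1'
        have : c = g⁻¹ * (g * c * g⁻¹) * g := by group
        rw [this, h6]
        group
      have h6 : g * c * g⁻¹ = c := by
        by_contra hne
        have h7 : ({1, c, g * c * g⁻¹} : Finset O).card = 3 := by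
          rw [Finset.card_insert_of_notMem, Finset.card_insert_of_notMem, Finset.card_singleton]
          · simpa using Ne.symm hne
          · simp only [Finset.mem_insert, Finset.mem_singleton, not_or]
            exact ⟨hc1'.symm, h5.symm⟩
        have h8 : ((({1, c, g * c * g⁻¹} : Finset O) : Set O)) ⊆ (φ.ker : Set O) := by
          intro x hx
          simp only [Finset.coe_insert, Finset.coe_singleton, Set.mem_insert_iff, Set.mem_singleton_iff] at hx
          simp only [SetLike.mem_coe]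
          rcases hx with rfl | rfl | rfl
          · exact Subgroup.one_mem _
          · exact hc
          · exact h4
        have h9 := Set.ncard_le_ncard h8 (Set.toFinite _)
        rw [Set.ncard_coe_finset, h7] at h9
        have h10 : Nat.card φ.ker = (φ.ker : Set O).ncard := Nat.card_coe_set_eq _
        omega
      calc g * c = g * c * g⁻¹ * g := by group
        _ = c * g := by rw [h6]
    rw [hZ] at h3
    exact hc1' (Subgroup.mem_bot.1 h3)
  have hinj : Function.Injective φ := (MonoidHom.ker_eq_bot_iff φ).1 hker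
  have hcardAut : Nat.card (MulAut Ω) = Nat.card O := by
    rw [Nat.card_congr (MulAut.congr heq).toEquiv, h2]
  haveI : Finite (MulAut Ω) := Nat.finite_of_card_ne_zero (by rw [hcardAut]; exact Nat.card_pos.ne')
  have hbij := (Nat.bijective_iff_injective_and_card φ).2 ⟨hinj, hcardAut.symm⟩
  exact ⟨(MulEquiv.ofBijective φ hbij).trans (MulAut.congr heq)⟩

end abstract

section concrete

open Cfsg.Agent.Lib.OrthRefl.Basic Cfsg.Agent.Lib.Orth.Forms Cfsg.Agent.Lib.Orth.Refl QuadraticMap

theorem hab_two : ∀ z₁ z₂ : ZMod 2, z₁ ^ 2 + 1 * z₁ * z₂ + 1 * z₂ ^ 2 = 0 → z₁ = 0 ∧ z₂ = 0 := by decide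

theorem eq_one_of_ne (c : ZMod 2) (h : c ≠ 0) : c = 1 := by
  revert c
  decide

/-- `O₆⁻(2)` has trivial centre. -/
theorem center_O : Subgroup.center ↥(isometryGroup (ZMod 2) (quadFormMinus 2 (ZMod 2) 1 1)) = ⊥ := by
  set Q := minusForm 2 (ZMod 2) 1 1 with hQ
  have hnd : (polarBilin Q).Nondegenerate := minusForm_nondeg 2 hab_two
  rw [eq_bot_iff]
  intro t ht
  have ht' : t ∈ Subgroup.center ↥(isometryGroup (ZMod 2) ⇑Q) := ht
  let t₁ : ↥(isometryGroup (ZMod 2) ⇑Q) := t
  have hcen : ∀ g : ↥(isometryGroup (ZMod 2) ⇑Q), g * t₁ = t₁ * g := Subgroup.mem_center_iff.1 ht'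
  have hQt : ∀ v, Q (t₁.1.1 *ᵥ v) = Q v := by
    intro v
    exact t₁.2 v v
  have key : ∀ v, Q v ≠ 0 → t₁.1.1 *ᵥ v = v := by
    intro v hv
    set tv := t₁.1.1 *ᵥ v with htv
    have h1 := conj_rG Q t₁ v
    have h2 : t₁ * rG Q v * t₁⁻¹ = rG Q v := by
      rw [← hcen (rG Q v)]
      group
    rw [h2] at h1
    have hv0 : v ≠ 0 := by
      rintro rfl
      exact hv (by simp)
    -- a vector with nonzero polar value
    obtain ⟨x, hx⟩ : ∃ x, polar Q x v ≠ 0 := by
      by_contra hall
      push_neg at hall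
      apply hv0
      apply hnd.2
      intro x
      simpa [polarBilin_apply_apply] using hall x
    have h3 : refl Q v x = refl Q tv x := by
      rw [← rG_mulVec, ← rG_mulVec, h1]
    rw [refl_apply, refl_apply, hQt v] at h3
    have h4 : ((Q v)⁻¹ * polar Q x v) • v = ((Q v)⁻¹ * polar Q x tv) • tv := sub_right_injective h3
    have h5 : (Q v)⁻¹ * polar Q x v = 1 := eq_one_of_ne _ (mul_ne_zero (inv_ne_zero hv) hx)
    rw [h5, one_smul] at h4
    have h6 : (Q v)⁻¹ * polar Q x tv = 1 := by
      apply eq_one_of_ne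
      intro h0
      rw [h0, zero_smul] at h4
      exact hv0 h4
    rw [h6, one_smul] at h4
    exact h4.symm
  have hsingle : ∀ i, t₁.1.1 *ᵥ (Pi.single i 1) = Pi.single i 1 := by
    have hr : ∀ j : Fin 2, Q (Pi.single (Sum.inr j) 1) ≠ 0 := by
      rw [hQ, coe_minusForm]
      decide
    have hl : ∀ k : Fin 2 ⊕ Fin 2, Q (Pi.single (Sum.inl k) 1 + Pi.single (Sum.inr 0) 1) ≠ 0 := by
      rw [hQ, coe_minusForm]
      decide
    rintro (k | j)
    · have h1 := key _ (hl k)
      have h2 := key _ (hr 0)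
      rw [Matrix.mulVec_add, h2] at h1
      exact add_right_cancel h1
    · exact key _ (hr j)
  have h1 : t₁ = 1 := by
    apply Subtype.ext
    apply Units.ext
    apply Matrix.ext_of_mulVec_single
    intro i
    show t₁.1.1 *ᵥ _ = (1 : Matrix _ _ (ZMod 2)) *ᵥ _
    rw [hsingle, Matrix.one_mulVec]
  exact Subgroup.mem_bot.2 h1

/-- **`O₆⁻(2)` is the full automorphism group of `PSU₄(2)`.** -/
theorem iso_O (K : Type*) [Field K] [Fintype K] (hK : Fintype.card K = 4) :
    Nonempty (↥(isometryGroup (ZMod 2) (quadFormMinus 2 (ZMod 2) 1 1)) ≃* MulAut (PSU 4 K 2)) := by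
  obtain ⟨e⟩ := Cfsg.Agent.S0303.result (F := ZMod 2) (K := K) (q := 2) (by simp [ZMod.card]) (by rw [hK]; norm_num) 1 1 hab_two
  have h1 : Nat.card ↥(isometryGroup (ZMod 2) (quadFormMinus 2 (ZMod 2) 1 1)) = 51840 := by
    have := Cfsg.Agent.S0288.result (F := ZMod 2) (q := 2) (by simp [ZMod.card]) 3 (by norm_num) 1 1 hab_two
    simpa [Finset.prod_range_succ] using this
  have hF : Fintype.card K = 2 ^ 2 := by rw [hK]; norm_num
  have h2 : Nat.card (PSU 4 K 2) = 25920 := by
    have h3 := Cfsg.Agent.Lib.Classical.HermOrders.card_PSU hF 4 (by norm_num)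
    have e1 : (2 ^ (4 * (4 - 1) / 2) * ∏ i ∈ Finset.range 4,
      (if Even i then 2 ^ (i + 1) + 1 else 2 ^ (i + 1) - 1) : ℕ) = 77760 := by decide +kernel
    have e2 : Nat.gcd 4 (2 + 1) = 1 := by norm_num
    rw [e1, e2] at h3
    omega
  have h3 := Cfsg.Agent.S0815.result (F := K) 2 1 le_rfl (q := 2) (by norm_num) hF 4 (by norm_num) (by norm_num)
  rw [h2] at h3
  refine aut_iso_of center_O e ?_ ?_ ?_
  · rw [h1, h2]
  · rw [h3, h1]
    norm_num
  · rw [h2]
    norm_num

end concrete

end Cfsg.Agent.Lib.ThreeT.O6Aut
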