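import Cfsg.Agent.Lib.ThreeT.Prim2
import Cfsg.Agent.Lib.ThreeT.S4

/-!
# Connectivity of the non-commuting graph on `D_x`

For a generating class `D` of 3-transpositions of a finite group with central `O₂` and `O₃`, and
`x ∈ D`, the non-commuting graph on `D_x = {y ∈ D : y ≠ x, [x, y] = 1}` is connected.  This is the
first step of Fischer's theorem: `D_x` is a single class of the subgroup it generates.

The proof is through "modules" of the commuting relation: if the graph is disconnected there is a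
connected module `N` with at least two points and a point outside commuting with `N`; a minimal
such module gives a block of imprimitivity for `G` on `D`, contradicting the fact that the
component of `G` is transitive on nothing smaller.
-/

set_option autoImplicit false

namespace Cfsg.Agent.Lib.ThreeT.DxConn

open Cfsg Cfsg.Agent.Lib.ThreeT.Basic Cfsg.Agent.Lib.ThreeT.Class Cfsg.Agent.Lib.Components.Basic
open Cfsg.Agent.Lib.ThreeT.LayerT Cfsg.Agent.Lib.ThreeT.Comp Cfsg.Agent.Lib.ThreeT.Prim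
open Cfsg.Agent.Lib.ThreeT.WRel Cfsg.Agent.Lib.ThreeT.Prim2
open Equiv

variable {G : Type*} [Group G]

section Conj

theorem conj_comm {r a b : G} (hr : r * r = 1) (h : Commute a b) :
    Commute (r * a * r) (r * b * r) := by
  have h' : a * b = b * a := h
  show r * a * r * (r * b * r) = r * b * r * (r * a * r)
  calc r * a * r * (r * b * r) = r * a * (r * r) * b * r := by group
    _ = r * (a * b) * r := by rw [hr]; group
    _ = r * (b * a) * r := by rw [h']
    _ = r * b * (r * r) * a * r := by rw [hr]; group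
    _ = _ := by group

theorem conj_conj {r a : G} (hr : r * r = 1) : r * (r * a * r) * r = a := by
  calc r * (r * a * r) * r = (r * r) * a * (r * r) := by group
    _ = a := by rw [hr]; group

theorem conj_comm_iff {r a b : G} (hr : r * r = 1) :
    Commute (r * a * r) (r * b * r) ↔ Commute a b := by
  refine ⟨fun h => ?_, conj_comm hr⟩
  have := conj_comm hr h
  rwa [conj_conj hr, conj_conj hr] at this

theorem conj_of_comm {r a : G} (hr : r * r = 1) (h : Commute r a) : r * a * r = a := by
  rw [h.eq, mul_assoc, hr, mul_one]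

theorem conj_self {r : G} (hr : r * r = 1) : r * r * r = r := by
  rw [hr, one_mul]

/-- Conjugating by `r` when `y` commutes with `r`. -/
theorem comm_conj_iff {r y w : G} (hr : r * r = 1) (h : Commute r y) :
    Commute y (r * w * r) ↔ Commute y w := by
  have e : r * y * r = y := conj_of_comm hr h
  rw [← conj_comm_iff (a := y) (b := r * w * r) hr, e, conj_conj hr]

theorem conj_comm_self_iff {r w : G} (hr : r * r = 1) :
    Commute (r * w * r) r ↔ Commute w r := by
  have := conj_comm_iff (a := w) (b := r) hr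
  rwa [conj_self hr] at this

end Conj

section S4Facts

variable {D : Set G} (hD : IsThreeTranspositionSet D)
include hD

theorem exists_s4 {a b c : G} (ha : a ∈ D) (hb : b ∈ D) (hc : c ∈ D) (hab : Commute a b)
    (hac : ¬ Commute a c) (hbc : ¬ Commute b c) :
    ∃ φ : Perm (Fin 4) →* G, φ (swap 0 1) = a ∧ φ (swap 1 2) = c ∧ φ (swap 2 3) = b :=
  S4.exists_hom (mul_self_of_mem hD ha) (mul_self_of_mem hD hc) (mul_self_of_mem hD hb)
    (braid hD ha hc hac) (braid hD hc hb (fun h => hbc h.symm)) hab.eq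

/-- `a = (01)`, `c = (12)`, `b = (23)`: `(a^c)^b = (03)` commutes with `c`. -/
theorem s4_comm_one {a b c : G} (ha : a ∈ D) (hb : b ∈ D) (hc : c ∈ D) (hab : Commute a b)
    (hac : ¬ Commute a c) (hbc : ¬ Commute b c) : Commute (b * (c * a * c) * b) c := by
  obtain ⟨φ, h0, h1, h2⟩ := exists_s4 hD ha hb hc hab hac hbc
  have key : (swap (2 : Fin 4) 3 * (swap 1 2 * swap 0 1 * swap 1 2) * swap 2 3) * swap 1 2
      = swap 1 2 * (swap 2 3 * (swap 1 2 * swap 0 1 * swap 1 2) * swap 2 3) := by decide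
  have := congrArg φ key
  simp only [map_mul, h0, h1, h2] at this
  exact this

/-- `a = (01)`, `c = (12)`, `b = (23)`, with `a ≠ b`: `a^c = (02)` does not commute with `b`. -/
theorem s4_not_comm {a b c : G} (ha : a ∈ D) (hb : b ∈ D) (hc : c ∈ D) (hne : a ≠ b)
    (hab : Commute a b) (hac : ¬ Commute a c) (hbc : ¬ Commute b c) :
    ¬ Commute b (c * a * c) := by
  obtain ⟨φ, hinj, h0, h1, h2⟩ := S4.exists_injective_hom hD ha hc hb hne hab hac
    (fun h => hbc h.symm)
  intro hcomm
  have key : swap (2 : Fin 4) 3 * (swap 1 2 * swap 0 1 * swap 1 2)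
      ≠ (swap 1 2 * swap 0 1 * swap 1 2) * swap 2 3 := by decide
  apply key
  apply hinj
  simp only [map_mul, h0, h1, h2]
  exact hcomm

/-- The element `r = a a^{xy}` swaps `x` and `y`, for `x`, `y` commuting, and `a` adjacent to
both.  We also get that it moves `z` to a point adjacent to `u`. -/
theorem mixed_r (hconj : ∀ g : G, ∀ d ∈ D, g * d * g⁻¹ ∈ D) {x y a u z : G} (hx : x ∈ D) (hy : y ∈ D)
    (ha : a ∈ D) (hu : u ∈ D) (hz : z ∈ D) (hxy : Commute x y) (hax : ¬ Commute a x)
    (hay : ¬ Commute a y) (hux : Commute u x) (huy : ¬ Commute u y) (hua : Commute u a)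
    (hzx : Commute z x) (hzy : Commute z y) (hza : ¬ Commute z a) (hzu : Commute z u)
    (hzu' : z ≠ u) :
    ∃ r : G, r * r = 1 ∧ r * x * r = y ∧ r * y * r = x ∧ ¬ Commute (r * z * r) u := by
  obtain ⟨φ, h0, h1, h2⟩ := exists_s4 hD hx hy ha hxy (fun h => hax h.symm) (fun h => hay h.symm)
  have hxx := mul_self_of_mem hD hx
  have hyy := mul_self_of_mem hD hy
  have haa := mul_self_of_mem hD ha
  have hzz := mul_self_of_mem hD hz
  set a₂ := x * y * a * y * x with ha₂
  have ha₂D : a₂ ∈ D := by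
    have := hconj (x * y) a ha
    rw [mul_inv_rev, inv_of_mem hD hx, inv_of_mem hD hy] at this
    rw [ha₂]
    convert this using 1
    group
  have hr1 : (a * a₂) * (a * a₂) = 1 := by
    have key : (swap (1 : Fin 4) 2 * (swap 0 1 * swap 2 3 * swap 1 2 * swap 2 3 * swap 0 1)) *
        (swap 1 2 * (swap 0 1 * swap 2 3 * swap 1 2 * swap 2 3 * swap 0 1)) = 1 := by decide
    have := congrArg φ key
    simp only [map_mul, map_one, h0, h1, h2] at this
    exact this
  have hr2 : (a * a₂) * x * (a * a₂) = y := by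
    have key : (swap (1 : Fin 4) 2 * (swap 0 1 * swap 2 3 * swap 1 2 * swap 2 3 * swap 0 1)) *
        swap 0 1 * (swap 1 2 * (swap 0 1 * swap 2 3 * swap 1 2 * swap 2 3 * swap 0 1)) =
        swap 2 3 := by decide
    have := congrArg φ key
    simp only [map_mul, h0, h1, h2] at this
    exact this
  have hr3 : (a * a₂) * y * (a * a₂) = x := by
    have key : (swap (1 : Fin 4) 2 * (swap 0 1 * swap 2 3 * swap 1 2 * swap 2 3 * swap 0 1)) *
        swap 2 3 * (swap 1 2 * (swap 0 1 * swap 2 3 * swap 1 2 * swap 2 3 * swap 0 1)) =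
        swap 0 1 := by decide
    have := congrArg φ key
    simp only [map_mul, h0, h1, h2] at this
    exact this
  have hcomm : Commute a a₂ := by
    have key : swap (1 : Fin 4) 2 * (swap 0 1 * swap 2 3 * swap 1 2 * swap 2 3 * swap 0 1) =
        (swap 0 1 * swap 2 3 * swap 1 2 * swap 2 3 * swap 0 1) * swap 1 2 := by decide
    have := congrArg φ key
    simp only [map_mul, h0, h1, h2] at this
    exact this
  -- `u` is adjacent to `a₂`
  have hne : a ≠ u := by
    rintro rfl
    exact hax hux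
  have hua₂ : ¬ Commute u a₂ := by
    intro hc
    have h3 : Commute u (y * a * y) := by
      have h4 : x * a₂ * x = y * a * y := by
        rw [ha₂]
        calc x * (x * y * a * y * x) * x = (x * x) * (y * a * y) * (x * x) := by group
          _ = y * a * y := by rw [hxx]; group
      rw [← h4]
      exact (comm_conj_iff hxx hux.symm).2 hc
    exact s4_not_comm hD ha hu hy hne hua.symm (fun h => hay h) (fun h => huy h) h3
  -- `z` is adjacent to `a₂`
  have hza₂ : ¬ Commute z a₂ := by
    intro hc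
    apply hza
    have h4 : Commute z (x * y * a * y * x) := hc
    have e : x * y * a * y * x = x * (y * a * y) * x := by group
    rw [e, comm_conj_iff hxx hzx.symm, comm_conj_iff hyy hzy.symm] at h4
    exact h4
  -- `r u r = a₂ u a₂`
  have hra₂ : a₂ * a₂ = 1 := mul_self_of_mem hD ha₂D
  have hru : (a * a₂) * u * (a * a₂) = a₂ * u * a₂ := by
    have e1 : a * u * a = u := conj_of_comm haa hua.symm
    calc (a * a₂) * u * (a * a₂) = (a₂ * a) * u * (a * a₂) := by rw [hcomm.eq]
      _ = a₂ * (a * u * a) * a₂ := by group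
      _ = a₂ * u * a₂ := by rw [e1]
  refine ⟨a * a₂, hr1, hr2, hr3, ?_⟩
  intro hc
  have h5 : Commute z ((a * a₂) * u * (a * a₂)) := by
    have := conj_comm hr1 hc
    rwa [conj_conj hr1] at this
  rw [hru] at h5
  exact s4_not_comm hD hu hz ha₂D (Ne.symm hzu') hzu.symm hua₂ hza₂ h5

end S4Facts

section Graph

/-- Adjacency (non-commuting) inside a set. -/
def adjIn (S : Set G) (a b : G) : Prop := a ∈ S ∧ b ∈ S ∧ ¬ Commute a b

theorem adjIn_symm (S : Set G) {a b : G} (h : adjIn S a b) : adjIn S b a :=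
  ⟨h.2.1, h.1, fun hc => h.2.2 hc.symm⟩

/-- The connected component of `p` in the non-commuting graph on `S`. -/
def comp (S : Set G) (p : G) : Set G := {q | Relation.ReflTransGen (adjIn S) p q}

theorem mem_comp_self (S : Set G) (p : G) : p ∈ comp S p := Relation.ReflTransGen.refl

theorem comp_step {S : Set G} {p q r : G} (hq : q ∈ comp S p) (h : adjIn S q r) : r ∈ comp S p :=
  Relation.ReflTransGen.tail hq h

theorem comp_subset {S : Set G} {p : G} (hp : p ∈ S) : comp S p ⊆ S := by
  intro q hq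
  have hq' : Relation.ReflTransGen (adjIn S) p q := hq
  induction hq' with
  | refl => exact hp
  | tail _ hbc _ => exact hbc.2.1

theorem comp_symm {S : Set G} {p q : G} (hq : q ∈ comp S p) : p ∈ comp S q := by
  have hq' : Relation.ReflTransGen (adjIn S) p q := hq
  induction hq' with
  | refl => exact mem_comp_self S p
  | tail _ hbc ih => exact Relation.ReflTransGen.head (adjIn_symm S hbc) (ih (by assumption))

theorem comp_trans {S : Set G} {p q r : G} (hq : q ∈ comp S p) (hr : r ∈ comp S q) : r ∈ comp S p :=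
  Relation.ReflTransGen.trans hq hr

/-- Connectedness of the non-commuting graph, phrased with closed subsets. -/
def Conn (N : Set G) : Prop :=
  ∀ T ⊆ N, T.Nonempty → (∀ u ∈ T, ∀ v ∈ N, ¬ Commute u v → v ∈ T) → T = N

theorem comp_conn {S : Set G} {p : G} (hp : p ∈ S) : Conn (comp S p) := by
  intro T hT ⟨t, ht⟩ hcl
  apply Set.Subset.antisymm hT
  intro q hq
  have h1 : q ∈ comp S t := comp_trans (comp_symm (hT ht)) hq
  have h1' : Relation.ReflTransGen (adjIn S) t q := h1
  clear hq h1
  induction h1' with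
  | refl => exact ht
  | tail _ hbc ih =>
    exact hcl _ ih _ (comp_step (hT ih) hbc) hbc.2.2

theorem comp_commute {S : Set G} {p q r : G} (hq : q ∈ comp S p) (hp : p ∈ S) (hr : r ∈ S)
    (hr' : r ∉ comp S p) : Commute q r := by
  by_contra hc
  exact hr' (comp_step hq ⟨comp_subset hp hq, hr, hc⟩)

variable {D : Set G}

/-- A component of a module is a module. -/
theorem isMod_comp {S : Set G} (hS : IsMod D S) {p : G} (hp : p ∈ S) : IsMod D (comp S p) := by
  refine ⟨(comp_subset hp).trans hS.1, ?_⟩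
  intro t ht htc
  by_cases htS : t ∈ S
  · left
    intro m hm
    exact (comp_commute hm hp htS htc).symm
  · rcases hS.2 t ht htS with h | h
    · exact Or.inl fun m hm => h m (comp_subset hp hm)
    · exact Or.inr fun m hm => h m (comp_subset hp hm)

theorem isMod_inter {N N' : Set G} (h : IsMod D N) (h' : IsMod D N') : IsMod D (N ∩ N') := by
  refine ⟨fun x hx => h.1 hx.1, ?_⟩
  intro t ht htN
  by_cases h1 : t ∈ N
  · have h2 : t ∉ N' := fun h2 => htN ⟨h1, h2⟩
    rcases h'.2 t ht h2 with h3 | h3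
    · exact Or.inl fun m hm => h3 m hm.2
    · exact Or.inr fun m hm => h3 m hm.2
  · rcases h.2 t ht h1 with h3 | h3
    · exact Or.inl fun m hm => h3 m hm.1
    · exact Or.inr fun m hm => h3 m hm.1

theorem isMod_diff {N N' : Set G} (h : IsMod D N) (h' : IsMod D N') {q : G} (hq : q ∈ N')
    (hqN : q ∉ N) : IsMod D (N \ N') := by
  refine ⟨fun x hx => h.1 hx.1, ?_⟩
  intro t ht htN
  by_cases h1 : t ∈ N
  · have h2 : t ∈ N' := by
      by_contra h2
      exact htN ⟨h1, h2⟩
    -- `m` is uniform on `N'`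
    have huni : ∀ m ∈ N \ N', (Commute m t ↔ Commute m q) := by
      intro m hm
      rcases h'.2 m (h.1 hm.1) hm.2 with h3 | h3
      · exact ⟨fun _ => h3 q hq, fun _ => h3 t h2⟩
      · exact ⟨fun hc => absurd hc (h3 t h2), fun hc => absurd hc (h3 q hq)⟩
    rcases h.2 q (h'.1 hq) hqN with h3 | h3
    · left
      intro m hm
      exact ((huni m hm).2 (h3 m hm.1).symm).symm
    · right
      intro m hm hc
      exact h3 m hm.1 ((huni m hm).1 hc.symm).symm
  · rcases h.2 t ht h1 with h3 | h3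
    · exact Or.inl fun m hm => h3 m hm.1
    · exact Or.inr fun m hm => h3 m hm.1

/-- The modules we are after: connected, at least two points, and a commuting point outside. -/
def Good (D N : Set G) : Prop :=
  IsMod D N ∧ Conn N ∧ N.Nontrivial ∧ ∃ y ∈ D, y ∉ N ∧ ∀ m ∈ N, Commute y m

end Graph

section Closure

variable {D : Set G}

/-- Points outside `C` commuting with `C`. -/
def Bs (D C : Set G) : Set G := {b | b ∈ D ∧ b ∉ C ∧ ∀ c ∈ C, Commute b c}

/-- `u` is adjacent to every point outside `C` which is adjacent to a point of `C`. -/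
def IsT (D C : Set G) (u : G) : Prop :=
  ∀ t ∈ D, t ∉ C → (∃ c ∈ C, ¬ Commute c t) → ¬ Commute u t

variable (hD : IsThreeTranspositionSet D) (hconj : ∀ g : G, ∀ d ∈ D, g * d * g⁻¹ ∈ D)
include hD hconj

/-- The closure lemma. -/
theorem closure_step {C : Set G} {u b : G} (hu : u ∈ Bs D C) (hb : b ∈ Bs D C)
    (hub : ¬ Commute u b) (hT : IsT D C u) : IsT D C b := by
  rintro w hw hwC ⟨y, hyC, hyw⟩ hbw
  have huD := hu.1
  have hbD := hb.1
  have huu := mul_self_of_mem hD huD
  have hbb := mul_self_of_mem hD hbD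
  have huw : ¬ Commute u w := hT w hw hwC ⟨y, hyC, hyw⟩
  have hw' : u * w * u ∈ D := op_mem hD hconj huD hw
  have ht : b * (u * w * u) * b ∈ D := op_mem hD hconj hbD hw'
  set t := b * (u * w * u) * b with htdef
  have htu : Commute t u :=
    s4_comm_one hD hw hbD huD hbw.symm (fun h => huw h.symm) (fun h => hub h.symm)
  have hyu : Commute u y := hu.2.2 y hyC
  have hyb : Commute b y := hb.2.2 y hyC
  have hyw' : ¬ Commute y (u * w * u) := fun hc => hyw ((comm_conj_iff huu hyu).1 hc)
  have hyt : ¬ Commute y t := fun hc => hyw' ((comm_conj_iff hbb hyb).1 hc)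
  have htC : t ∈ C := by
    by_contra htC
    exact hT t ht htC ⟨y, hyC, hyt⟩ htu.symm
  have hbt : Commute b t := hb.2.2 t htC
  have e : u * w * u = t := by
    have h1 : b * t * b = t := conj_of_comm hbb hbt
    have h2 : b * t * b = u * w * u := by
      rw [htdef]
      exact conj_conj hbb
    rw [← h2, h1]
  apply huw
  rw [← e] at htu
  exact ((conj_comm_self_iff huu).1 htu).symm

theorem comp_isT {C : Set G} {x : G} (hT : IsT D C x) {q : G} (hq : q ∈ comp (Bs D C) x) :
    IsT D C q := by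
  have hq' : Relation.ReflTransGen (adjIn (Bs D C)) x q := hq
  induction hq' with
  | refl => exact hT
  | tail _ hbc ih =>
    exact closure_step hD hconj hbc.1 hbc.2.1 hbc.2.2 (ih (by assumption))

theorem good_comp {C : Set G} {x y b : G} (hx : x ∈ Bs D C) (hT : IsT D C x) (hyC : y ∈ C)
    (hCD : C ⊆ D) (hb : b ∈ comp (Bs D C) x) (hbx : b ≠ x) : Good D (comp (Bs D C) x) := by
  have hsub : comp (Bs D C) x ⊆ Bs D C := comp_subset hx
  refine ⟨⟨fun m hm => (hsub hm).1, ?_⟩, comp_conn hx, ⟨x, mem_comp_self _ _, b, hb, hbx.symm⟩,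
    y, hCD hyC, fun h => (hsub h).2.1 hyC, fun m hm => ((hsub hm).2.2 y hyC).symm⟩
  intro t ht htc
  by_cases htC : t ∈ C
  · left
    intro m hm
    exact ((hsub hm).2.2 t htC).symm
  by_cases htB : t ∈ Bs D C
  · left
    intro m hm
    exact (comp_commute hm hx htB htc).symm
  · right
    have hex : ∃ c ∈ C, ¬ Commute c t := by
      by_contra hno
      push Not at hno
      exact htB ⟨ht, htC, fun c hc => (hno c hc).symm⟩
    intro m hm hc
    exact comp_isT hD hconj hT hm t ht htC hex hc.symm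

end Closure

section Minimal

variable [Finite G] {D : Set G}

/-- A module properly inside a minimal good module has at most one point. -/
theorem subsingleton_of_min (hrel : ∀ a ∈ D, ∀ b ∈ D, Rel D a b → a = b) {N : Set G}
    (hN : Good D N) (hmin : ∀ N', Good D N' → N.ncard ≤ N'.ncard) {S : Set G} (hS : IsMod D S)
    (hSN : S ⊆ N) (hne : S ≠ N) : S.Subsingleton := by
  obtain ⟨y, hy, hyN, hyc⟩ := hN.2.2.2
  have hlt : S.ncard < N.ncard := Set.ncard_lt_ncard (Set.ssubset_iff_subset_ne.2 ⟨hSN, hne⟩)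
    (Set.toFinite _)
  have hcomm : ∀ u ∈ S, ∀ v ∈ S, Commute u v := by
    intro u hu v hv
    by_contra hc
    have hne : u ≠ v := by
      rintro rfl
      exact hc (Commute.refl _)
    have hv' : v ∈ comp S u := comp_step (mem_comp_self S u) ⟨hu, hv, hc⟩
    have hsub : comp S u ⊆ S := comp_subset hu
    have hg : Good D (comp S u) := by
      refine ⟨isMod_comp hS hu, comp_conn hu, ⟨u, mem_comp_self _ _, v, hv', hne⟩, y, hy,
        fun h => hyN (hSN (hsub h)), fun m hm => hyc m (hSN (hsub hm))⟩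
    have h1 := hmin _ hg
    have h2 : (comp S u).ncard ≤ S.ncard := Set.ncard_le_ncard hsub (Set.toFinite _)
    omega
  intro p hp q hq
  apply hrel p (hS.1 hp) q (hS.1 hq)
  intro e he
  by_cases heS : e ∈ S
  · exact ⟨fun _ => hcomm q hq e heS, fun _ => hcomm p hp e heS⟩
  · rcases hS.2 e he heS with h | h
    · exact ⟨fun _ => (h q hq).symm, fun _ => (h p hp).symm⟩
    · exact ⟨fun hc => absurd hc.symm (h p hp), fun hc => absurd hc.symm (h q hq)⟩

/-- A minimal good module is a block. -/
theorem block_of_min (hG : IsThreeTranspositionGroup D)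
    (hrel : ∀ a ∈ D, ∀ b ∈ D, Rel D a b → a = b) (hwr : ∀ a ∈ D, ∀ b ∈ D, Wr D a b → a = b)
    {N : Set G} (hN : Good D N) (hmin : ∀ N', Good D N' → N.ncard ≤ N'.ncard) (g : G) :
    (fun x => g * x * g⁻¹) '' N = N ∨ Disjoint ((fun x => g * x * g⁻¹) '' N) N := by
  by_contra hcon
  push Not at hcon
  obtain ⟨hgne, hgdis⟩ := hcon
  rw [Set.not_disjoint_iff] at hgdis
  obtain ⟨i, hi1, hi2⟩ := hgdis
  set N' := (fun x => g * x * g⁻¹) '' N with hN'
  have hN'm : IsMod D N' := hN.1.conj hG g
  have hcard : N'.ncard = N.ncard := by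
    apply Set.ncard_image_of_injective
    intro x y hxy
    simpa using hxy
  have hex1 : ∃ a, a ∈ N ∧ a ∉ N' := by
    by_contra hc
    push Not at hc
    apply hgne
    exact Eq.symm (Set.eq_of_subset_of_ncard_le hc (le_of_eq hcard) (Set.toFinite _))
  have hex2 : ∃ b, b ∈ N' ∧ b ∉ N := by
    by_contra hc
    push Not at hc
    apply hgne
    exact Set.eq_of_subset_of_ncard_le hc (le_of_eq hcard.symm) (Set.toFinite _)
  obtain ⟨a₀, ha₀, ha₀'⟩ := hex1
  obtain ⟨b₀, hb₀, hb₀'⟩ := hex2
  have hP : (N \ N').Subsingleton := by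
    apply subsingleton_of_min hrel hN hmin (isMod_diff hN.1 hN'm hb₀ hb₀') Set.sdiff_subset
    intro h
    have : i ∈ N \ N' := by rw [h]; exact hi2
    exact this.2 hi1
  have hI : (N ∩ N').Subsingleton := by
    apply subsingleton_of_min hrel hN hmin (isMod_inter hN.1 hN'm) Set.inter_subset_left
    intro h
    have : a₀ ∈ N ∩ N' := by rw [h]; exact ha₀
    exact ha₀' this.2
  have hcases : ∀ n ∈ N, n = a₀ ∨ n = i := by
    intro n hn
    by_cases hn' : n ∈ N'
    · exact Or.inr (hI ⟨hn, hn'⟩ ⟨hi2, hi1⟩)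
    · exact Or.inl (hP ⟨hn, hn'⟩ ⟨ha₀, ha₀'⟩)
  have hne : a₀ ≠ i := fun h => ha₀' (h ▸ hi1)
  have hadj : ¬ Commute a₀ i := by
    intro hc
    have h1 : ({a₀} : Set G) = N := by
      apply hN.2.1
      · rintro _ rfl
        exact ha₀
      · exact ⟨a₀, rfl⟩
      · rintro u rfl v hv hnc
        rcases hcases v hv with rfl | rfl
        · rfl
        · exact absurd hc hnc
    have : i ∈ ({a₀} : Set G) := by rw [h1]; exact hi2
    exact hne this.symm
  apply hne
  apply hwr a₀ (hN.1.1 ha₀) i (hN.1.1 hi2)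
  intro e he
  by_cases heN : e ∈ N
  · rcases hcases e heN with rfl | rfl
    · constructor
      · rintro ⟨h, -⟩
        exact absurd rfl h
      · rintro ⟨-, h⟩
        exact absurd h.symm hadj
    · constructor
      · rintro ⟨-, h⟩
        exact absurd h hadj
      · rintro ⟨h, -⟩
        exact absurd rfl h
  · have h1 : e ≠ a₀ := fun h => heN (h ▸ ha₀)
    have h2 : e ≠ i := fun h => heN (h ▸ hi2)
    rcases hN.1.2 e he heN with h | h
    · exact ⟨fun _ => ⟨h2, (h i hi2).symm⟩, fun _ => ⟨h1, (h a₀ ha₀).symm⟩⟩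
    · exact ⟨fun hc => absurd hc.2.symm (h a₀ ha₀), fun hc => absurd hc.2.symm (h i hi2)⟩

end Minimal

section Block

variable [Finite G] {D : Set G}

/-- A block with two points cannot have a point outside commuting with it. -/
theorem false_of_block (hD : IsThreeTranspositionClass D) (hD2 : ∃ a ∈ D, ∃ b ∈ D, a ≠ b)
    (h2 : Cfsg.pCore 2 G ≤ Subgroup.center G) (h3 : Cfsg.pCore 3 G ≤ Subgroup.center G)
    (hrel : ∀ a ∈ D, ∀ b ∈ D, Rel D a b → a = b) {B : Set G} (hBD : B ⊆ D)
    (hB : ∀ g : G, (fun x => g * x * g⁻¹) '' B = B ∨ Disjoint ((fun x => g * x * g⁻¹) '' B) B)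
    {a b : G} (ha : a ∈ B) (hb : b ∈ B) (hab : a ≠ b) {y : G} (hy : y ∈ D) (hyB : y ∉ B)
    (hyc : ∀ m ∈ B, Commute y m) : False := by
  have hG := isGroup_of_isClass hD
  obtain ⟨L, hn, hL, hF, -⟩ := Cfsg.Agent.S5352.result hD hD2 h2 h3
  have hLc : IsComponent L := ⟨Subgroup.Normal.isSubnormal inferInstance, hL⟩
  have hfit := Cfsg.Agent.Lib.ThreeT.Star.fitting_eq_center hD hD2 h2 h3
  have haa := mul_self_of_mem hD.1 (hBD ha)
  have hbb := mul_self_of_mem hD.1 (hBD hb)
  have hmem := mul_mem_blockKer hB hD.1 hBD hG.2.1 ha hb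
  have hNn := blockKer_normal B
  have hblk1 : blk B 1 = B := by
    ext y
    constructor
    · rintro ⟨x, hx, rfl⟩
      simpa using hx
    · intro hy
      exact ⟨y, hy, by simp⟩
  have hNs : ((blockKer B).subgroupOf L).Normal := inferInstance
  rcases normal_eq_top_or_le_center hL ((blockKer B).subgroupOf L) with h | h
  · -- `L` stabilizes the blocks
    have hLN : ∀ x ∈ L, x ∈ blockKer B := by
      intro x hx
      have : (⟨x, hx⟩ : L) ∈ (blockKer B).subgroupOf L := by rw [h]; trivial
      simpa [Subgroup.mem_subgroupOf] using this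
    obtain ⟨g, hg⟩ := exists_conj_of_isClass hD (hBD ha) hy
    have hyV : y ∈ blk B g := ⟨a, ha, hg⟩
    have hdisj : ∀ v ∈ blk B g, v ∉ B := by
      intro v hv hvB
      have h1 : v ∈ blk B 1 := by rw [hblk1]; exact hvB
      have h3 := blk_eq_of_mem hB hv h1
      apply hyB
      rw [← hblk1, ← h3]
      exact hyV
    have hcm : ∀ m ∈ B, ∀ v ∈ blk B g, Commute m v := by
      intro m hm v hv
      obtain ⟨x, hx, rfl⟩ := hv
      have hm' : g⁻¹ * m * g⁻¹⁻¹ ∈ D := hG.2.1 g⁻¹ m (hBD hm)
      have hnot : g⁻¹ * m * g⁻¹⁻¹ ∉ B := by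
        intro hmB
        have : m ∈ blk B g := ⟨_, hmB, by group⟩
        exact hdisj m this hm
      have h1 : Commute (g⁻¹ * m * g⁻¹⁻¹) a := by
        have h2 := (hyc m hm).symm
        rw [← hg] at h2
        have := commute_conj (g := g⁻¹) h2
        have e1 : g⁻¹ * (g * a * g⁻¹) * g⁻¹⁻¹ = a := by group
        rwa [e1] at this
      have h2 := commute_of_commute_of_notMem hB hD.1 hBD ha hx hm' hnot h1
      have h3 := commute_conj (g := g) h2
      have e1 : g * (g⁻¹ * m * g⁻¹⁻¹) * g⁻¹ = m := by group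
      rwa [e1] at h3
    have hpts : ∀ l ∈ L, ∀ l' ∈ L, Commute (l * a * l⁻¹) (l' * y * l'⁻¹) := by
      intro l hl l' hl'
      apply hcm
      · have h1 : a ∈ blk B 1 := by rw [hblk1]; exact ha
        have := (hLN l hl 1 a h1).1
        rwa [hblk1] at this
      · exact (hLN l' hl' g y hyV).1
    have hPa := prods_eq_of_component hD hLc hn (hBD ha)
    have hPb := prods_eq_of_component hD hLc hn hy
    have hcomm : ∀ x ∈ L, ∀ z ∈ L, Commute x z := by
      intro x hx z hz
      apply comm_of_closure₂ (S := prods a L) (T := prods y L) _ (hPa hx) (hPb hz)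
      rintro _ ⟨l, hl, rfl⟩ _ ⟨l', hl', rfl⟩
      have h1 : Commute a (l' * y * l'⁻¹) := by
        simpa using hpts 1 L.one_mem l' hl'
      have h2 : Commute a y := by
        simpa using hpts 1 L.one_mem 1 L.one_mem
      have h3 : Commute (l * a * l⁻¹) y := by
        simpa using hpts l hl 1 L.one_mem
      have h4 := hpts l hl l' hl'
      exact Commute.mul_left (h2.mul_right h1) (h3.mul_right h4)
    apply ne_bot_of_quasisimple hL
    rw [← commutator_self_of_quasisimple hL, Subgroup.commutator_eq_bot_iff_le_centralizer]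
    intro x hx
    rw [Subgroup.mem_centralizer_iff]
    intro z hz
    exact hcomm z hz x hx
  · have hperf : ⁅L, L⁆ = L := commutator_self_of_quasisimple hL
    have hcomm : ∀ x ∈ L, Commute (a * b) x := by
      apply commute_of_comm_commute hperf
      intro e he f hf
      have h1 : a * b * e * (a * b)⁻¹ * e⁻¹ ∈ L :=
        L.mul_mem (hn.conj_mem e he _) (L.inv_mem he)
      have h2' : a * b * e * (a * b)⁻¹ * e⁻¹ ∈ blockKer B := by
        have : a * b * e * (a * b)⁻¹ * e⁻¹ = (a * b) * (e * (a * b)⁻¹ * e⁻¹) := by group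
        rw [this]
        exact Subgroup.mul_mem _ hmem (hNn.conj_mem _ (Subgroup.inv_mem _ hmem) e)
      have h3' : (⟨_, h1⟩ : L) ∈ (blockKer B).subgroupOf L := by
        simpa [Subgroup.mem_subgroupOf] using h2'
      have h4 := Subgroup.mem_center_iff.1 (h h3') ⟨f, hf⟩
      have h5 : f * (a * b * e * (a * b)⁻¹ * e⁻¹) = (a * b * e * (a * b)⁻¹ * e⁻¹) * f :=
        congrArg Subtype.val h4
      exact h5.symm
    have hc := central_of_centralizes hfit hF hcomm
    apply hab
    apply hrel a (hBD ha) b (hBD hb)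
    intro e _
    have hce : Commute (a * b) e := (Subgroup.mem_center_iff.1 hc e).symm
    constructor
    · intro ha'
      have he : b = a * (a * b) := by rw [← mul_assoc, haa, one_mul]
      rw [he]
      exact ha'.mul_left hce
    · intro hb'
      have : a = b * (a * b) := by
        calc a = (a * b) * b := by rw [mul_assoc, hbb, mul_one]
          _ = b * (a * b) := (Subgroup.mem_center_iff.1 hc b).symm
      rw [this]
      exact hb'.mul_left hce

/-- There are no good modules. -/
theorem no_good (hD : IsThreeTranspositionClass D) (hD2 : ∃ a ∈ D, ∃ b ∈ D, a ≠ b)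
    (h2 : Cfsg.pCore 2 G ≤ Subgroup.center G) (h3 : Cfsg.pCore 3 G ≤ Subgroup.center G)
    (hrel : ∀ a ∈ D, ∀ b ∈ D, Rel D a b → a = b) (hwr : ∀ a ∈ D, ∀ b ∈ D, Wr D a b → a = b)
    {N₀ : Set G} (hN₀ : Good D N₀) : False := by
  obtain ⟨N, hN, hmin⟩ := Set.exists_min_image {N | Good D N} Set.ncard (Set.toFinite _) ⟨N₀, hN₀⟩
  have hblock := block_of_min (isGroup_of_isClass hD) hrel hwr hN (fun N' hN' => hmin N' hN')
  obtain ⟨a, ha, b, hb, hab⟩ := hN.2.2.1
  obtain ⟨y, hy, hyN, hyc⟩ := hN.2.2.2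
  exact false_of_block hD hD2 h2 h3 hrel hN.1.1 hblock ha hb hab hy hyN hyc

end Block

section Main

variable [Finite G] {D : Set G}

/-- The points other than `x` commuting with `x`. -/
def Dx (D : Set G) (x : G) : Set G := {y | y ∈ D ∧ y ≠ x ∧ Commute x y}

omit [Finite G] in
theorem isT_of_comp_Dx {x p : G} (hp : p ∈ Dx D x) : IsT D (comp (Dx D x) p) x := by
  rintro t ht htC ⟨c, hc, hct⟩ hxt
  have hcDx := comp_subset hp hc
  by_cases htx : t = x
  · subst htx
    exact hct hcDx.2.2.symm
  · exact htC (comp_step hc ⟨hcDx, ⟨ht, htx, hxt⟩, hct⟩)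

omit [Finite G] in
theorem x_mem_Bs {x p : G} (hx : x ∈ D) (hp : p ∈ Dx D x) : x ∈ Bs D (comp (Dx D x) p) :=
  ⟨hx, fun h => (comp_subset hp h).2.1 rfl, fun _ hc => (comp_subset hp hc).2.2⟩

variable (hS : IsThreeTranspositionSet D) (hconj : ∀ g : G, ∀ d ∈ D, g * d * g⁻¹ ∈ D)
  (hno : ∀ N, ¬ Good D N)
include hS hconj hno

omit [Finite G] in
/-- Every row touches every component. -/
theorem row_touch {x p a : G} (hx : x ∈ D) (hp : p ∈ Dx D x) (ha : a ∈ D) (hxa : ¬ Commute x a) :
    ∃ z ∈ comp (Dx D x) p, ¬ Commute a z := by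
  by_contra hc
  push Not at hc
  have hB := x_mem_Bs hx hp
  have haB : a ∈ Bs D (comp (Dx D x) p) :=
    ⟨ha, fun h => hxa (comp_subset hp h).2.2, hc⟩
  have hax : a ∈ comp (Bs D (comp (Dx D x) p)) x := comp_step (mem_comp_self _ _) ⟨hB, haB, hxa⟩
  have hane : a ≠ x := by
    rintro rfl
    exact hxa (Commute.refl _)
  exact hno _ (good_comp hS hconj hB (isT_of_comp_Dx hp) (mem_comp_self _ p)
    (fun c hc => (comp_subset hp hc).1) hax hane)

/-- A row mixed on a component `M` forces any other component to be smaller. -/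
theorem card_lt_of_mixed {x m₀ p a u v : G} (hx : x ∈ D) (hm₀ : m₀ ∈ Dx D x) (hp : p ∈ Dx D x)
    (hpM : p ∉ comp (Dx D x) m₀) (ha : a ∈ D) (hxa : ¬ Commute x a)
    (hu : u ∈ comp (Dx D x) m₀) (hv : v ∈ comp (Dx D x) m₀) (huv : ¬ Commute u v)
    (hau : ¬ Commute a u) (hav : Commute a v) :
    (comp (Dx D x) p).ncard < (comp (Dx D x) m₀).ncard := by
  obtain ⟨z, hzC, hza⟩ := row_touch hS hconj hno hx hp ha hxa
  have huD := comp_subset hm₀ hu
  have hvD := comp_subset hm₀ hv
  have hout : ∀ c ∈ comp (Dx D x) p, c ∉ comp (Dx D x) m₀ := by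
    intro c hc hcM
    exact hpM (comp_trans hcM (comp_symm hc))
  have hcDx : ∀ c ∈ comp (Dx D x) p, c ∈ Dx D x := fun c hc => comp_subset hp hc
  have hcu : ∀ c ∈ comp (Dx D x) p, Commute u c := fun c hc =>
    comp_commute hu hm₀ (hcDx c hc) (hout c hc)
  have hcv : ∀ c ∈ comp (Dx D x) p, Commute v c := fun c hc =>
    comp_commute hv hm₀ (hcDx c hc) (hout c hc)
  have hzDx := hcDx z hzC
  have hzv : z ≠ v := by
    rintro rfl
    exact hout _ hzC hv
  obtain ⟨r, hrr, hrx, hru, hrz⟩ := mixed_r hS hconj (x := x) (y := u) (a := a) (u := v) (z := z) hx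
    huD.1 ha hvD.1 hzDx.1 huD.2.2 (fun h => hxa h.symm) hau hvD.2.2.symm (fun h => huv h.symm)
    hav.symm hzDx.2.2.symm (hcu z hzC).symm (fun h => hza h.symm) (hcv z hzC).symm hzv
  have hri : r⁻¹ = r := inv_eq_of_mul_eq_one_left hrr
  have himg : ∀ c ∈ comp (Dx D x) p, r * c * r ∈ Dx D x := by
    intro c hc
    have h1 := hcDx c hc
    refine ⟨?_, ?_, ?_⟩
    · have := hconj r c h1.1
      rwa [hri] at this
    · intro he
      have h2 : c = u := by
        rw [← hrx, ← he, conj_conj hrr]
      exact hout c hc (h2 ▸ hu)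
    · have := conj_comm hrr (hcu c hc)
      rwa [hru] at this
  have hall : {c | c ∈ comp (Dx D x) p ∧ r * c * r ∈ comp (Dx D x) m₀} = comp (Dx D x) p := by
    apply comp_conn hp
    · exact fun c hc => hc.1
    · refine ⟨z, hzC, ?_⟩
      exact comp_step hv ⟨hvD, himg z hzC, fun h => hrz h.symm⟩
    · rintro c ⟨hc, hcM⟩ w hw hnc
      refine ⟨hw, comp_step hcM ⟨himg c hc, himg w hw, ?_⟩⟩
      rwa [conj_comm_iff hrr]
  have hsub : (fun c => r * c * r) '' comp (Dx D x) p ⊆ comp (Dx D x) m₀ \ {u} := by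
    rintro _ ⟨c, hc, rfl⟩
    have hc' : c ∈ {c | c ∈ comp (Dx D x) p ∧ r * c * r ∈ comp (Dx D x) m₀} := by
      rw [hall]
      exact hc
    refine ⟨hc'.2, ?_⟩
    intro he
    have he' : r * c * r = u := he
    have h2 : c = x := by
      rw [← hru, ← he', conj_conj hrr]
    exact (hcDx c hc).2.1 h2
  have hinj : Function.Injective (fun c => r * c * r) := by
    intro c d hcd
    simpa using hcd
  rw [← Set.ncard_image_of_injective _ hinj]
  exact lt_of_le_of_lt (Set.ncard_le_ncard hsub (Set.toFinite _))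
    (Set.ncard_sdiff_singleton_lt_of_mem hu (Set.toFinite _))

/-- Connectedness from the absence of good modules and `Rel` trivial. -/
theorem comp_eq_of_no_good (hrel : ∀ a ∈ D, ∀ b ∈ D, Rel D a b → a = b) {x y y' : G} (hx : x ∈ D)
    (hy : y ∈ Dx D x) (hy' : y' ∈ Dx D x) : y' ∈ comp (Dx D x) y := by
  by_contra hnot
  have hne : ((comp (Dx D x)) '' (Dx D x)).Nonempty := ⟨_, y, hy, rfl⟩
  obtain ⟨_, ⟨m₀, hm₀, rfl⟩, hmin⟩ :=
    Set.exists_min_image ((comp (Dx D x)) '' (Dx D x)) Set.ncard (Set.toFinite _) hne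
  obtain ⟨p, hp, hpM⟩ : ∃ p ∈ Dx D x, p ∉ comp (Dx D x) m₀ := by
    by_cases hyM : y ∈ comp (Dx D x) m₀
    · refine ⟨y', hy', fun h => hnot (comp_trans (comp_symm hyM) h)⟩
    · exact ⟨y, hy, hyM⟩
  have hmin' := hmin _ ⟨p, hp, rfl⟩
  set M := comp (Dx D x) m₀ with hM
  have hMsub : M ⊆ Dx D x := comp_subset hm₀
  -- rows are full on `M`
  have hfull : ∀ a ∈ D, ¬ Commute x a → ∀ m ∈ M, ¬ Commute a m := by
    intro a ha hxa
    have hT : {m | m ∈ M ∧ ¬ Commute a m} = M := by
      apply comp_conn hm₀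
      · exact fun c hc => hc.1
      · obtain ⟨z, hz, hza⟩ := row_touch hS hconj hno hx hm₀ ha hxa
        exact ⟨z, hz, hza⟩
      · rintro u ⟨hu, hau⟩ v hv huv
        refine ⟨hv, fun hav => ?_⟩
        exact absurd (card_lt_of_mixed hS hconj hno hx hm₀ hp hpM ha hxa hu hv huv hau hav)
          (not_lt.2 hmin')
    intro m hm
    have : m ∈ {m | m ∈ M ∧ ¬ Commute a m} := by rw [hT]; exact hm
    exact this.2
  have hoth : ∀ a ∈ D, Commute x a → a ∉ M → ∀ m ∈ M, Commute a m := by
    intro a ha hxa haM m hm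
    by_cases hax : a = x
    · rw [hax]
      exact (hMsub hm).2.2
    · exact (comp_commute hm hm₀ ⟨ha, hax, hxa⟩ haM).symm
  have hmod : IsMod D M := by
    refine ⟨fun m hm => (hMsub hm).1, ?_⟩
    intro a ha haM
    by_cases hxa : Commute x a
    · exact Or.inl (hoth a ha hxa haM)
    · exact Or.inr (hfull a ha hxa)
  have hxM : x ∉ M := fun h => (hMsub h).2.1 rfl
  -- `M` has two points
  have hnt : M.Nontrivial := by
    by_contra hns
    rw [Set.not_nontrivial_iff] at hns
    have hm₀M : m₀ ∈ M := mem_comp_self _ _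
    apply hm₀.2.1
    apply hrel m₀ hm₀.1 x hx
    intro e he
    constructor
    · intro hc
      by_contra hxe
      exact hfull e he hxe m₀ hm₀M hc.symm
    · intro hc
      by_cases heM : e ∈ M
      · have : e = m₀ := hns heM hm₀M
        rw [this]
      · exact (hoth e he hc heM m₀ hm₀M).symm
  exact hno M ⟨hmod, comp_conn hm₀, hnt, x, hx, hxM, fun m hm => (hMsub hm).2.2⟩

end Main

section Final

variable [Finite G] {D : Set G}

/-- The non-commuting graph on `D_x` is connected. -/
theorem dx_connected (hD : IsThreeTranspositionClass D)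
    (h2 : Cfsg.pCore 2 G ≤ Subgroup.center G) (h3 : Cfsg.pCore 3 G ≤ Subgroup.center G)
    {x y y' : G} (hx : x ∈ D) (hy : y ∈ Dx D x) (hy' : y' ∈ Dx D x) : y' ∈ comp (Dx D x) y := by
  have hG := isGroup_of_isClass hD
  have hD2 : ∃ a ∈ D, ∃ b ∈ D, a ≠ b := ⟨x, hx, y, hy.1, hy.2.1.symm⟩
  have hrel : ∀ a ∈ D, ∀ b ∈ D, Rel D a b → a = b := by
    intro a ha b hb h
    obtain ⟨g, hg, e⟩ := exists_pCore_conj_of_rel hD hD2 hb ha h
    rw [e, (Subgroup.mem_center_iff.1 (h2 hg) b).symm]
    group
  have hwr : ∀ a ∈ D, ∀ b ∈ D, Wr D a b → a = b := by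
    intro a ha b hb h
    obtain ⟨g, hg, e⟩ := wr_exists_conj hG.1 hG.2.1 ha hb h
    rw [e, (Subgroup.mem_center_iff.1 (h3 hg) a).symm]
    group
  exact comp_eq_of_no_good hG.1 hG.2.1 (fun N hN => no_good hD hD2 h2 h3 hrel hwr hN) hrel hx hy hy'

omit [Finite G] in
/-- Adjacent members of `D` are conjugate in the group they generate. -/
theorem mul_conj_eq (hS : IsThreeTranspositionSet D) {b c : G} (hb : b ∈ D) (hc : c ∈ D)
    (hbc : ¬ Commute b c) : (b * c) * b * (b * c)⁻¹ = c := by
  have hbr := braid hS hb hc hbc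
  have hbb := mul_self_of_mem hS hb
  have hcc := mul_self_of_mem hS hc
  rw [mul_inv_rev, inv_of_mem hS hb, inv_of_mem hS hc]
  calc b * c * b * (c * b) = (b * c * b) * c * b := by group
    _ = (c * b * c) * c * b := by rw [hbr]
    _ = c * b * (c * c) * b := by group
    _ = c * (b * b) := by rw [hcc]; group
    _ = c := by rw [hbb, mul_one]

/-- `D_x` is one class of the subgroup it generates. -/
theorem exists_conj_closure (hD : IsThreeTranspositionClass D)
    (h2 : Cfsg.pCore 2 G ≤ Subgroup.center G) (h3 : Cfsg.pCore 3 G ≤ Subgroup.center G)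
    {x y y' : G} (hx : x ∈ D) (hy : y ∈ Dx D x) (hy' : y' ∈ Dx D x) :
    ∃ g ∈ Subgroup.closure (Dx D x), g * y * g⁻¹ = y' := by
  have hc := dx_connected hD h2 h3 hx hy hy'
  have hc' : Relation.ReflTransGen (adjIn (Dx D x)) y y' := hc
  clear hc
  induction hc' with
  | refl => exact ⟨1, Subgroup.one_mem _, by simp⟩
  | @tail b c _ hbc ih =>
    obtain ⟨g, hg, e⟩ := ih hbc.1
    refine ⟨(b * c) * g, Subgroup.mul_mem _ (Subgroup.mul_mem _ (Subgroup.subset_closure hbc.1)
      (Subgroup.subset_closure hbc.2.1)) hg, ?_⟩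
    have h1 := mul_conj_eq hD.1 hbc.1.1 hbc.2.1.1 hbc.2.2
    calc (b * c) * g * y * ((b * c) * g)⁻¹ = (b * c) * (g * y * g⁻¹) * (b * c)⁻¹ := by group
      _ = c := by rw [e, h1]

end Final

end Cfsg.Agent.Lib.ThreeT.DxConn
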