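import Cfsg.Agent.S5346
import Cfsg.Agent.Lib.ThreeT.Class
import Cfsg.Agent.Lib.ThreeT.S4
import Cfsg.Agent.Lib.ThreeT.Sylow

/-!
# 3-transposition groups in which `C_D(d) = V_d`

If `W` is a normal 2-subgroup of `G`, then commuting of images of members of `D` in `G/W` lifts.
We show that if `C_D(d) = V_d` then some Sylow 3-subgroup is normalized by `d`.
-/

set_option autoImplicit false
set_option linter.unusedSectionVars false
set_option linter.unusedVariables false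

namespace Cfsg.Agent.Lib.ThreeT.Fiber

open Cfsg Cfsg.Agent.Lib.ThreeT.Basic Cfsg.Agent.Lib.ThreeT.Class

/-! ### The norm computation -/

theorem exists_of_norm {A P : Type*} [Group A] [Group P] [Finite P]
    (hc : ∀ a b : A, a * b = b * a) (h2 : ∀ a : A, a * a = 1) (ρ : P → A →* A)
    (hρ : ∀ p q a, ρ (p * q) a = ρ p (ρ q a)) (τ : A →* A)
    (σ : P → P) (hσσ : ∀ p, σ (σ p) = p) (hτρ : ∀ p a, τ (ρ p a) = ρ (σ p) (τ a))
    (hodd : Odd (Nat.card P)) (u : A) (hu : ∀ p, ρ p (u * τ u) = u * τ u)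
    (hX : ∀ x, σ x = x → ∃ z, ρ x u * u = z * τ z) :
    ∃ z c, (∀ p, ρ p c = c) ∧ u = z * τ z * c := by
  classical
  have := Fintype.ofFinite P
  let _ : CommGroup A := { ‹Group A› with mul_comm := hc }
  let L : Subgroup A :=
    { carrier := {a | ∃ z c, (∀ p, ρ p c = c) ∧ a = z * τ z * c}
      mul_mem' := by
        rintro _ _ ⟨z, c, h, rfl⟩ ⟨z', c', h', rfl⟩
        refine ⟨z * z', c * c', fun p => by rw [map_mul, h, h'], ?_⟩
        rw [map_mul]
        simp only [mul_assoc, mul_left_comm, mul_comm]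
      one_mem' := ⟨1, 1, fun p => map_one _, by simp⟩
      inv_mem' := by
        rintro _ ⟨z, c, h, rfl⟩
        refine ⟨z⁻¹, c⁻¹, fun p => by rw [map_inv, h], ?_⟩
        rw [map_inv]
        simp only [mul_inv_rev, mul_assoc, mul_left_comm, mul_comm] }
  have hLmem : ∀ z c : A, (∀ p, ρ p c = c) → z * τ z * c ∈ L := fun z c h => ⟨z, c, h, rfl⟩
  let f : A →* A ⧸ L := QuotientGroup.mk' L
  have hf1 : ∀ a, a ∈ L → f a = 1 := fun a ha => (QuotientGroup.eq_one_iff a).2 ha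
  have hff : ∀ a, f a * f a = 1 := fun a => by rw [← map_mul, h2, map_one]
  have hinv : ∀ a b, f a * f b = 1 → f b = f a := by
    intro a b hab
    calc f b = f a * f a * f b := by rw [hff, one_mul]
      _ = f a * (f a * f b) := by rw [mul_assoc]
      _ = f a := by rw [hab, mul_one]
  have hfτ : ∀ a, f (τ a) = f a := by
    intro a
    apply hinv
    rw [← map_mul]
    apply hf1
    have := hLmem a 1 (fun p => map_one _)
    rwa [mul_one] at this
  have hfc : ∀ c, (∀ p, ρ p c = c) → f c = 1 := by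
    intro c h
    apply hf1
    have := hLmem 1 c h
    simpa using this
  -- the norm is fixed
  have hE : f (∏ p, ρ p u) = 1 := by
    apply hfc
    intro q
    rw [map_prod]
    have : ∀ p, ρ q (ρ p u) = ρ (q * p) u := fun p => (hρ q p u).symm
    simp_rw [this]
    exact Equiv.prod_comp (Equiv.mulLeft q) (fun p => ρ p u)
  rw [map_prod, ← Finset.prod_filter_mul_prod_filter_not Finset.univ (fun p => σ p = p)] at hE
  -- `τ u = u * c₀`
  have hτu : ∀ p, f (ρ p (τ u)) = f (ρ p u) := by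
    intro p
    have h1 : τ u = u * (u * τ u) := by
      rw [← mul_assoc, h2, one_mul]
    rw [h1, map_mul, hu p, map_mul, hfc _ hu, mul_one]
  have hs : ∏ p ∈ Finset.univ.filter (fun p => ¬ σ p = p), f (ρ p u) = 1 := by
    apply Finset.prod_involution (fun p _ => σ p)
    · intro p hp
      have h1 : f (ρ (σ p) u) = f (ρ p u) := by
        rw [← hτu (σ p), ← hτρ, hfτ]
      rw [h1, hff]
    · intro p hp _
      exact (Finset.mem_filter.1 hp).2
    · intro p hp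
      rw [Finset.mem_filter]
      refine ⟨Finset.mem_univ _, ?_⟩
      intro h
      rw [hσσ] at h
      exact (Finset.mem_filter.1 hp).2 h.symm
    · intro p _
      exact hσσ p
  have hXp : ∀ p ∈ Finset.univ.filter (fun p => σ p = p), f (ρ p u) = f u := by
    intro p hp
    obtain ⟨z, hz⟩ := hX p (Finset.mem_filter.1 hp).2
    apply hinv
    rw [mul_comm, ← map_mul, hz]
    apply hf1
    have := hLmem z 1 (fun p => map_one _)
    rwa [mul_one] at this
  rw [hs, mul_one, Finset.prod_congr rfl hXp, Finset.prod_const] at hE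
  -- parity
  have hcard : Odd (Finset.univ.filter (fun p => σ p = p)).card := by
    have h1 := Finset.card_filter_add_card_filter_not (s := (Finset.univ : Finset P)) (fun p => σ p = p)
    rw [Nat.card_eq_fintype_card, ← Finset.card_univ, ← h1] at hodd
    have h3 : ((Finset.univ.filter (fun p => ¬ σ p = p)).card : ZMod 2) = 0 := by
      have : ∑ p ∈ Finset.univ.filter (fun p => ¬ σ p = p), (1 : ZMod 2) = 0 := by
        apply Finset.sum_involution (fun p _ => σ p)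
        · intro p hp
          decide
        · intro p hp _
          exact (Finset.mem_filter.1 hp).2
        · intro p hp
          rw [Finset.mem_filter]
          refine ⟨Finset.mem_univ _, ?_⟩
          intro h
          rw [hσσ] at h
          exact (Finset.mem_filter.1 hp).2 h.symm
        · intro p _
          exact hσσ p
      simpa using this
    have h4 : Even (Finset.univ.filter (fun p => ¬ σ p = p)).card := by
      rw [even_iff_two_dvd]
      exact (ZMod.natCast_eq_zero_iff _ _).1 h3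
    by_contra hne
    rw [Nat.not_odd_iff_even] at hne
    exact (Nat.not_even_iff_odd.2 hodd) (hne.add h4)
  obtain ⟨k, hk⟩ := hcard
  rw [hk, pow_succ, pow_mul, pow_two, hff, one_pow, one_mul] at hE
  have hmem : u ∈ L := (QuotientGroup.eq_one_iff u).1 hE
  obtain ⟨z, c, h, he⟩ := hmem
  exact ⟨z, c, h, he⟩


/-! ### Images in quotients by normal 2-subgroups -/

section Image

variable {G : Type*} [Group G] {D : Set G}

theorem isPGroup_of_sq {W : Subgroup G} (h : ∀ a ∈ W, a * a = 1) : IsPGroup 2 W := by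
  intro g
  refine ⟨1, ?_⟩
  apply Subtype.ext
  simp only [pow_one, pow_two, Subgroup.coe_mul, Subgroup.coe_one]
  exact h g g.2

/-- Commuting of the images in a quotient by a normal 2-subgroup lifts. -/
theorem commute_of_commute_mk {W : Subgroup G} [hWn : W.Normal] (hW : IsPGroup 2 W)
    (hD : IsThreeTranspositionSet D) {x y : G} (hx : x ∈ D) (hy : y ∈ D)
    (h : Commute (QuotientGroup.mk' W x) (QuotientGroup.mk' W y)) : Commute x y := by
  by_contra hnc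
  have h3 := pow_three_of_not_commute hD hx hy hnc
  apply hnc
  apply (commute_iff_sq (mul_self_of_mem hD hx) (mul_self_of_mem hD hy)).2
  have h1 : (QuotientGroup.mk' W) ((x * y) ^ 2) = 1 := by
    rw [map_pow, map_mul, pow_two]
    have : (QuotientGroup.mk' W x) * (QuotientGroup.mk' W y) * ((QuotientGroup.mk' W x) * (QuotientGroup.mk' W y))
        = ((QuotientGroup.mk' W x) * (QuotientGroup.mk' W x)) * ((QuotientGroup.mk' W y) * (QuotientGroup.mk' W y)) := by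
      calc _ = (QuotientGroup.mk' W x) * ((QuotientGroup.mk' W y) * (QuotientGroup.mk' W x)) * (QuotientGroup.mk' W y) := by
              simp only [mul_assoc]
        _ = (QuotientGroup.mk' W x) * ((QuotientGroup.mk' W x) * (QuotientGroup.mk' W y)) * (QuotientGroup.mk' W y) := by
              rw [h.symm.eq]
        _ = _ := by simp only [mul_assoc]
    rw [this, ← map_mul, ← map_mul, mul_self_of_mem hD hx, mul_self_of_mem hD hy]
    simp
  have h2 : (x * y) ^ 2 ∈ W := (QuotientGroup.eq_one_iff _).1 h1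
  obtain ⟨k, hk⟩ := hW ⟨_, h2⟩
  have hk' : ((x * y) ^ 2) ^ 2 ^ k = 1 := by simpa [Subtype.ext_iff] using hk
  have h4 : ((x * y) ^ 2) ^ 3 = 1 := by
    rw [← pow_mul, mul_comm, pow_mul, h3, one_pow]
  exact eq_one_of_pow_coprime hk' h4 (Nat.Coprime.pow_left k (by norm_num))

variable [Finite G]

/-- The image of `D` in the quotient by a normal 2-subgroup. -/
theorem image_class {W : Subgroup G} [hWn : W.Normal] (hW : IsPGroup 2 W)
    (hD : IsThreeTranspositionClass D) (hD2 : ∃ a ∈ D, ∃ b ∈ D, a ≠ b) :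
    IsThreeTranspositionClass (QuotientGroup.mk' W '' D) ∧
      ∃ a ∈ QuotientGroup.mk' W '' D, ∃ b ∈ QuotientGroup.mk' W '' D, a ≠ b := by
  have hne : ∀ x ∈ D, ∀ y ∈ D, ¬ Commute x y → QuotientGroup.mk' W x ≠ QuotientGroup.mk' W y := by
    intro x hx y hy hnc he
    apply hnc
    apply commute_of_commute_mk hW hD.1 hx hy
    rw [he]
  have hone : ∀ x ∈ D, QuotientGroup.mk' W x ≠ 1 := by
    intro x hx h1
    obtain ⟨y, hy, hxy⟩ := exists_not_commute hD hD2 hx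
    apply hne x hx y hy hxy
    rw [h1]
    obtain ⟨g, rfl⟩ := exists_conj_of_isClass hD hx hy
    rw [map_mul, map_mul, map_inv, h1]
    simp
  refine ⟨⟨⟨?_, ?_⟩, ?_, ?_⟩, ?_⟩
  · rintro _ ⟨x, hx, rfl⟩
    apply orderOf_eq_prime
    · rw [pow_two, ← map_mul, mul_self_of_mem hD.1 hx, map_one]
    · exact hone x hx
  · rintro _ ⟨x, hx, rfl⟩ _ ⟨y, hy, rfl⟩
    rcases hD.1.2 x hx y hy with h | h
    · left
      rw [← map_mul, ← map_pow, h, map_one]
    · right
      rw [← map_mul, ← map_pow, h, map_one]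
  · obtain ⟨d, hd, -⟩ := hD.2.1
    refine ⟨QuotientGroup.mk' W d, ⟨d, hd, rfl⟩, ?_⟩
    ext z
    constructor
    · rintro ⟨x, hx, rfl⟩
      obtain ⟨g, rfl⟩ := exists_conj_of_isClass hD hd hx
      exact isConj_iff.2 ⟨QuotientGroup.mk' W g, by simp⟩
    · intro hz
      obtain ⟨g, rfl⟩ := isConj_iff.1 hz
      obtain ⟨g', rfl⟩ := QuotientGroup.mk'_surjective W g
      exact ⟨g' * d * g'⁻¹, (isGroup_of_isClass hD).2.1 g' d hd, by simp⟩
  · rw [← MonoidHom.map_closure, hD.2.2, Subgroup.map_top_of_surjective _ (QuotientGroup.mk'_surjective W)]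
  · obtain ⟨a, ha, b, hb, hab⟩ := hD2
    obtain ⟨y, hy, hxy⟩ := exists_not_commute hD ⟨a, ha, b, hb, hab⟩ ha
    exact ⟨_, ⟨a, ha, rfl⟩, _, ⟨y, hy, rfl⟩, hne a ha y hy hxy⟩

/-- The hypothesis `C_D(d) = V_d` passes to the quotient. -/
theorem image_hV {W : Subgroup G} [hWn : W.Normal] (hW : IsPGroup 2 W)
    (hD : IsThreeTranspositionSet D) {d : G} (hd : d ∈ D)
    (hV : {y : G | y ∈ D ∧ Commute d y} = {v : G | v ∈ D ∧ ∀ e ∈ D, Commute v e ↔ Commute d e}) :
    {y | y ∈ QuotientGroup.mk' W '' D ∧ Commute (QuotientGroup.mk' W d) y} =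
      {v | v ∈ QuotientGroup.mk' W '' D ∧ ∀ e ∈ QuotientGroup.mk' W '' D,
        Commute v e ↔ Commute (QuotientGroup.mk' W d) e} := by
  ext z
  constructor
  · rintro ⟨⟨y, hy, rfl⟩, hc⟩
    have h1 : Commute d y := commute_of_commute_mk hW hD hd hy hc
    have h2 : y ∈ {v : G | v ∈ D ∧ ∀ e ∈ D, Commute v e ↔ Commute d e} := by
      rw [← hV]; exact ⟨hy, h1⟩
    refine ⟨⟨y, hy, rfl⟩, ?_⟩
    rintro _ ⟨e, he, rfl⟩
    constructor
    · intro h
      exact ((h2.2 e he).1 (commute_of_commute_mk hW hD hy he h)).map _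
    · intro h
      exact ((h2.2 e he).2 (commute_of_commute_mk hW hD hd he h)).map _
  · rintro ⟨hz, h⟩
    refine ⟨hz, ?_⟩
    exact ((h _ ⟨d, hd, rfl⟩).2 (Commute.refl _)).symm

end Image

/-! ### Lifting from a quotient by an elementary abelian normal subgroup -/

section Lift

variable {G : Type*} [Group G] [Finite G] {D : Set G}

theorem conj_comm {a b : G} (h : a * b * a⁻¹ = b) : b * a * b⁻¹ = a := by
  have h1 : a * b = b * a := by
    calc a * b = (a * b * a⁻¹) * a := by group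
      _ = b * a := by rw [h]
  rw [← h1]
  group

/-- An identity of `S₄`. -/
theorem s4_identity (hD : IsThreeTranspositionSet D) {d y v : G} (hd : d ∈ D) (hy : y ∈ D) (hv : v ∈ D)
    (hne : d ≠ v) (hdv : Commute d v) (hdy : ¬ Commute d y) (hyv : ¬ Commute y v) :
    v * d = (y * (v * d) * y * (v * d)⁻¹) * (d * (y * (v * d) * y * (v * d)⁻¹) * d⁻¹) := by
  obtain ⟨φ, -, h0, h1, h2⟩ := Cfsg.Agent.Lib.ThreeT.S4.exists_injective_hom hD hd hy hv hne hdv hdy hyv
  subst h0 h1 h2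
  have e : (Equiv.swap (2 : Fin 4) 3 * Equiv.swap 0 1) =
      (Equiv.swap 1 2 * (Equiv.swap (2 : Fin 4) 3 * Equiv.swap 0 1) * Equiv.swap 1 2 * (Equiv.swap (2 : Fin 4) 3 * Equiv.swap 0 1)⁻¹) *
        (Equiv.swap 0 1 * (Equiv.swap 1 2 * (Equiv.swap (2 : Fin 4) 3 * Equiv.swap 0 1) * Equiv.swap 1 2 * (Equiv.swap (2 : Fin 4) 3 * Equiv.swap 0 1)⁻¹) * (Equiv.swap (0 : Fin 4) 1)⁻¹) := by
    decide
  have := congrArg φ e
  simpa only [map_mul, map_inv] using this

/-- Main cocycle computation. -/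
theorem exists_normalized_of_cocycle (hD : IsThreeTranspositionSet D)
    (hconj : ∀ g : G, ∀ d ∈ D, g * d * g⁻¹ ∈ D) {d y : G} (hd : d ∈ D) (hy : y ∈ D)
    (hdy : ¬ Commute d y) {W : Subgroup G} [hWn : W.Normal]
    (hWc : ∀ a ∈ W, ∀ b ∈ W, Commute a b) (hW2 : ∀ a ∈ W, a * a = 1)
    {P : Subgroup G} (hP : IsPGroup 3 P) {u : G} (hu : u ∈ W)
    (hτ : ∀ p ∈ P, (u * d) * p * (u * d)⁻¹ ∈ P) :
    ∃ z ∈ W, ∀ p ∈ P, ∃ p' ∈ P, d * (z * p * z⁻¹) * d⁻¹ = z * p' * z⁻¹ := by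
  have hdd := mul_self_of_mem hD hd
  have hdi := inv_of_mem hD hd
  have hW2p := isPGroup_of_sq hW2
  have huu := hW2 u hu
  have hui : u⁻¹ = u := inv_eq_of_mul_eq_one_left huu
  have hinter : ∀ a ∈ W, a ∈ P → a = 1 := by
    intro a haW haP
    obtain ⟨k, hk⟩ := hP ⟨a, haP⟩
    have hk' : a ^ 3 ^ k = 1 := by simpa [Subtype.ext_iff] using hk
    have h2' : a ^ 2 = 1 := by rw [pow_two]; exact hW2 a haW
    exact eq_one_of_pow_coprime hk' h2' (Nat.Coprime.pow_left k (by norm_num))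
  have hdW : ∀ a ∈ W, d * a * d⁻¹ ∈ W := fun a ha => hWn.conj_mem a ha d
  -- `c = τ²` centralizes `P`
  set τ₀ := u * d with hτ₀
  have hτ₀i : τ₀⁻¹ = d⁻¹ * u⁻¹ := by rw [hτ₀, mul_inv_rev]
  have hc : τ₀ * τ₀ = u * (d * u * d⁻¹) := by
    rw [hτ₀, hdi]; group
  have hcW : τ₀ * τ₀ ∈ W := by
    rw [hc]; exact W.mul_mem hu (hdW u hu)
  have hcP : ∀ p ∈ P, (τ₀ * τ₀) * p * (τ₀ * τ₀)⁻¹ = p := by
    intro p hp
    have h1 : (τ₀ * τ₀) * p * (τ₀ * τ₀)⁻¹ ∈ P := by
      have := hτ _ (hτ p hp)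
      have e : τ₀ * (τ₀ * p * τ₀⁻¹) * τ₀⁻¹ = (τ₀ * τ₀) * p * (τ₀ * τ₀)⁻¹ := by group
      rwa [e] at this
    have h2 : (τ₀ * τ₀) * p * (τ₀ * τ₀)⁻¹ * p⁻¹ ∈ P := P.mul_mem h1 (P.inv_mem hp)
    have h3 : (τ₀ * τ₀) * p * (τ₀ * τ₀)⁻¹ * p⁻¹ ∈ W := by
      have e : (τ₀ * τ₀) * p * (τ₀ * τ₀)⁻¹ * p⁻¹ = (τ₀ * τ₀) * (p * (τ₀ * τ₀)⁻¹ * p⁻¹) := by group
      rw [e]
      exact W.mul_mem hcW (hWn.conj_mem _ (W.inv_mem hcW) p)
    have h4 := hinter _ h3 h2
    exact mul_inv_eq_one.1 h4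
  -- the maps
  let ρ : ↥P → ↥W →* ↥W := fun p => (MulAut.conjNormal (p : G) : MulAut ↥W).toMonoidHom
  have hρv : ∀ (p : P) (a : ↥W), ((ρ p a : ↥W) : G) = (p : G) * a * (p : G)⁻¹ := by
    intro p a
    exact MulAut.conjNormal_apply _ _
  have hρ : ∀ p q a, ρ (p * q) a = ρ p (ρ q a) := by
    intro p q a
    apply Subtype.ext
    rw [hρv, hρv, hρv]
    simp only [Subgroup.coe_mul]
    group
  let τ : ↥W →* ↥W := (MulAut.conjNormal d : MulAut ↥W).toMonoidHom
  have hτv : ∀ a : ↥W, ((τ a : ↥W) : G) = d * a * d⁻¹ := fun a => MulAut.conjNormal_apply _ _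
  let σ : ↥P → ↥P := fun p => ⟨τ₀ * p * τ₀⁻¹, hτ p p.2⟩
  have hσv : ∀ p : P, ((σ p : P) : G) = τ₀ * p * τ₀⁻¹ := fun p => rfl
  have hσσ : ∀ p, σ (σ p) = p := by
    intro p
    apply Subtype.ext
    rw [hσv, hσv]
    have := hcP p p.2
    calc τ₀ * (τ₀ * (p : G) * τ₀⁻¹) * τ₀⁻¹ = (τ₀ * τ₀) * (p : G) * (τ₀ * τ₀)⁻¹ := by group
      _ = p := this
  -- conjugation by `τ₀` and `d` agree on `W`
  have hτ₀W : ∀ a ∈ W, τ₀ * a * τ₀⁻¹ = d * a * d⁻¹ := by
    intro a ha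
    have h1 := (hWc u hu _ (hdW a ha)).eq
    calc τ₀ * a * τ₀⁻¹ = u * (d * a * d⁻¹) * u⁻¹ := by rw [hτ₀]; group
      _ = (d * a * d⁻¹) * u * u⁻¹ := by rw [h1]
      _ = d * a * d⁻¹ := by group
  have hτρ : ∀ p a, τ (ρ p a) = ρ (σ p) (τ a) := by
    intro p a
    apply Subtype.ext
    rw [hτv, hρv, hρv, hτv, hσv]
    have h1 := hτ₀W a a.2
    rw [← hτ₀W ((p : G) * a * (p : G)⁻¹) (hWn.conj_mem _ a.2 _), ← h1]
    group
  have hodd : Odd (Nat.card P) := by
    obtain ⟨k, hk⟩ := IsPGroup.iff_card.1 hP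
    rw [hk]
    exact Odd.pow (by decide)
  let uA : ↥W := ⟨u, hu⟩
  have huA : ∀ p, ρ p (uA * τ uA) = uA * τ uA := by
    intro p
    apply Subtype.ext
    rw [hρv]
    have e : (((uA * τ uA : ↥W)) : G) = τ₀ * τ₀ := by
      simp only [Subgroup.coe_mul]
      rw [hτv, hc]
    rw [e]
    exact conj_comm (hcP p p.2)
  have hX : ∀ x, σ x = x → ∃ z, ρ x uA * uA = z * τ z := by
    intro x hx
    have hxτ : τ₀ * (x : G) * τ₀⁻¹ = x := congrArg Subtype.val hx
    set t : G := (x : G) * u * (x : G)⁻¹ * u with ht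
    have htW : t ∈ W := W.mul_mem (hWn.conj_mem u hu _) hu
    have hv : (x : G) * d * (x : G)⁻¹ = t * d := by
      have e1 : d = u * τ₀ := by
        rw [hτ₀, ← mul_assoc, huu, one_mul]
      have e2 : (x : G) * τ₀ * (x : G)⁻¹ = τ₀ := by
        have : τ₀ * (x : G) = (x : G) * τ₀ := by
          calc τ₀ * (x : G) = (τ₀ * (x : G) * τ₀⁻¹) * τ₀ := by group
            _ = (x : G) * τ₀ := by rw [hxτ]
        calc (x : G) * τ₀ * (x : G)⁻¹ = τ₀ * (x : G) * (x : G)⁻¹ := by rw [this]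
          _ = τ₀ := by group
      calc (x : G) * d * (x : G)⁻¹ = ((x : G) * u * (x : G)⁻¹) * ((x : G) * τ₀ * (x : G)⁻¹) := by
            nth_rewrite 1 [e1]; group
        _ = ((x : G) * u * (x : G)⁻¹) * τ₀ := by rw [e2]
        _ = t * d := by rw [ht, hτ₀]; group
    have hvD : t * d ∈ D := by rw [← hv]; exact hconj _ d hd
    by_cases ht1 : t = 1
    · refine ⟨1, ?_⟩
      apply Subtype.ext
      rw [map_one, mul_one, Subgroup.coe_mul, hρv, Subgroup.coe_one]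
      exact ht1
    · -- the `S₄` argument
      have hmk : QuotientGroup.mk' W (t * d) = QuotientGroup.mk' W d := by
        have h0 : QuotientGroup.mk' W t = 1 := (QuotientGroup.eq_one_iff t).2 htW
        rw [map_mul, h0, one_mul]
      have hne : d ≠ t * d := by
        intro h
        apply ht1
        have : t * d = 1 * d := by rw [one_mul]; exact h.symm
        exact mul_right_cancel this
      have hdv : Commute d (t * d) := by
        apply commute_of_commute_mk hW2p hD hd hvD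
        rw [hmk]
      have hyv : ¬ Commute y (t * d) := by
        intro h
        apply hdy
        apply commute_of_commute_mk hW2p hD hd hy
        have := h.map (QuotientGroup.mk' W)
        rw [hmk] at this
        exact this.symm
      have hid := s4_identity hD hd hy hvD hne hdv hdy hyv
      have e1 : t * d * d = t := by rw [mul_assoc, hdd, mul_one]
      rw [e1] at hid
      have hzW : y * t * y * t⁻¹ ∈ W := by
        have hyi := inv_of_mem hD hy
        have : y * t * y * t⁻¹ = (y * t * y⁻¹) * t⁻¹ := by rw [hyi]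
        rw [this]
        exact W.mul_mem (hWn.conj_mem t htW y) (W.inv_mem htW)
      refine ⟨⟨_, hzW⟩, ?_⟩
      apply Subtype.ext
      simp only [Subgroup.coe_mul]
      rw [hρv, hτv]
      exact hid
  obtain ⟨z, c, hcf, hue⟩ := exists_of_norm (fun a b => Subtype.ext (hWc a a.2 b b.2).eq)
    (fun a => Subtype.ext (hW2 a a.2)) ρ hρ τ σ hσσ hτρ hodd uA huA hX
  refine ⟨z, z.2, ?_⟩
  intro p hp
  refine ⟨τ₀ * p * τ₀⁻¹, hτ p hp, ?_⟩
  have hue' : u = z * (d * z * d⁻¹) * c := by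
    have := congrArg Subtype.val hue
    simp only [Subgroup.coe_mul] at this
    rwa [hτv] at this
  have hcp : (c : G) * (τ₀ * p * τ₀⁻¹) * (c : G)⁻¹ = τ₀ * p * τ₀⁻¹ := by
    have h1 := congrArg Subtype.val (hcf (σ ⟨p, hp⟩))
    rw [hρv] at h1
    have h2 : (σ ⟨p, hp⟩ : G) = τ₀ * p * τ₀⁻¹ := rfl
    rw [h2] at h1
    -- `q c q⁻¹ = c` gives `c q c⁻¹ = q`
    exact conj_comm h1
  -- final computation
  have hzz : (d * z * d⁻¹) * (d * z * d⁻¹) = 1 := hW2 _ (hdW z z.2)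
  have hzc : Commute (d * (z : G) * d⁻¹) (z : G) := hWc _ (hdW z z.2) _ z.2
  have hzcc : Commute (d * (z : G) * d⁻¹) (c : G) := hWc _ (hdW z z.2) _ c.2
  have key : (d * (z : G) * d⁻¹) * u = z * c := by
    rw [hue']
    calc (d * (z : G) * d⁻¹) * (z * (d * z * d⁻¹) * c)
        = (d * (z : G) * d⁻¹) * ((d * z * d⁻¹) * z) * c := by rw [(hzc).eq]; group
      _ = ((d * z * d⁻¹) * (d * z * d⁻¹)) * z * c := by group
      _ = z * c := by rw [hzz, one_mul]
  have hd' : d = u * τ₀ := by rw [hτ₀, ← mul_assoc, huu, one_mul]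
  calc d * ((z : G) * p * (z : G)⁻¹) * d⁻¹
      = (d * (z : G) * d⁻¹) * (d * p * d⁻¹) * (d * (z : G) * d⁻¹)⁻¹ := by group
    _ = (d * (z : G) * d⁻¹) * (u * (τ₀ * p * τ₀⁻¹) * u⁻¹) * (d * (z : G) * d⁻¹)⁻¹ := by
        have : d * p * d⁻¹ = u * (τ₀ * p * τ₀⁻¹) * u⁻¹ := by
          calc d * p * d⁻¹ = (u * u) * d * p * d⁻¹ * (u * u)⁻¹ := by rw [huu]; group
            _ = u * ((u * d) * p * (u * d)⁻¹) * u⁻¹ := by group
            _ = u * (τ₀ * p * τ₀⁻¹) * u⁻¹ := by rw [hτ₀]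
        rw [this]
    _ = ((d * (z : G) * d⁻¹) * u) * (τ₀ * p * τ₀⁻¹) * ((d * (z : G) * d⁻¹) * u)⁻¹ := by group
    _ = ((z : G) * (c : G)) * (τ₀ * p * τ₀⁻¹) * ((z : G) * (c : G))⁻¹ := by rw [key]
    _ = (z : G) * ((c : G) * (τ₀ * p * τ₀⁻¹) * (c : G)⁻¹) * (z : G)⁻¹ := by group
    _ = (z : G) * (τ₀ * p * τ₀⁻¹) * (z : G)⁻¹ := by rw [hcp]

end Lift


section Main

universe v

open Cfsg.Agent.Lib.ThreeT

/-- The central involutions of `O₂(G)`. -/
def omegaZ (G : Type*) [Group G] : Subgroup G where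
  carrier := {z | z ∈ Cfsg.pCore 2 G ∧ (∀ q ∈ Cfsg.pCore 2 G, Commute z q) ∧ z * z = 1}
  mul_mem' := by
    rintro a b ⟨ha, hac, haa⟩ ⟨hb, hbc, hbb⟩
    refine ⟨Subgroup.mul_mem _ ha hb, fun q hq => (hac q hq).mul_left (hbc q hq), ?_⟩
    have : Commute a b := hac b hb
    calc a * b * (a * b) = a * (b * a) * b := by group
      _ = a * (a * b) * b := by rw [this.eq]
      _ = (a * a) * (b * b) := by group
      _ = 1 := by rw [haa, hbb, one_mul]
  one_mem' := ⟨Subgroup.one_mem _, fun q _ => Commute.one_left q, by simp⟩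
  inv_mem' := by
    rintro a ⟨ha, hac, haa⟩
    refine ⟨Subgroup.inv_mem _ ha, fun q hq => (hac q hq).inv_left, ?_⟩
    have : a⁻¹ = a := inv_eq_of_mul_eq_one_left haa
    rw [this, haa]

instance omegaZ_normal (G : Type*) [Group G] : (omegaZ G).Normal := by
  constructor
  rintro a ⟨ha, hac, haa⟩ g
  have hn := Cfsg.pCore_normal 2 G
  refine ⟨hn.conj_mem a ha g, ?_, ?_⟩
  · intro q hq
    have h1 : g⁻¹ * q * g ∈ Cfsg.pCore 2 G := by
      have := hn.conj_mem q hq g⁻¹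
      simpa using this
    have h2 := (hac _ h1).eq
    show g * a * g⁻¹ * q = q * (g * a * g⁻¹)
    calc g * a * g⁻¹ * q = g * (a * (g⁻¹ * q * g)) * g⁻¹ := by group
      _ = g * ((g⁻¹ * q * g) * a) * g⁻¹ := by rw [h2]
      _ = q * (g * a * g⁻¹) := by group
  · calc g * a * g⁻¹ * (g * a * g⁻¹) = g * (a * a) * g⁻¹ := by group
      _ = 1 := by rw [haa]; group

theorem omegaZ_sq {G : Type*} [Group G] : ∀ a ∈ omegaZ G, a * a = 1 := fun _ ha => ha.2.2

theorem omegaZ_comm {G : Type*} [Group G] : ∀ a ∈ omegaZ G, ∀ b ∈ omegaZ G, Commute a b :=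
  fun _ ha b hb => ha.2.1 b hb.1

theorem omegaZ_ne_bot {G : Type*} [Group G] [Finite G] (hQ : Cfsg.pCore 2 G ≠ ⊥) : omegaZ G ≠ ⊥ := by
  have : Fact (Nat.Prime 2) := ⟨Nat.prime_two⟩
  have hQp : IsPGroup 2 (Cfsg.pCore 2 G) := Cfsg.Agent.Lib.Core.Basic.pCore_isPGroup
  have hnt : Nontrivial (Cfsg.pCore 2 G) := by
    rw [Subgroup.nontrivial_iff_ne_bot]
    exact hQ
  have hcent := hQp.center_nontrivial
  have hcp : IsPGroup 2 (Subgroup.center (Cfsg.pCore 2 G)) := hQp.to_subgroup _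
  have hdvd : 2 ∣ Nat.card (Subgroup.center (Cfsg.pCore 2 G)) := by
    obtain ⟨n, hn⟩ := IsPGroup.iff_card.1 hcp
    have h1 : 1 < Nat.card (Subgroup.center (Cfsg.pCore 2 G)) := Finite.one_lt_card
    rw [hn] at h1 ⊢
    have hn0 : n ≠ 0 := by
      rintro rfl
      simp at h1
    exact dvd_pow_self 2 hn0
  obtain ⟨z, hz⟩ := exists_prime_orderOf_dvd_card' 2 hdvd
  intro hbot
  have hz1 : (z : Cfsg.pCore 2 G) ^ 2 = 1 := by
    have := pow_orderOf_eq_one z
    rw [hz] at this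
    exact congrArg Subtype.val this
  have hmem : ((z : Cfsg.pCore 2 G) : G) ∈ omegaZ G := by
    refine ⟨(z : Cfsg.pCore 2 G).2, ?_, ?_⟩
    · intro q hq
      have := Subgroup.mem_center_iff.1 z.2 ⟨q, hq⟩
      exact (congrArg Subtype.val this).symm
    · have := congrArg Subtype.val hz1
      simpa [pow_two] using this
  rw [hbot, Subgroup.mem_bot] at hmem
  have hz2 : z = 1 := by
    apply Subtype.ext
    apply Subtype.ext
    exact hmem
  rw [hz2, orderOf_one] at hz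
  omega

variable {G : Type*} [Group G] [Finite G] {D : Set G}

theorem mem_smul_sylow {p : ℕ} {P : Sylow p G} {g x : G} :
    x ∈ ((g • P : Sylow p G) : Subgroup G) ↔ ∃ q ∈ (P : Subgroup G), g * q * g⁻¹ = x := by
  rw [Sylow.coe_subgroup_smul, Subgroup.mem_smul_pointwise_iff_exists]
  rfl

/-- Lifting: `d` normalizes the image of `P`; then `u * d` normalizes `P` for some `u ∈ W`. -/
theorem exists_conj_of_lift {W : Subgroup G} [hWn : W.Normal] (hW2 : ∀ a ∈ W, a * a = 1)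
    (P : Sylow 3 G) {d : G}
    (hn : QuotientGroup.mk' W d ∈ Subgroup.normalizer (((P : Subgroup G).map (QuotientGroup.mk' W) : Subgroup (G ⧸ W)) : Set (G ⧸ W))) :
    ∃ u ∈ W, ∀ p ∈ (P : Subgroup G), (u * d) * p * (u * d)⁻¹ ∈ (P : Subgroup G) := by
  have : Fact (Nat.Prime 3) := ⟨Nat.prime_three⟩
  let π := QuotientGroup.mk' W
  let N : Subgroup G := ((P : Subgroup G).map π).comap π
  have hPN : (P : Subgroup G) ≤ N := Subgroup.le_comap_map _ _
  let P2 : Sylow 3 G := d • P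
  have hP2N : (P2 : Subgroup G) ≤ N := by
    intro x hx
    obtain ⟨q, hq, rfl⟩ := mem_smul_sylow.1 hx
    show π (d * q * d⁻¹) ∈ (P : Subgroup G).map π
    rw [map_mul, map_mul, map_inv]
    exact (Subgroup.mem_normalizer_iff.1 hn (π q)).1 ⟨q, hq, rfl⟩
  obtain ⟨t, ht⟩ := MulAction.exists_smul_eq N (P.subtype hPN) (P2.subtype hP2N)
  -- conjugation by `t`
  have hconj : ∀ x ∈ (P2 : Subgroup G), ∃ q ∈ (P : Subgroup G), (t : G) * q * (t : G)⁻¹ = x := by
    intro x hx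
    have hxN : x ∈ N := hP2N hx
    have h1 : (⟨x, hxN⟩ : N) ∈ ((P2.subtype hP2N : Sylow 3 N) : Subgroup N) := by
      rw [Sylow.coe_subtype, Subgroup.mem_subgroupOf]
      exact hx
    rw [← ht, mem_smul_sylow] at h1
    obtain ⟨q, hq, he⟩ := h1
    rw [Sylow.coe_subtype, Subgroup.mem_subgroupOf] at hq
    refine ⟨q, hq, ?_⟩
    exact congrArg Subtype.val he
  obtain ⟨p₀, hp₀, hp₀t⟩ : π (t : G) ∈ (P : Subgroup G).map π := t.2
  let w : G := (t : G) * p₀⁻¹
  have hwW : w ∈ W := by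
    rw [← QuotientGroup.ker_mk' W, MonoidHom.mem_ker]
    show π ((t : G) * p₀⁻¹) = 1
    rw [map_mul, map_inv, ← hp₀t, mul_inv_cancel]
  refine ⟨w, hwW, ?_⟩
  intro p hp
  have hdp : d * p * d⁻¹ ∈ (P2 : Subgroup G) := mem_smul_sylow.2 ⟨p, hp, rfl⟩
  obtain ⟨q, hq, he⟩ := hconj _ hdp
  have ht' : (t : G) = w * p₀ := by
    show (t : G) = (t : G) * p₀⁻¹ * p₀
    group
  have hww := hW2 w hwW
  have : (w * d) * p * (w * d)⁻¹ = p₀ * q * p₀⁻¹ := by
    calc (w * d) * p * (w * d)⁻¹ = w * (d * p * d⁻¹) * w⁻¹ := by group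
      _ = w * ((t : G) * q * (t : G)⁻¹) * w⁻¹ := by rw [he]
      _ = w * ((w * p₀) * q * (w * p₀)⁻¹) * w⁻¹ := by rw [ht']
      _ = (w * w) * (p₀ * q * p₀⁻¹) * (w * w)⁻¹ := by group
      _ = p₀ * q * p₀⁻¹ := by rw [hww]; group
  rw [this]
  exact Subgroup.mul_mem _ (Subgroup.mul_mem _ hp₀ hq) (Subgroup.inv_mem _ hp₀)

/-- Conjugates of the hypothesis `C_D(d) = V_d`: commuting members of `D` have product in `O₂(G)`. -/
theorem mul_mem_pCore_of_hV (hD : IsThreeTranspositionClass D) {d : G} (hd : d ∈ D)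
    (hV : {y : G | y ∈ D ∧ Commute d y} = {v : G | v ∈ D ∧ ∀ e ∈ D, Commute v e ↔ Commute d e})
    {a b : G} (ha : a ∈ D) (hb : b ∈ D) (hab : Commute a b) : a⁻¹ * b ∈ Cfsg.pCore 2 G := by
  have hG := isGroup_of_isClass hD
  obtain ⟨g, rfl⟩ := exists_conj_of_isClass hD hd ha
  have hb' : g⁻¹ * b * g⁻¹⁻¹ ∈ D := hG.2.1 g⁻¹ b hb
  have hc : Commute d (g⁻¹ * b * g⁻¹⁻¹) := by
    have h1 : g * d * g⁻¹ * b = b * (g * d * g⁻¹) := hab
    show d * (g⁻¹ * b * g⁻¹⁻¹) = g⁻¹ * b * g⁻¹⁻¹ * d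
    calc d * (g⁻¹ * b * g⁻¹⁻¹) = g⁻¹ * (g * d * g⁻¹ * b) * g := by group
      _ = g⁻¹ * (b * (g * d * g⁻¹)) * g := by rw [h1]
      _ = g⁻¹ * b * g⁻¹⁻¹ * d := by group
  have h2 : g⁻¹ * b * g⁻¹⁻¹ ∈ {v : G | v ∈ D ∧ ∀ e ∈ D, Commute v e ↔ Commute d e} := by
    rw [← hV]; exact ⟨hb', hc⟩
  have h3 : d⁻¹ * (g⁻¹ * b * g⁻¹⁻¹) ∈ Cfsg.pCore 2 G :=
    (rel_iff_mul_mem_pCore hG.1 hG.2.1 hd hb').1 h2.2
  have h4 := (Cfsg.pCore_normal 2 G).conj_mem _ h3 g
  have e : g * (d⁻¹ * (g⁻¹ * b * g⁻¹⁻¹)) * g⁻¹ = (g * d * g⁻¹)⁻¹ * b := by group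
  rwa [e] at h4

theorem isPGroup_pCore_two : IsPGroup 2 (Cfsg.pCore 2 G) := Cfsg.Agent.Lib.Core.Basic.pCore_isPGroup

/-- If `C_D(d) = V_d` then `D` has no commuting pair in `G/O₂(G)`. -/
theorem no_commuting_image (hD : IsThreeTranspositionClass D) {d : G} (hd : d ∈ D)
    (hV : {y : G | y ∈ D ∧ Commute d y} = {v : G | v ∈ D ∧ ∀ e ∈ D, Commute v e ↔ Commute d e}) :
    ∀ a ∈ QuotientGroup.mk' (Cfsg.pCore 2 G) '' D, ∀ b ∈ QuotientGroup.mk' (Cfsg.pCore 2 G) '' D,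
      Commute a b → a = b := by
  rintro _ ⟨a, ha, rfl⟩ _ ⟨b, hb, rfl⟩ hc
  have h1 := commute_of_commute_mk isPGroup_pCore_two hD.1 ha hb hc
  have h2 := mul_mem_pCore_of_hV hD hd hV ha hb h1
  have h3 : QuotientGroup.mk' (Cfsg.pCore 2 G) (a⁻¹ * b) = 1 := (QuotientGroup.eq_one_iff _).2 h2
  rw [map_mul, map_inv] at h3
  exact inv_mul_eq_one.1 h3

/-- The second assertion: for any Sylow 3-subgroup, `⟨d⟩ P O₂(G) = G`. -/
theorem sup_eq_top (hD : IsThreeTranspositionClass D) (hD2 : ∃ a ∈ D, ∃ b ∈ D, a ≠ b) {d : G} (hd : d ∈ D)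
    (hV : {y : G | y ∈ D ∧ Commute d y} = {v : G | v ∈ D ∧ ∀ e ∈ D, Commute v e ↔ Commute d e})
    (P : Sylow 3 G) : Subgroup.zpowers d ⊔ (P : Subgroup G) ⊔ Cfsg.pCore 2 G = ⊤ := by
  have : Fact (Nat.Prime 3) := ⟨Nat.prime_three⟩
  let π := QuotientGroup.mk' (Cfsg.pCore 2 G)
  have hπ : Function.Surjective π := QuotientGroup.mk'_surjective _
  obtain ⟨hD', hD2'⟩ := image_class isPGroup_pCore_two hD hD2
  have hG' := isGroup_of_isClass hD'
  have hno := no_commuting_image hD hd hV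
  have hw : Cfsg.commutingWidth (π '' D) = 1 :=
    (Cfsg.Agent.Lib.ThreeT.Sylow.width_eq_one_iff hG'.1 hG'.2.1 ⟨π d, ⟨d, hd, rfl⟩⟩).2 hno
  have htop := (Cfsg.Agent.S5346.result hG' ⟨d, hd, rfl⟩).1 hw
  let P' : _root_.Sylow 3 (G ⧸ Cfsg.pCore 2 G) := P.mapSurjective hπ
  have hle : Cfsg.pCore 3 (G ⧸ Cfsg.pCore 2 G) ≤ (P : Subgroup G).map π := by
    have := Cfsg.Agent.Lib.Core.Basic.pCore_le_sylow P'
    rwa [Sylow.coe_mapSurjective] at this
  rw [eq_top_iff]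
  intro g _
  have h1 : π g ∈ Subgroup.zpowers (π d) ⊔ (P : Subgroup G).map π := by
    have : (⊤ : Subgroup (G ⧸ Cfsg.pCore 2 G)) ≤ Subgroup.zpowers (π d) ⊔ (P : Subgroup G).map π := by
      rw [← htop]
      exact sup_le_sup_left hle _
    exact this trivial
  have h2 : Subgroup.zpowers (π d) ⊔ (P : Subgroup G).map π =
      (Subgroup.zpowers d ⊔ (P : Subgroup G)).map π := by
    rw [Subgroup.map_sup, MonoidHom.map_zpowers]
  rw [h2] at h1
  obtain ⟨x, hx, he⟩ := h1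
  have h3 : x⁻¹ * g ∈ Cfsg.pCore 2 G := by
    rw [← QuotientGroup.ker_mk' (Cfsg.pCore 2 G), MonoidHom.mem_ker]
    show π (x⁻¹ * g) = 1
    rw [map_mul, map_inv, he, inv_mul_cancel]
  have e : g = x * (x⁻¹ * g) := by group
  rw [e]
  exact Subgroup.mul_mem _ (Subgroup.mem_sup_left hx) (Subgroup.mem_sup_right h3)

/-- The base case `O₂(G) = 1`. -/
theorem exists_sylow_base (hD : IsThreeTranspositionClass D) {d : G} (hd : d ∈ D)
    (hV : {y : G | y ∈ D ∧ Commute d y} = {v : G | v ∈ D ∧ ∀ e ∈ D, Commute v e ↔ Commute d e})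
    (hQ : Cfsg.pCore 2 G = ⊥) : ∃ P : Sylow 3 G, d ∈ Subgroup.normalizer ((P : Subgroup G) : Set G) := by
  have : Fact (Nat.Prime 3) := ⟨Nat.prime_three⟩
  have hG := isGroup_of_isClass hD
  have hno : ∀ a ∈ D, ∀ b ∈ D, Commute a b → a = b := by
    intro a ha b hb hab
    have h1 := mul_mem_pCore_of_hV hD hd hV ha hb hab
    rw [hQ, Subgroup.mem_bot] at h1
    exact inv_mul_eq_one.1 h1
  have hw := (Cfsg.Agent.Lib.ThreeT.Sylow.width_eq_one_iff hG.1 hG.2.1 ⟨d, hd⟩).2 hno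
  have htop := (Cfsg.Agent.S5346.result hG hd).1 hw
  obtain ⟨P⟩ : Nonempty (_root_.Sylow 3 G) := inferInstance
  refine ⟨P, ?_⟩
  have hle : Cfsg.pCore 3 G ≤ (P : Subgroup G) := Cfsg.Agent.Lib.Core.Basic.pCore_le_sylow P
  have hdd := mul_self_of_mem hG.1 hd
  have hP3 : (P : Subgroup G) ≤ Cfsg.pCore 3 G := by
    intro g hg
    have h1 : g ∈ Subgroup.zpowers d ⊔ Cfsg.pCore 3 G := by rw [htop]; trivial
    rw [← SetLike.mem_coe, Subgroup.mul_normal] at h1
    obtain ⟨h, hh, q, hq, rfl⟩ := Set.mem_mul.1 h1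
    obtain ⟨k, rfl⟩ := Subgroup.mem_zpowers_iff.1 hh
    have hd2 : d ^ (2 : ℤ) = 1 := by
      rw [show (2 : ℤ) = ((2 : ℕ) : ℤ) by norm_num, zpow_natCast, pow_two, hdd]
    rcases Int.even_or_odd' k with ⟨m, rfl | rfl⟩
    · have : d ^ (2 * m) = 1 := by rw [zpow_mul, hd2, one_zpow]
      rw [this, one_mul]
      exact hq
    · exfalso
      have e : d ^ (2 * m + 1) = d := by rw [zpow_add, zpow_mul, hd2, one_zpow, one_mul, zpow_one]
      rw [e] at hg
      have hq' := hle hq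
      have hdP : d ∈ (P : Subgroup G) := by
        have := Subgroup.mul_mem _ hg (Subgroup.inv_mem _ hq')
        simpa using this
      obtain ⟨j, hj⟩ := (P.2 ⟨d, hdP⟩)
      have hj' : d ^ 3 ^ j = 1 := by simpa [Subtype.ext_iff] using hj
      have h2' : d ^ 2 = 1 := by rw [pow_two, hdd]
      exact ne_one_of_mem hG.1 hd (eq_one_of_pow_coprime hj' h2' (Nat.Coprime.pow_left j (by norm_num)))
  have heq : (P : Subgroup G) = Cfsg.pCore 3 G := le_antisymm hP3 hle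
  rw [heq]
  have hn := Cfsg.pCore_normal 3 G
  rw [Subgroup.mem_normalizer_iff]
  intro h
  refine ⟨fun hh => hn.conj_mem h hh d, fun hh => ?_⟩
  have := hn.conj_mem _ hh d⁻¹
  simpa [mul_assoc] using this

universe u

/-- The main theorem: `d` normalizes a Sylow 3-subgroup. -/
theorem exists_sylow_normalized (n : ℕ) : ∀ {G : Type u} [Group G] [Finite G] {D : Set G},
    Nat.card G = n → IsThreeTranspositionClass D → (∃ a ∈ D, ∃ b ∈ D, a ≠ b) → ∀ {d : G}, d ∈ D →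
    {y : G | y ∈ D ∧ Commute d y} = {v : G | v ∈ D ∧ ∀ e ∈ D, Commute v e ↔ Commute d e} →
    ∃ P : Sylow 3 G, d ∈ Subgroup.normalizer ((P : Subgroup G) : Set G) := by
  induction n using Nat.strong_induction_on with
  | _ n ih =>
  intro G _ _ D hn hD hD2 d hd hV
  have : Fact (Nat.Prime 3) := ⟨Nat.prime_three⟩
  by_cases hQ : Cfsg.pCore 2 G = ⊥
  · exact exists_sylow_base hD hd hV hQ
  have hWne := omegaZ_ne_bot hQ
  have hW2 := omegaZ_sq (G := G)
  have hWc := omegaZ_comm (G := G)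
  have hWp := isPGroup_of_sq hW2
  have hlt : Nat.card (G ⧸ omegaZ G) < n := by
    rw [← hn, ← Subgroup.index_eq_card, ← Subgroup.card_mul_index (omegaZ G)]
    have hpos : 0 < (omegaZ G).index := Nat.pos_of_ne_zero Subgroup.index_ne_zero_of_finite
    have h1 : 1 < Nat.card (omegaZ G) := by
      have hnt : Nontrivial (omegaZ G) := (Subgroup.nontrivial_iff_ne_bot _).2 hWne
      exact Finite.one_lt_card
    nlinarith
  obtain ⟨hD', hD2'⟩ := image_class hWp hD hD2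
  obtain ⟨P', hP'⟩ := ih _ hlt rfl hD' hD2' (d := QuotientGroup.mk' (omegaZ G) d) ⟨d, hd, rfl⟩
    (image_hV hWp hD.1 hd hV)
  obtain ⟨P, rfl⟩ := Sylow.mapSurjective_surjective (QuotientGroup.mk'_surjective (omegaZ G)) 3 P'
  rw [Sylow.coe_mapSurjective] at hP'
  obtain ⟨u, hu, hτ⟩ := exists_conj_of_lift hW2 P hP'
  obtain ⟨y, hy, hdy⟩ := exists_not_commute hD hD2 hd
  have hG := isGroup_of_isClass hD
  obtain ⟨z, hz, hzP⟩ := exists_normalized_of_cocycle hD.1 hG.2.1 hd hy hdy hWc hW2 P.2 hu hτ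
  refine ⟨z • P, ?_⟩
  have hfwd : ∀ h, h ∈ ((z • P : Sylow 3 G) : Subgroup G) → d * h * d⁻¹ ∈ ((z • P : Sylow 3 G) : Subgroup G) := by
    intro h hh
    obtain ⟨q, hq, rfl⟩ := mem_smul_sylow.1 hh
    obtain ⟨q', hq', he⟩ := hzP q hq
    rw [he]
    exact mem_smul_sylow.2 ⟨q', hq', rfl⟩
  rw [Subgroup.mem_normalizer_iff]
  intro h
  refine ⟨hfwd h, ?_⟩
  intro hh
  have := hfwd _ hh
  have hdi := inv_of_mem hD.1 hd
  have hdd := mul_self_of_mem hD.1 hd
  have e : d * (d * h * d⁻¹) * d⁻¹ = h := by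
    rw [hdi]
    calc d * (d * h * d) * d = (d * d) * h * (d * d) := by group
      _ = h := by rw [hdd]; group
  rwa [e] at this

end Main

end Cfsg.Agent.Lib.ThreeT.Fiber
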