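import Cfsg.Prelude.Def_FischerSpaces

/-!
# Fischer spaces: the involutions `t(x)`
-/

set_option autoImplicit false
set_option linter.unusedSectionVars false
set_option linter.unusedVariables false

namespace Cfsg.Agent.Lib.ThreeT.Fischer

open Cfsg Cfsg.LineSystem

variable {X : Type*} {L : Set (Set X)}

theorem subspace_span (T : Set X) : IsSubspace L (span L T) := by
  intro l hl x hx y hy hxy hxl hyl w hw T' hT'
  exact hT'.2 l hl x (hx T' hT') y (hy T' hT') hxy hxl hyl hw

theorem subset_span (T : Set X) : T ⊆ span L T := by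
  intro x hx T' hT'
  exact hT'.1 hx

section Basics

variable (hL : IsFischerSpace L)
include hL

theorem exists_third {l : Set X} (hl : l ∈ L) {x y : X} (hx : x ∈ l) (hy : y ∈ l) (hxy : x ≠ y) :
    ∃ z, z ≠ x ∧ z ≠ y ∧ l = {x, y, z} := by
  have h3 := hL.2.1 l hl
  obtain ⟨a, b, c, hab, hac, hbc, rfl⟩ := Set.ncard_eq_three.1 h3
  simp only [Set.mem_insert_iff, Set.mem_singleton_iff] at hx hy
  rcases hx with rfl | rfl | rfl <;> rcases hy with rfl | rfl | rfl
  · exact absurd rfl hxy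
  · exact ⟨c, hac.symm, hbc.symm, rfl⟩
  · exact ⟨b, hab.symm, hbc, by ext w; simp only [Set.mem_insert_iff, Set.mem_singleton_iff]; tauto⟩
  · exact ⟨c, hbc.symm, hac.symm, by ext w; simp only [Set.mem_insert_iff, Set.mem_singleton_iff]; tauto⟩
  · exact absurd rfl hxy
  · exact ⟨a, hab, hac, by ext w; simp only [Set.mem_insert_iff, Set.mem_singleton_iff]; tauto⟩
  · exact ⟨b, hbc, hab.symm, by ext w; simp only [Set.mem_insert_iff, Set.mem_singleton_iff]; tauto⟩
  · exact ⟨a, hac, hab, by ext w; simp only [Set.mem_insert_iff, Set.mem_singleton_iff]; tauto⟩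
  · exact absurd rfl hxy

theorem lineMap_eq {x y z : X} (h : ({x, y, z} : Set X) ∈ L) (hzx : z ≠ x) (hzy : z ≠ y) (hxy : x ≠ y) :
    lineMap L x y = z := by
  classical
  have hex : ∃ z : X, z ≠ x ∧ z ≠ y ∧ x ≠ y ∧ ({x, y, z} : Set X) ∈ L := ⟨z, hzx, hzy, hxy, h⟩
  have hdef : lineMap L x y = hex.choose := by
    unfold lineMap
    exact dif_pos hex
  rw [hdef]
  obtain ⟨h1, h2, -, h4⟩ := hex.choose_spec
  set z' := hex.choose
  have heq : ({x, y, z'} : Set X) = {x, y, z} :=
    hL.1 _ h4 _ h x y hxy (by simp) (by simp) (by simp) (by simp)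
  have hz' : z' ∈ ({x, y, z} : Set X) := by rw [← heq]; simp
  simp only [Set.mem_insert_iff, Set.mem_singleton_iff] at hz'
  rcases hz' with h5 | h5 | h5
  · exact absurd h5 h1
  · exact absurd h5 h2
  · exact h5

omit hL in
theorem lineMap_of_not_col {x y : X} (h : ¬ Collinear L x y) : lineMap L x y = y := by
  classical
  unfold lineMap
  apply dif_neg
  rintro ⟨z, -, -, hxy, hl⟩
  exact h ⟨hxy, _, hl, by simp, by simp⟩

theorem exists_of_col {x y : X} (h : Collinear L x y) :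
    ∃ z, z ≠ x ∧ z ≠ y ∧ ({x, y, z} : Set X) ∈ L := by
  obtain ⟨hxy, l, hl, hx, hy⟩ := h
  obtain ⟨z, h1, h2, rfl⟩ := exists_third hL hl hx hy hxy
  exact ⟨z, h1, h2, hl⟩

theorem lineMap_invol (x y : X) : lineMap L x (lineMap L x y) = y := by
  by_cases h : Collinear L x y
  · obtain ⟨z, h1, h2, h3⟩ := exists_of_col hL h
    rw [lineMap_eq hL h3 h1 h2 h.1]
    apply lineMap_eq hL _ h.1.symm h2.symm h1.symm
    rwa [show ({x, z, y} : Set X) = {x, y, z} by
      ext w; simp only [Set.mem_insert_iff, Set.mem_singleton_iff]; tauto]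
  · rw [lineMap_of_not_col h, lineMap_of_not_col h]

end Basics

/-! ### Transfer to a model -/

section Model

variable {P : Type*} {LP : Set (Set P)} {S : Set X} (hL : IsFischerSpace L)
  (hS : IsSubspace L S) (e : S ≃ P) (he : IsIso (restrict L S) LP e) (tm : P → P → P)
  (hM0 : ∀ ℓ ∈ LP, ∀ a ∈ ℓ, ∀ b ∈ ℓ, ∀ c ∈ ℓ, a ≠ b → c ≠ a → c ≠ b → c = tm a b)
  (hM0' : ∀ a b, (¬ ∃ ℓ ∈ LP, a ∈ ℓ ∧ b ∈ ℓ) → tm a b = b)
  (hM0'' : ∀ a, tm a a = a)

include hL hS he

/-- A line of `L` inside `S` gives a model line. -/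
theorem image_line {n : Set X} (hn : n ∈ L) (hnS : n ⊆ S) : e '' {x : S | (x : X) ∈ n} ∈ LP :=
  (he _).1 ⟨n, hn, hnS, rfl⟩

/-- A model line gives a line of `L` inside `S`. -/
theorem preimage_line {ℓ : Set P} (hℓ : ℓ ∈ LP) :
    ∃ n ∈ L, n ⊆ S ∧ ∀ x : S, (x : X) ∈ n ↔ e x ∈ ℓ := by
  have h1 : e '' (e ⁻¹' ℓ) = ℓ := Set.image_preimage_eq _ e.surjective
  have h2 : e ⁻¹' ℓ ∈ restrict L S := by
    rw [he, h1]
    exact hℓ
  obtain ⟨n, hn, hnS, hnq⟩ := h2
  refine ⟨n, hn, hnS, ?_⟩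
  intro x
  have : x ∈ e ⁻¹' ℓ ↔ x ∈ {x : S | (x : X) ∈ n} := by rw [hnq]
  exact this.symm

theorem col_iff (p q : S) :
    Collinear L (p : X) q ↔ (p ≠ q ∧ ∃ ℓ ∈ LP, e p ∈ ℓ ∧ e q ∈ ℓ) := by
  constructor
  · rintro ⟨hne, n, hn, hp, hq⟩
    have hnS : n ⊆ S := hS n hn p p.2 q q.2 hne hp hq
    exact ⟨fun h => hne (congrArg Subtype.val h), _, image_line hL hS e he hn hnS,
      ⟨p, hp, rfl⟩, ⟨q, hq, rfl⟩⟩
  · rintro ⟨hne, ℓ, hℓ, hp, hq⟩
    obtain ⟨n, hn, hnS, hiff⟩ := preimage_line hL hS e he hℓ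
    exact ⟨fun h => hne (Subtype.ext h), n, hn, (hiff p).2 hp, (hiff q).2 hq⟩

include hM0 hM0' hM0''

theorem plane_map (p q : S) : ∃ r : S, (r : X) = lineMap L p q ∧ e r = tm (e p) (e q) := by
  by_cases hc : Collinear L (p : X) q
  · obtain ⟨z, h1, h2, h3⟩ := exists_of_col hL hc
    have hnS : ({(p : X), (q : X), z} : Set X) ⊆ S :=
      hS _ h3 p p.2 q q.2 hc.1 (by simp) (by simp)
    have hzS : z ∈ S := hnS (by simp)
    refine ⟨⟨z, hzS⟩, (lineMap_eq hL h3 h1 h2 hc.1).symm, ?_⟩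
    have himg := image_line hL hS e he h3 hnS
    apply hM0 _ himg
    · exact ⟨p, by simp, rfl⟩
    · exact ⟨q, by simp, rfl⟩
    · exact ⟨⟨z, hzS⟩, by simp, rfl⟩
    · intro h
      exact hc.1 (congrArg Subtype.val (e.injective h))
    · intro h
      exact h1 (congrArg Subtype.val (e.injective h))
    · intro h
      exact h2 (congrArg Subtype.val (e.injective h))
  · refine ⟨q, (lineMap_of_not_col hc).symm, ?_⟩
    by_cases hpq : p = q
    · rw [hpq, hM0'']
    · symm
      apply hM0'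
      intro hl
      exact hc ((col_iff hL hS e he p q).2 ⟨hpq, hl⟩)

/-- The relations on a plane. -/
theorem plane_relations
    (hM1 : ∀ a b c, a ≠ b → (∃ ℓ ∈ LP, a ∈ ℓ ∧ b ∈ ℓ) →
      tm a (tm b (tm a (tm b (tm a (tm b c))))) = c)
    (hM1' : ∀ a b c, a ≠ b → (¬ ∃ ℓ ∈ LP, a ∈ ℓ ∧ b ∈ ℓ) → tm a (tm b (tm a (tm b c))) = c)
    {x y z : X} (hx : x ∈ S) (hy : y ∈ S) (hz : z ∈ S) (hxy : x ≠ y) :
    (Collinear L x y → lineMap L x (lineMap L y (lineMap L x (lineMap L y (lineMap L x (lineMap L y z))))) = z) ∧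
      (¬ Collinear L x y → lineMap L x (lineMap L y (lineMap L x (lineMap L y z))) = z) := by
  have hpm := plane_map hL hS e he tm hM0 hM0' hM0''
  choose f hf1 hf2 using hpm
  let x' : S := ⟨x, hx⟩
  let y' : S := ⟨y, hy⟩
  let z' : S := ⟨z, hz⟩
  have hne : x' ≠ y' := fun h => hxy (congrArg Subtype.val h)
  have step : ∀ (p : S) (w : X) (w' : S), (w' : X) = w → lineMap L p w = f p w' := by
    intro p w w' hw
    rw [← hw, hf1]
  constructor
  · intro hc
    obtain ⟨-, hl⟩ := (col_iff hL hS e he x' y').1 hc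
    have h1 := hM1 (e x') (e y') (e z') (fun h => hne (e.injective h)) hl
    have e1 : lineMap L x (lineMap L y (lineMap L x (lineMap L y (lineMap L x (lineMap L y z))))) =
        f x' (f y' (f x' (f y' (f x' (f y' z'))))) := by
      simp only [show x = (x' : X) from rfl, show y = (y' : X) from rfl, show z = (z' : X) from rfl, ← hf1]
    rw [e1]
    have h2 : f x' (f y' (f x' (f y' (f x' (f y' z'))))) = z' := by
      apply e.injective
      simp only [hf2]
      exact h1
    rw [h2]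
  · intro hc
    have hl : ¬ ∃ ℓ ∈ LP, e x' ∈ ℓ ∧ e y' ∈ ℓ := fun hl =>
      hc ((col_iff hL hS e he x' y').2 ⟨hne, hl⟩)
    have h1 := hM1' (e x') (e y') (e z') (fun h => hne (e.injective h)) hl
    have e1 : lineMap L x (lineMap L y (lineMap L x (lineMap L y z))) =
        f x' (f y' (f x' (f y' z'))) := by
      simp only [show x = (x' : X) from rfl, show y = (y' : X) from rfl, show z = (z' : X) from rfl, ← hf1]
    rw [e1]
    have h2 : f x' (f y' (f x' (f y' z'))) = z' := by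
      apply e.injective
      simp only [hf2]
      exact h1
    rw [h2]

/-- The image of a line in a plane is a line. -/
theorem plane_image (hM2 : ∀ a, ∀ ℓ ∈ LP, tm a '' ℓ ∈ LP) {x : X} (hx : x ∈ S) {n : Set X} (hn : n ∈ L)
    (hnS : n ⊆ S) : lineMap L x '' n ∈ L := by
  have hpm := plane_map hL hS e he tm hM0 hM0' hM0''
  choose f hf1 hf2 using hpm
  let x' : S := ⟨x, hx⟩
  have himg := image_line hL hS e he hn hnS
  obtain ⟨n₂, hn₂, hn₂S, hiff⟩ := preimage_line hL hS e he (hM2 (e x') _ himg)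
  convert hn₂ using 1
  ext y
  constructor
  · rintro ⟨w, hw, rfl⟩
    have hwS := hnS hw
    have h1 : lineMap L x w = f x' ⟨w, hwS⟩ := (hf1 x' ⟨w, hwS⟩).symm
    rw [h1, hiff, hf2]
    exact ⟨_, ⟨⟨w, hwS⟩, hw, rfl⟩, rfl⟩
  · intro hy
    have hyS := hn₂S hy
    have h1 := (hiff ⟨y, hyS⟩).1 hy
    obtain ⟨_, ⟨w, hw, rfl⟩, h2⟩ := h1
    rw [← hf2] at h2
    have h3 := e.injective h2
    refine ⟨w, hw, ?_⟩
    have h4 : lineMap L x (w : X) = f x' w := (hf1 x' w).symm
    rw [h4, h3]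

end Model


/-! ### The two models -/

section Models

def affT (a b : Fin 2 → ZMod 3) : Fin 2 → ZMod 3 := -a - b

theorem three_eq_zero : (3 : ZMod 3) = 0 := by decide

theorem aff_M0 : ∀ ℓ ∈ affinePlaneThree, ∀ a ∈ ℓ, ∀ b ∈ ℓ, ∀ c ∈ ℓ, a ≠ b → c ≠ a → c ≠ b → c = affT a b := by
  rintro _ ⟨v, w, hw, rfl⟩ _ ⟨i, rfl⟩ _ ⟨j, rfl⟩ _ ⟨k, rfl⟩ hab hca hcb
  have hij : i ≠ j := by rintro rfl; exact hab rfl
  have hki : k ≠ i := by rintro rfl; exact hca rfl
  have hkj : k ≠ j := by rintro rfl; exact hcb rfl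
  have h : i + j + k = 0 := by
    clear hab hca hcb
    revert hij hki hkj
    revert i j k
    decide
  funext t
  simp only [affT, Pi.add_apply, Pi.smul_apply, Pi.neg_apply, Pi.sub_apply, smul_eq_mul]
  linear_combination (w t) * h + (v t) * three_eq_zero

theorem aff_line (a b : Fin 2 → ZMod 3) (hab : a ≠ b) : ∃ ℓ ∈ affinePlaneThree, a ∈ ℓ ∧ b ∈ ℓ := by
  refine ⟨_, ⟨a, b - a, sub_ne_zero.2 hab.symm, rfl⟩, ⟨0, by simp⟩, ⟨1, by simp⟩⟩

theorem aff_M0b (a : Fin 2 → ZMod 3) : affT a a = a := by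
  funext t
  simp only [affT, Pi.neg_apply, Pi.sub_apply]
  linear_combination (-(a t)) * three_eq_zero

theorem aff_M0a (a b : Fin 2 → ZMod 3) (h : ¬ ∃ ℓ ∈ affinePlaneThree, a ∈ ℓ ∧ b ∈ ℓ) : affT a b = b := by
  by_cases hab : a = b
  · rw [hab, aff_M0b]
  · exact absurd (aff_line a b hab) h

theorem aff_M1 (a b c : Fin 2 → ZMod 3) (_ : a ≠ b) (_ : ∃ ℓ ∈ affinePlaneThree, a ∈ ℓ ∧ b ∈ ℓ) :
    affT a (affT b (affT a (affT b (affT a (affT b c))))) = c := by
  funext t
  simp only [affT, Pi.neg_apply, Pi.sub_apply]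
  linear_combination (b t - a t) * three_eq_zero

theorem aff_M1a (a b c : Fin 2 → ZMod 3) (hab : a ≠ b) (h : ¬ ∃ ℓ ∈ affinePlaneThree, a ∈ ℓ ∧ b ∈ ℓ) :
    affT a (affT b (affT a (affT b c))) = c :=
  absurd (aff_line a b hab) h

theorem aff_M2 (a : Fin 2 → ZMod 3) : ∀ ℓ ∈ affinePlaneThree, affT a '' ℓ ∈ affinePlaneThree := by
  rintro _ ⟨v, w, hw, rfl⟩
  refine ⟨-a - v, -w, neg_ne_zero.2 hw, ?_⟩
  ext x
  constructor
  · rintro ⟨_, ⟨c, rfl⟩, rfl⟩
    refine ⟨c, ?_⟩
    funext t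
    simp only [affT, Pi.add_apply, Pi.smul_apply, Pi.neg_apply, Pi.sub_apply, smul_eq_mul]
    ring
  · rintro ⟨c, rfl⟩
    refine ⟨_, ⟨c, rfl⟩, ?_⟩
    funext t
    simp only [affT, Pi.add_apply, Pi.smul_apply, Pi.neg_apply, Pi.sub_apply, smul_eq_mul]
    ring

def dualS (a b : Finset (Fin 4)) : Finset (Fin 4) :=
  (b \ a) ∪ (if (b ∩ a).card = 1 then a \ b else b ∩ a)

theorem dualS_card : ∀ a b : DualAffinePoint, (dualS a.val b.val).card = 2 := by decide

def dualT (a b : DualAffinePoint) : DualAffinePoint := ⟨dualS a.val b.val, dualS_card a b⟩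

theorem dual_M0a : ∀ i : Fin 4, ∀ a b c : DualAffinePoint, i ∉ a.val → i ∉ b.val → i ∉ c.val → a ≠ b →
    c ≠ a → c ≠ b → c = dualT a b := by decide

theorem dual_M0b : ∀ a b : DualAffinePoint, (¬ ∃ i : Fin 4, i ∉ a.val ∧ i ∉ b.val) → dualT a b = b := by
  decide

theorem dual_M0c : ∀ a : DualAffinePoint, dualT a a = a := by decide

set_option maxRecDepth 100000 in
theorem dual_M1a : ∀ a b c : DualAffinePoint, a ≠ b → (∃ i : Fin 4, i ∉ a.val ∧ i ∉ b.val) →
    dualT a (dualT b (dualT a (dualT b (dualT a (dualT b c))))) = c := by decide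

set_option maxRecDepth 100000 in
theorem dual_M1b : ∀ a b c : DualAffinePoint, a ≠ b → (¬ ∃ i : Fin 4, i ∉ a.val ∧ i ∉ b.val) →
    dualT a (dualT b (dualT a (dualT b c))) = c := by decide

set_option maxRecDepth 100000 in
theorem dual_M2a : ∀ (a : DualAffinePoint) (i : Fin 4), ∃ j : Fin 4, ∀ s : DualAffinePoint,
    (∃ r : DualAffinePoint, i ∉ r.val ∧ dualT a r = s) ↔ j ∉ s.val := by decide

theorem dual_M0 : ∀ ℓ ∈ dualAffinePlaneTwo, ∀ a ∈ ℓ, ∀ b ∈ ℓ, ∀ c ∈ ℓ, a ≠ b → c ≠ a → c ≠ b → c = dualT a b := by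
  rintro _ ⟨i, rfl⟩ a ha b hb c hc hab hca hcb
  exact dual_M0a i a b c ha hb hc hab hca hcb

theorem dual_col_iff (a b : DualAffinePoint) :
    (∃ ℓ ∈ dualAffinePlaneTwo, a ∈ ℓ ∧ b ∈ ℓ) ↔ ∃ i : Fin 4, i ∉ a.val ∧ i ∉ b.val := by
  constructor
  · rintro ⟨_, ⟨i, rfl⟩, ha, hb⟩
    exact ⟨i, ha, hb⟩
  · rintro ⟨i, ha, hb⟩
    exact ⟨_, ⟨i, rfl⟩, ha, hb⟩

theorem dual_M2 (a : DualAffinePoint) : ∀ ℓ ∈ dualAffinePlaneTwo, dualT a '' ℓ ∈ dualAffinePlaneTwo := by
  rintro _ ⟨i, rfl⟩
  obtain ⟨j, hj⟩ := dual_M2a a i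
  refine ⟨j, ?_⟩
  ext s
  constructor
  · rintro ⟨r, hr, rfl⟩
    exact (hj _).1 ⟨r, hr, rfl⟩
  · intro hs
    obtain ⟨r, hr, he⟩ := (hj s).2 hs
    exact ⟨r, hr, he⟩

end Models

/-! ### Plane lemma without the model -/

section Plane

variable (hL : IsFischerSpace L)
include hL

/-- Two different meeting lines span a plane with the relations. -/
theorem span_relations {l m : Set X} (hl : l ∈ L) (hm : m ∈ L) (hne : l ≠ m) (hmeet : (l ∩ m).Nonempty)
    {x y z : X} (hx : x ∈ span L (l ∪ m)) (hy : y ∈ span L (l ∪ m)) (hz : z ∈ span L (l ∪ m)) (hxy : x ≠ y) :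
    (Collinear L x y → lineMap L x (lineMap L y (lineMap L x (lineMap L y (lineMap L x (lineMap L y z))))) = z) ∧
      (¬ Collinear L x y → lineMap L x (lineMap L y (lineMap L x (lineMap L y z))) = z) := by
  have hS : IsSubspace L (span L (l ∪ m)) := subspace_span _
  rcases hL.2.2 l hl m hm hne hmeet with ⟨e, he⟩ | ⟨e, he⟩
  · exact plane_relations hL hS e he dualT dual_M0
      (fun a b h => dual_M0b a b (fun h' => h ((dual_col_iff a b).2 h'))) dual_M0c
      (fun a b c hab h => dual_M1a a b c hab ((dual_col_iff a b).1 h))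
      (fun a b c hab h => dual_M1b a b c hab (fun h' => h ((dual_col_iff a b).2 h')))
      hx hy hz hxy
  · exact plane_relations hL hS e he affT aff_M0 aff_M0a aff_M0b aff_M1 aff_M1a hx hy hz hxy

theorem span_image {l m : Set X} (hl : l ∈ L) (hm : m ∈ L) (hne : l ≠ m) (hmeet : (l ∩ m).Nonempty)
    {x : X} (hx : x ∈ span L (l ∪ m)) {n : Set X} (hn : n ∈ L) (hnS : n ⊆ span L (l ∪ m)) :
    lineMap L x '' n ∈ L := by
  have hS : IsSubspace L (span L (l ∪ m)) := subspace_span _
  rcases hL.2.2 l hl m hm hne hmeet with ⟨e, he⟩ | ⟨e, he⟩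
  · exact plane_image hL hS e he dualT dual_M0
      (fun a b h => dual_M0b a b (fun h' => h ((dual_col_iff a b).2 h'))) dual_M0c dual_M2 hx hn hnS
  · exact plane_image hL hS e he affT aff_M0 aff_M0a aff_M0b aff_M2 hx hn hnS

omit hL in
theorem mem_left {l m : Set X} {x : X} (h : x ∈ l) : x ∈ span L (l ∪ m) :=
  subset_span _ (Or.inl h)

omit hL in
theorem mem_right {l m : Set X} {x : X} (h : x ∈ m) : x ∈ span L (l ∪ m) :=
  subset_span _ (Or.inr h)

/-- Relation when `x, y` are collinear. -/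
theorem relation_col {x y : X} (hc : Collinear L x y) (z : X) :
    lineMap L x (lineMap L y (lineMap L x (lineMap L y (lineMap L x (lineMap L y z))))) = z := by
  obtain ⟨w, hwx, hwy, hw⟩ := exists_of_col hL hc
  set m : Set X := {x, y, w} with hm
  have hxm : x ∈ m := by simp [hm]
  have hym : y ∈ m := by simp [hm]
  have hwm : w ∈ m := by simp [hm]
  by_cases hz : z ∈ m
  · have hperm1 : ({y, x, w} : Set X) = m := by
      rw [hm]; ext t; simp only [Set.mem_insert_iff, Set.mem_singleton_iff]; tauto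
    have hperm2 : ({x, w, y} : Set X) = m := by
      rw [hm]; ext t; simp only [Set.mem_insert_iff, Set.mem_singleton_iff]; tauto
    have hperm3 : ({y, w, x} : Set X) = m := by
      rw [hm]; ext t; simp only [Set.mem_insert_iff, Set.mem_singleton_iff]; tauto
    have hxy : x ≠ y := hc.1
    have txy : lineMap L x y = w := lineMap_eq hL hw hwx hwy hxy
    have tyx : lineMap L y x = w := lineMap_eq hL (by rw [hperm1]; exact hw) hwy hwx hxy.symm
    have txw : lineMap L x w = y := lineMap_eq hL (by rw [hperm2]; exact hw) hxy.symm hwy.symm hwx.symm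
    have tyw : lineMap L y w = x := lineMap_eq hL (by rw [hperm3]; exact hw) hxy hwx.symm hwy.symm
    have txx : lineMap L x x = x := lineMap_of_not_col (fun h => h.1 rfl)
    have tyy : lineMap L y y = y := lineMap_of_not_col (fun h => h.1 rfl)
    simp only [hm, Set.mem_insert_iff, Set.mem_singleton_iff] at hz
    rcases hz with rfl | rfl | rfl
    · rw [tyx, txw, tyy, txy, tyw, txx]
    · rw [tyy, txy, tyw, txx, tyx, txw]
    · rw [tyw, txx, tyx, txw, tyy, txy]
  · by_cases hxz : Collinear L x z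
    · obtain ⟨hne, l, hl, hx, hzl⟩ := hxz
      have hlm : l ≠ m := by
        rintro rfl
        exact hz hzl
      exact (span_relations hL hl hw hlm ⟨x, hx, hxm⟩ (mem_left hx) (mem_right hym) (mem_left hzl) hc.1).1 hc
    · by_cases hyz : Collinear L y z
      · obtain ⟨hne, l, hl, hy, hzl⟩ := hyz
        have hlm : l ≠ m := by
          rintro rfl
          exact hz hzl
        exact (span_relations hL hl hw hlm ⟨y, hy, hym⟩ (mem_right hxm) (mem_left hy) (mem_left hzl) hc.1).1 hc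
      · rw [lineMap_of_not_col hyz, lineMap_of_not_col hxz, lineMap_of_not_col hyz,
          lineMap_of_not_col hxz, lineMap_of_not_col hyz, lineMap_of_not_col hxz]

/-- Relation when `x, y` are not collinear. -/
theorem relation_not_col {x y : X} (hxy : x ≠ y) (hc : ¬ Collinear L x y) (z : X) :
    lineMap L x (lineMap L y (lineMap L x (lineMap L y z))) = z := by
  have hxl : ∀ l ∈ L, x ∈ l → y ∉ l := fun l hl hx hy => hc ⟨hxy, l, hl, hx, hy⟩
  by_cases hxz : Collinear L x z
  · obtain ⟨z', h1, h2, h3⟩ := exists_of_col hL hxz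
    set l : Set X := {x, z, z'} with hl
    have hxL : x ∈ l := by simp [hl]
    have hzL : z ∈ l := by simp [hl]
    have hz'L : z' ∈ l := by simp [hl]
    by_cases hyz : Collinear L y z
    · obtain ⟨hne, m, hm, hym, hzm⟩ := hyz
      have hlm : l ≠ m := by
        rintro rfl
        exact hxl _ h3 hxL hym
      exact (span_relations hL h3 hm hlm ⟨z, hzL, hzm⟩ (mem_left hxL) (mem_right hym) (mem_left hzL) hxy).2 hc
    · by_cases hyz' : Collinear L y z'
      · obtain ⟨hne, m, hm, hym, hzm⟩ := hyz'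
        have hlm : l ≠ m := by
          rintro rfl
          exact hxl _ h3 hxL hym
        exact (span_relations hL h3 hm hlm ⟨z', hz'L, hzm⟩ (mem_left hxL) (mem_right hym) (mem_left hzL) hxy).2 hc
      · have e1 : lineMap L x z = z' := lineMap_eq hL h3 h1 h2 hxz.1
        have e2 : lineMap L x z' = z := by
          rw [← e1]
          exact lineMap_invol hL x z
        rw [lineMap_of_not_col hyz, e1, lineMap_of_not_col hyz', e2]
  · by_cases hyz : Collinear L y z
    · obtain ⟨z', h1, h2, h3⟩ := exists_of_col hL hyz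
      set m : Set X := {y, z, z'} with hm
      have hyM : y ∈ m := by simp [hm]
      have hzM : z ∈ m := by simp [hm]
      have hz'M : z' ∈ m := by simp [hm]
      have e1 : lineMap L y z = z' := lineMap_eq hL h3 h1 h2 hyz.1
      have e2 : lineMap L y z' = z := by
        rw [← e1]
        exact lineMap_invol hL y z
      by_cases hxz' : Collinear L x z'
      · obtain ⟨hne, l, hl, hxl', hzl⟩ := hxz'
        have hlm : l ≠ m := by
          rintro rfl
          exact hxl _ hl hxl' hyM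
        exact (span_relations hL hl h3 hlm ⟨z', hzl, hz'M⟩ (mem_left hxl') (mem_right hyM) (mem_right hzM) hxy).2 hc
      · rw [e1, lineMap_of_not_col hxz', e2, lineMap_of_not_col hxz]
    · rw [lineMap_of_not_col hyz, lineMap_of_not_col hxz, lineMap_of_not_col hyz, lineMap_of_not_col hxz]

/-- `t(x)` maps lines to lines. -/
theorem image_mem {n : Set X} (hn : n ∈ L) (x : X) : lineMap L x '' n ∈ L := by
  by_cases hxn : x ∈ n
  · -- `t(x)` stabilizes `n`
    convert hn using 1
    ext y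
    constructor
    · rintro ⟨w, hw, rfl⟩
      by_cases hwx : w = x
      · rw [hwx, lineMap_of_not_col (fun h => h.1 rfl)]
        exact hxn
      · have hcol : Collinear L x w := ⟨Ne.symm hwx, n, hn, hxn, hw⟩
        obtain ⟨z, h1, h2, rfl⟩ := exists_third hL hn hxn hw (Ne.symm hwx)
        rw [lineMap_eq hL hn h1 h2 (Ne.symm hwx)]
        simp
    · intro hy
      refine ⟨lineMap L x y, ?_, lineMap_invol hL x y⟩
      by_cases hwx : y = x
      · rw [hwx, lineMap_of_not_col (fun h => h.1 rfl)]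
        exact hxn
      · obtain ⟨z, h1, h2, rfl⟩ := exists_third hL hn hxn hy (Ne.symm hwx)
        rw [lineMap_eq hL hn h1 h2 (Ne.symm hwx)]
        simp
  · by_cases hex : ∃ p ∈ n, Collinear L x p
    · obtain ⟨p, hp, hne, l, hl, hxl, hpl⟩ := hex
      have hlm : l ≠ n := by
        rintro rfl
        exact hxn hxl
      exact span_image hL hl hn hlm ⟨p, hpl, hp⟩ (mem_left hxl) hn (fun w hw => mem_right hw)
    · push Not at hex
      convert hn using 1
      ext y
      constructor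
      · rintro ⟨w, hw, rfl⟩
        rw [lineMap_of_not_col (hex w hw)]
        exact hw
      · intro hy
        exact ⟨y, hy, lineMap_of_not_col (hex y hy)⟩

/-- The main theorem on Fischer spaces. -/
theorem main (hnd : IsNondegenerate L) :
    (∀ x : X, ∃ σ : Equiv.Perm X, ⇑σ = lineMap L x ∧ orderOf σ = 2 ∧ IsIso L L σ) ∧
      IsThreeTranspositionSet {σ : Equiv.Perm X | ∃ x : X, ⇑σ = lineMap L x} := by
  have hperm : ∀ x : X, ∃ σ : Equiv.Perm X, ⇑σ = lineMap L x :=
    fun x => ⟨Function.Involutive.toPerm _ (lineMap_invol hL x), rfl⟩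
  have horder : ∀ (x : X) (σ : Equiv.Perm X), ⇑σ = lineMap L x → orderOf σ = 2 := by
    intro x σ hσ
    apply orderOf_eq_prime
    · ext y
      rw [pow_two, Equiv.Perm.mul_apply, hσ, lineMap_invol hL]
      rfl
    · intro h1
      obtain ⟨l, hl, hxl⟩ := hnd x
      have h3 := hL.2.1 l hl
      obtain ⟨p, hpl, hpx⟩ : ∃ p ∈ l, p ≠ x := by
        by_contra hno
        push Not at hno
        have : l ⊆ {x} := fun w hw => hno w hw
        have h4 := Set.ncard_le_ncard this (Set.finite_singleton x)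
        rw [h3, Set.ncard_singleton] at h4
        omega
      obtain ⟨z, h5, h6, rfl⟩ := exists_third hL hl hxl hpl (Ne.symm hpx)
      have h7 : σ p = z := by
        rw [hσ]
        exact lineMap_eq hL hl h5 h6 (Ne.symm hpx)
      rw [h1] at h7
      exact h6 h7.symm
  refine ⟨?_, ?_, ?_⟩
  · intro x
    obtain ⟨σ, hσ⟩ := hperm x
    refine ⟨σ, hσ, horder x σ hσ, ?_⟩
    intro l
    rw [hσ]
    constructor
    · intro hl
      exact image_mem hL hl x
    · intro hl
      have := image_mem hL hl x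
      convert this using 1
      ext y
      constructor
      · intro hy
        exact ⟨lineMap L x y, ⟨y, hy, rfl⟩, lineMap_invol hL x y⟩
      · rintro ⟨_, ⟨w, hw, rfl⟩, rfl⟩
        rw [lineMap_invol hL x w]
        exact hw
  · rintro σ ⟨x, hσ⟩
    exact horder x σ hσ
  · rintro σ ⟨x, hσ⟩ τ ⟨y, hτ⟩
    by_cases hxy : x = y
    · left
      subst hxy
      have : σ = τ := Equiv.ext (fun w => by rw [hσ, hτ])
      rw [← this]
      have h2 : σ ^ 2 = 1 := by
        have := pow_orderOf_eq_one σ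
        rwa [horder x σ hσ] at this
      rw [← pow_two, ← pow_mul, show 2 * 2 = 2 + 2 by rfl, pow_add, h2, one_mul]
    · by_cases hc : Collinear L x y
      · right
        ext z
        simp only [pow_succ, pow_zero, one_mul, Equiv.Perm.mul_apply, Equiv.Perm.one_apply, hσ, hτ]
        exact relation_col hL hc z
      · left
        ext z
        simp only [pow_succ, pow_zero, one_mul, Equiv.Perm.mul_apply, Equiv.Perm.one_apply, hσ, hτ]
        exact relation_not_col hL hxy hc z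

end Plane

end Cfsg.Agent.Lib.ThreeT.Fischer
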