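import Cfsg.Agent.Lib.ThreeT.Fischer
import Cfsg.Agent.Lib.ThreeT.S4

/-!
# The line system of a set of 3-transpositions is a Fischer space
-/

set_option autoImplicit false
set_option linter.unusedSectionVars false
set_option linter.unusedVariables false

namespace Cfsg.Agent.Lib.ThreeT.Fischer2

open Cfsg Cfsg.LineSystem Cfsg.Agent.Lib.ThreeT.Basic Cfsg.Agent.Lib.ThreeT.Fischer

variable {G : Type*} [Group G] {D : Set G}

/-- The line through two members of `D`. -/
def ln (x y : D) : Set D := {z : D | (z : G) = x ∨ (z : G) = y ∨ (z : G) = (y : G) * (x : G) * (y : G)⁻¹}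

/-- The third point of a line. -/
def thd (hc : ∀ g : G, ∀ d ∈ D, g * d * g⁻¹ ∈ D) (x y : D) : D :=
  ⟨(y : G) * (x : G) * (y : G)⁻¹, hc _ _ x.2⟩

section Lines

variable (hD : IsThreeTranspositionSet D) (hc : ∀ g : G, ∀ d ∈ D, g * d * g⁻¹ ∈ D)
include hD

theorem mem_lines {x y : D} (h : ¬ Commute (x : G) (y : G)) : ln x y ∈ threeTranspositionLines D :=
  ⟨x, y, h, rfl⟩

omit hD in
theorem left_mem (x y : D) : x ∈ ln x y := Or.inl rfl

omit hD in
theorem right_mem (x y : D) : y ∈ ln x y := Or.inr (Or.inl rfl)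

omit hD in
theorem thd_mem (x y : D) : thd hc x y ∈ ln x y := Or.inr (Or.inr rfl)

omit hD in
theorem mem_ln_iff {x y z : D} : z ∈ ln x y ↔ z = x ∨ z = y ∨ z = thd hc x y := by
  constructor
  · rintro (h | h | h)
    · exact Or.inl (Subtype.ext h)
    · exact Or.inr (Or.inl (Subtype.ext h))
    · exact Or.inr (Or.inr (Subtype.ext h))
  · rintro (rfl | rfl | rfl)
    · exact Or.inl rfl
    · exact Or.inr (Or.inl rfl)
    · exact Or.inr (Or.inr rfl)

theorem thd_val (x y : D) : (thd hc x y : G) = (y : G) * x * y := by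
  show (y : G) * x * (y : G)⁻¹ = _
  rw [inv_of_mem hD y.2]

theorem ne_of_not_commute {x y : D} (h : ¬ Commute (x : G) (y : G)) : x ≠ y := by
  rintro rfl
  exact h (Commute.refl _)

theorem thd_ne_left {x y : D} (h : ¬ Commute (x : G) (y : G)) : thd hc x y ≠ x := by
  intro he
  apply h
  have h1 : (y : G) * x * y = x := by
    rw [← thd_val hD hc, he]
  have hyy := mul_self_of_mem hD y.2
  show (x : G) * y = y * x
  calc (x : G) * y = (y * x * y) * y := by rw [h1]
    _ = y * x * (y * y) := by group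
    _ = y * x := by rw [hyy]; group

theorem thd_ne_right {x y : D} (h : ¬ Commute (x : G) (y : G)) : thd hc x y ≠ y := by
  intro he
  apply ne_of_not_commute hD h
  apply Subtype.ext
  have h1 : (y : G) * x * y = y := by
    rw [← thd_val hD hc, he]
  have hyy := mul_self_of_mem hD y.2
  calc (x : G) = y * (y * x * y) * y := by
        calc (x : G) = (y * y) * x * (y * y) := by rw [hyy]; group
          _ = _ := by group
    _ = y := by rw [h1, hyy, one_mul]

/-- The line through any two points is the same line. -/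
theorem ln_comm {x y : D} (h : ¬ Commute (x : G) (y : G)) : ln x y = ln y x := by
  have hb := braid hD x.2 y.2 h
  ext z
  simp only [ln, Set.mem_ofPred_eq]
  rw [inv_of_mem hD y.2, inv_of_mem hD x.2, ← hb]
  tauto

theorem not_commute_thd {x y : D} (h : ¬ Commute (x : G) (y : G)) :
    ¬ Commute (x : G) (thd hc x y) := by
  intro hcomm
  apply h
  rw [thd_val hD hc] at hcomm
  have hb := braid hD x.2 y.2 h
  have hxx := mul_self_of_mem hD x.2
  have hyy := mul_self_of_mem hD y.2
  -- `y x y = x y x` so commuting with `x` means `x y x = y`.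
  rw [← hb] at hcomm
  have h1 : (x : G) * (x * y * x) = (x * y * x) * x := hcomm
  have h2 : (y : G) * x = x * y := by
    calc (y : G) * x = (x * x) * y * x := by rw [hxx, one_mul]
      _ = x * (x * y * x) := by group
      _ = (x * y * x) * x := h1
      _ = x * y * (x * x) := by group
      _ = x * y := by rw [hxx, mul_one]
  exact h2.symm

theorem ln_thd {x y : D} (h : ¬ Commute (x : G) (y : G)) : ln x (thd hc x y) = ln x y := by
  have hb := braid hD x.2 y.2 h
  have hxx := mul_self_of_mem hD x.2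
  have hyy := mul_self_of_mem hD y.2
  have hn := not_commute_thd hD hc h
  have e : thd hc x (thd hc x y) = y := by
    apply Subtype.ext
    rw [thd_val hD hc, thd_val hD hc, ← hb]
    have hxi : (x : G) = x := rfl
    -- `(x y x) x (x y x) = x y (x x) (y x) ...`
    calc (x : G) * y * x * x * (x * y * x) = x * y * (x * x) * (x * y * x) := by group
      _ = x * y * (x * y * x) := by rw [hxx, mul_one]
      _ = x * (y * x * y) * x := by group
      _ = x * (x * y * x) * x := by rw [hb]
      _ = (x * x) * y * (x * x) := by group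
      _ = y := by rw [hxx, one_mul, mul_one]
  ext z
  rw [mem_ln_iff hc, mem_ln_iff hc, e]
  tauto

include hc in
/-- Any two different points of a line determine the line. -/
theorem ln_eq_of_mem {x y p q : D} (h : ¬ Commute (x : G) (y : G)) (hp : p ∈ ln x y) (hq : q ∈ ln x y)
    (hpq : p ≠ q) : ¬ Commute (p : G) (q : G) ∧ ln x y = ln p q := by
  have h' : ¬ Commute (y : G) (x : G) := fun hh => h hh.symm
  have h1 := not_commute_thd hD hc h
  have h2 : ¬ Commute (y : G) (thd hc x y) := by
    have := not_commute_thd hD hc h'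
    have e : thd hc y x = thd hc x y := by
      apply Subtype.ext
      rw [thd_val hD hc, thd_val hD hc]
      exact (braid hD x.2 y.2 h)
    rwa [e] at this
  have hl1 : ln x y = ln y x := ln_comm hD h
  have hl2 : ln x (thd hc x y) = ln x y := ln_thd hD hc h
  have hl3 : ln y (thd hc x y) = ln x y := by
    have := ln_thd hD hc h'
    have e : thd hc y x = thd hc x y := by
      apply Subtype.ext
      rw [thd_val hD hc, thd_val hD hc]
      exact (braid hD x.2 y.2 h)
    rw [e] at this
    rw [this, hl1]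
  rw [mem_ln_iff hc] at hp hq
  rcases hp with rfl | rfl | rfl <;> rcases hq with rfl | rfl | rfl
  · exact absurd rfl hpq
  · exact ⟨h, rfl⟩
  · exact ⟨h1, hl2.symm⟩
  · exact ⟨h', hl1⟩
  · exact absurd rfl hpq
  · exact ⟨h2, hl3.symm⟩
  · exact ⟨fun hh => h1 hh.symm, by rw [ln_comm hD (fun hh => h1 hh.symm), hl2]⟩
  · exact ⟨fun hh => h2 hh.symm, by rw [ln_comm hD (fun hh => h2 hh.symm), hl3]⟩
  · exact absurd rfl hpq

include hc in
theorem partial_linear : IsPartialLinear (threeTranspositionLines D) := by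
  rintro _ ⟨x, y, h, rfl⟩ _ ⟨x', y', h', rfl⟩ p q hpq hp hq hp' hq'
  have h1 := (ln_eq_of_mem hD hc h hp hq hpq).2
  have h2 := (ln_eq_of_mem hD hc h' hp' hq' hpq).2
  show ln x y = ln x' y'
  rw [h1, h2]

include hc in
theorem ncard_line {x y : D} (h : ¬ Commute (x : G) (y : G)) : (ln x y).ncard = 3 := by
  rw [Set.ncard_eq_three]
  refine ⟨x, y, thd hc x y, ne_of_not_commute hD h, (thd_ne_left hD hc h).symm,
    (thd_ne_right hD hc h).symm, ?_⟩
  ext z
  rw [mem_ln_iff hc]
  simp

end Lines

/-! ### The abstract plane lemma -/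

section PlaneLemma

variable {P : Type*} {LP : Set (Set P)} (hD : IsThreeTranspositionSet D)
  (hc : ∀ g : G, ∀ d ∈ D, g * d * g⁻¹ ∈ D) (tm : P → P → P) (F : P → D)
  (hinj : Function.Injective F)
  (hd1 : ∀ ℓ ∈ LP, ∃ p q, p ≠ q ∧ ℓ = {p, q, tm p q})
  (hd2 : ∀ p q, p ≠ q → (∃ ℓ ∈ LP, p ∈ ℓ ∧ q ∈ ℓ) → ({p, q, tm p q} : Set P) ∈ LP)
  (hb : ∀ p q, p ≠ q → ((∃ ℓ ∈ LP, p ∈ ℓ ∧ q ∈ ℓ) ↔ ¬ Commute (F p : G) (F q)))
  (hth : ∀ p q, p ≠ q → (∃ ℓ ∈ LP, p ∈ ℓ ∧ q ∈ ℓ) → thd hc (F p) (F q) = F (tm p q))

include hD hinj hd1 hd2 hb hth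

theorem range_subspace : IsSubspace (threeTranspositionLines D) (Set.range F) := by
  rintro _ ⟨x, y, h, rfl⟩ _ ⟨p, rfl⟩ _ ⟨q, rfl⟩ hne hp hq w hw
  have hpq : p ≠ q := fun e => hne (congrArg F e)
  obtain ⟨hnc, hl⟩ := ln_eq_of_mem hD hc h hp hq hne
  have hw' : w ∈ ln (F p) (F q) := by
    rw [← hl]; exact hw
  have hcol := (hb p q hpq).2 hnc
  rw [mem_ln_iff hc] at hw'
  rcases hw' with rfl | rfl | rfl
  · exact ⟨p, rfl⟩
  · exact ⟨q, rfl⟩
  · rw [hth p q hpq hcol]
    exact ⟨_, rfl⟩

/-- The plane lemma. -/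
theorem isomorphic_of_model {T : Set D} (hT : T ⊆ Set.range F)
    (hgen : ∀ T' : Set D, T ⊆ T' → IsSubspace (threeTranspositionLines D) T' → Set.range F ⊆ T') :
    Isomorphic (restrict (threeTranspositionLines D) (span (threeTranspositionLines D) T)) LP := by
  have hsub := range_subspace hD hc tm F hinj hd1 hd2 hb hth
  have hspan : span (threeTranspositionLines D) T = Set.range F := by
    apply Set.Subset.antisymm
    · intro x hx
      exact hx _ ⟨hT, hsub⟩
    · intro x hx T' hT'
      exact hgen T' hT'.1 hT'.2 hx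
  rw [hspan]
  -- the bijection
  let g : P → Set.range F := fun p => ⟨F p, p, rfl⟩
  have hgb : Function.Bijective g := by
    constructor
    · intro p q h
      exact hinj (congrArg Subtype.val h)
    · rintro ⟨_, p, rfl⟩
      exact ⟨p, rfl⟩
  let e : Set.range F ≃ P := (Equiv.ofBijective g hgb).symm
  have hes : ∀ p, e (g p) = p := fun p => (Equiv.ofBijective g hgb).symm_apply_apply p
  have hse : ∀ x, g (e x) = x := fun x => (Equiv.ofBijective g hgb).apply_symm_apply x
  refine ⟨e, ?_⟩
  intro n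
  constructor
  · rintro ⟨l, ⟨x, y, h, rfl⟩, hlS, rfl⟩
    obtain ⟨p, hp⟩ := hlS (left_mem x y)
    obtain ⟨q, hq⟩ := hlS (right_mem x y)
    subst hp hq
    have hpq : p ≠ q := fun e => ne_of_not_commute hD h (congrArg F e)
    have hcol := (hb p q hpq).2 h
    convert hd2 p q hpq hcol using 1
    ext r
    constructor
    · rintro ⟨⟨_, s, rfl⟩, hs, rfl⟩
      have hs' : F s ∈ ln (F p) (F q) := hs
      rw [mem_ln_iff hc, hth p q hpq hcol] at hs'
      have : e (g s) = s := hes s
      show e (g s) ∈ _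
      rw [this]
      rcases hs' with h1 | h1 | h1
      · rw [hinj h1]; simp
      · rw [hinj h1]; simp
      · rw [hinj h1]; simp
    · intro hr
      refine ⟨g r, ?_, hes r⟩
      show F r ∈ ln (F p) (F q)
      rw [mem_ln_iff hc, hth p q hpq hcol]
      simp only [Set.mem_insert_iff, Set.mem_singleton_iff] at hr
      rcases hr with rfl | rfl | rfl
      · exact Or.inl rfl
      · exact Or.inr (Or.inl rfl)
      · exact Or.inr (Or.inr rfl)
  · intro hn
    obtain ⟨p, q, hpq, hl⟩ := hd1 _ hn
    have hcol : ∃ ℓ ∈ LP, p ∈ ℓ ∧ q ∈ ℓ := ⟨_, hn, by rw [hl]; simp, by rw [hl]; simp⟩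
    have hnc := (hb p q hpq).1 hcol
    have hmem : ∀ x : Set.range F, x ∈ n ↔ e x ∈ ({p, q, tm p q} : Set P) := by
      intro x
      rw [← hl]
      constructor
      · intro hx
        exact ⟨x, hx, rfl⟩
      · rintro ⟨y, hy, he⟩
        rwa [← e.injective he]
    refine ⟨ln (F p) (F q), mem_lines hD hnc, ?_, ?_⟩
    · intro z hz
      rw [mem_ln_iff hc, hth p q hpq hcol] at hz
      rcases hz with rfl | rfl | rfl <;> exact ⟨_, rfl⟩
    · ext x
      rw [hmem]
      obtain ⟨r, rfl⟩ := hgb.2 x
      rw [hes]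
      show _ ↔ F r ∈ ln (F p) (F q)
      rw [mem_ln_iff hc, hth p q hpq hcol]
      simp only [Set.mem_insert_iff, Set.mem_singleton_iff]
      constructor
      · rintro (rfl | rfl | rfl)
        · exact Or.inl rfl
        · exact Or.inr (Or.inl rfl)
        · exact Or.inr (Or.inr rfl)
      · rintro (h1 | h1 | h1)
        · exact Or.inl (hinj h1)
        · exact Or.inr (Or.inl (hinj h1))
        · exact Or.inr (Or.inr (hinj h1))

end PlaneLemma


/-! ### The dual affine plane -/

section DualCase

open Equiv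

/-- The transposition of a two-element subset. -/
def swapOf (s : DualAffinePoint) : Perm (Fin 4) :=
  if s.val = {0, 1} then swap 0 1 else if s.val = {0, 2} then swap 0 2 else
  if s.val = {0, 3} then swap 0 3 else if s.val = {1, 2} then swap 1 2 else
  if s.val = {1, 3} then swap 1 3 else swap 2 3

def s01 : DualAffinePoint := ⟨{0, 1}, by decide⟩
def s02 : DualAffinePoint := ⟨{0, 2}, by decide⟩
def s03 : DualAffinePoint := ⟨{0, 3}, by decide⟩
def s12 : DualAffinePoint := ⟨{1, 2}, by decide⟩
def s13 : DualAffinePoint := ⟨{1, 3}, by decide⟩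
def s23 : DualAffinePoint := ⟨{2, 3}, by decide⟩

theorem swapOf_inj : ∀ s t, swapOf s = swapOf t → s = t := by decide

theorem swapOf_col : ∀ s t, s ≠ t → ((∃ i : Fin 4, i ∉ s.val ∧ i ∉ t.val) ↔ swapOf s * swapOf t ≠ swapOf t * swapOf s) := by
  decide

theorem swapOf_th : ∀ s t, s ≠ t → (∃ i : Fin 4, i ∉ s.val ∧ i ∉ t.val) →
    swapOf t * swapOf s * (swapOf t)⁻¹ = swapOf (dualT s t) := by decide

set_option maxRecDepth 100000 in
theorem swapOf_conj : ∀ s, ∃ g : Perm (Fin 4), g * swap 0 1 * g⁻¹ = swapOf s := by decide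

theorem dual_d1 : ∀ i : Fin 4, ∃ p q : DualAffinePoint, p ≠ q ∧ ∀ s : DualAffinePoint,
    i ∉ s.val ↔ (s = p ∨ s = q ∨ s = dualT p q) := by decide

set_option synthInstance.maxSize 1000 in
set_option synthInstance.maxHeartbeats 400000 in
theorem dual_d2 : ∀ p q : DualAffinePoint, p ≠ q → (∃ i : Fin 4, i ∉ p.val ∧ i ∉ q.val) →
    ∃ j : Fin 4, ∀ s : DualAffinePoint, j ∉ s.val ↔ (s = p ∨ s = q ∨ s = dualT p q) := by decide

theorem all_points : ∀ s : DualAffinePoint, s = s12 ∨ s = s01 ∨ s = s02 ∨ s = s23 ∨ s = s13 ∨ s = s03 := by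
  decide

theorem dual_case (hD : IsThreeTranspositionSet D) (hc : ∀ g : G, ∀ d ∈ D, g * d * g⁻¹ ∈ D) {x y z : D}
    (hxz : x ≠ z) (hcxz : Commute (x : G) z) (hxy : ¬ Commute (x : G) y) (hyz : ¬ Commute (y : G) z) :
    Isomorphic (restrict (threeTranspositionLines D) (span (threeTranspositionLines D) (ln y x ∪ ln y z)))
      dualAffinePlaneTwo := by
  obtain ⟨φ, hφ, h0, h1, h2⟩ := Cfsg.Agent.Lib.ThreeT.S4.exists_injective_hom hD x.2 y.2 z.2
    (fun h => hxz (Subtype.ext h)) hcxz hxy hyz
  have hmem : ∀ s, φ (swapOf s) ∈ D := by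
    intro s
    obtain ⟨g, hg⟩ := swapOf_conj s
    rw [← hg, map_mul, map_mul, map_inv, h0]
    exact hc _ _ x.2
  let F : DualAffinePoint → D := fun s => ⟨φ (swapOf s), hmem s⟩
  have hinj : Function.Injective F := by
    intro s t h
    exact swapOf_inj s t (hφ (congrArg Subtype.val h))
  have hcomm : ∀ s t, Commute (F s : G) (F t) ↔ swapOf s * swapOf t = swapOf t * swapOf s := by
    intro s t
    constructor
    · intro h
      apply hφ
      rw [map_mul, map_mul]
      exact h
    · intro h
      show φ (swapOf s) * φ (swapOf t) = φ (swapOf t) * φ (swapOf s)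
      rw [← map_mul, h, map_mul]
  have hb : ∀ p q, p ≠ q → ((∃ ℓ ∈ dualAffinePlaneTwo, p ∈ ℓ ∧ q ∈ ℓ) ↔ ¬ Commute (F p : G) (F q)) := by
    intro p q hpq
    rw [dual_col_iff, swapOf_col p q hpq, hcomm]
  have hth : ∀ p q, p ≠ q → (∃ ℓ ∈ dualAffinePlaneTwo, p ∈ ℓ ∧ q ∈ ℓ) → thd hc (F p) (F q) = F (dualT p q) := by
    intro p q hpq hl
    apply Subtype.ext
    show φ (swapOf q) * φ (swapOf p) * (φ (swapOf q))⁻¹ = φ (swapOf (dualT p q))
    rw [← swapOf_th p q hpq ((dual_col_iff p q).1 hl), map_mul, map_mul, map_inv]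
  have hd1 : ∀ ℓ ∈ dualAffinePlaneTwo, ∃ p q, p ≠ q ∧ ℓ = {p, q, dualT p q} := by
    rintro _ ⟨i, rfl⟩
    obtain ⟨p, q, hpq, h⟩ := dual_d1 i
    refine ⟨p, q, hpq, ?_⟩
    ext s
    simpa using h s
  have hd2 : ∀ p q, p ≠ q → (∃ ℓ ∈ dualAffinePlaneTwo, p ∈ ℓ ∧ q ∈ ℓ) →
      ({p, q, dualT p q} : Set DualAffinePoint) ∈ dualAffinePlaneTwo := by
    intro p q hpq hl
    obtain ⟨j, hj⟩ := dual_d2 p q hpq ((dual_col_iff p q).1 hl)
    refine ⟨j, ?_⟩
    ext s
    simpa using (hj s).symm
  have eF12 : F s12 = y := by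
    apply Subtype.ext
    show φ (swapOf s12) = y
    rw [← h1]
    congr 1
  have eF01 : F s01 = x := by
    apply Subtype.ext
    show φ (swapOf s01) = x
    rw [← h0]
    congr 1
  have eF23 : F s23 = z := by
    apply Subtype.ext
    show φ (swapOf s23) = z
    rw [← h2]
    congr 1
  have hcol : ∀ p q : DualAffinePoint, p ≠ q → (∃ i : Fin 4, i ∉ p.val ∧ i ∉ q.val) →
      ∃ ℓ ∈ dualAffinePlaneTwo, p ∈ ℓ ∧ q ∈ ℓ := fun p q _ h => (dual_col_iff p q).2 h
  have c1 : s12 ≠ s01 := by decide
  have c1' : ∃ i : Fin 4, i ∉ s12.val ∧ i ∉ s01.val := by decide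
  have c2 : s12 ≠ s23 := by decide
  have c2' : ∃ i : Fin 4, i ∉ s12.val ∧ i ∉ s23.val := by decide
  have c3 : s02 ≠ s23 := by decide
  have c3' : ∃ i : Fin 4, i ∉ s02.val ∧ i ∉ s23.val := by decide
  have t1 : thd hc (F s12) (F s01) = F s02 := by
    rw [hth _ _ c1 (hcol _ _ c1 c1'), show dualT s12 s01 = s02 by decide]
  have t2 : thd hc (F s12) (F s23) = F s13 := by
    rw [hth _ _ c2 (hcol _ _ c2 c2'), show dualT s12 s23 = s13 by decide]
  have t3 : thd hc (F s02) (F s23) = F s03 := by
    rw [hth _ _ c3 (hcol _ _ c3 c3'), show dualT s02 s23 = s03 by decide]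
  apply isomorphic_of_model hD hc dualT F hinj hd1 hd2 hb hth
  · rintro w (hw | hw)
    · rw [mem_ln_iff hc, ← eF12, ← eF01, t1] at hw
      rcases hw with rfl | rfl | rfl <;> exact ⟨_, rfl⟩
    · rw [mem_ln_iff hc, ← eF12, ← eF23, t2] at hw
      rcases hw with rfl | rfl | rfl <;> exact ⟨_, rfl⟩
  · intro T' hT' hsub
    have m12 : F s12 ∈ T' := hT' (Or.inl (by rw [eF12]; exact left_mem _ _))
    have m01 : F s01 ∈ T' := hT' (Or.inl (by rw [eF01]; exact right_mem _ _))
    have m23 : F s23 ∈ T' := hT' (Or.inr (by rw [eF23]; exact right_mem _ _))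
    have m02 : F s02 ∈ T' := hT' (Or.inl (by rw [← t1, eF12, eF01]; exact thd_mem hc _ _))
    have m13 : F s13 ∈ T' := hT' (Or.inr (by rw [← t2, eF12, eF23]; exact thd_mem hc _ _))
    have hnc : ¬ Commute (F s02 : G) (F s23) := (hb _ _ c3).1 (hcol _ _ c3 c3')
    have m03 : F s03 ∈ T' := by
      rw [← t3]
      exact hsub _ (mem_lines hD hnc) _ m02 _ m23 (ne_of_not_commute hD hnc) (left_mem _ _) (right_mem _ _)
        (thd_mem hc _ _)
    rintro _ ⟨s, rfl⟩
    rcases all_points s with rfl | rfl | rfl | rfl | rfl | rfl <;> assumption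

end DualCase

/-! ### The affine plane -/

section AffCase

variable {a b c : G}

/-- The nine points. -/
def tbl (a b c : G) : ZMod 3 → ZMod 3 → G :=
  ![![a, c, a * c * a], ![b, a * (b * c * b) * a, a * (b * (a * c * a) * b) * a],
    ![a * b * a, b * (a * c * a) * b, b * c * b]]

theorem zmod3_cases : ∀ s : ZMod 3, s = 0 ∨ s = 1 ∨ s = 2 := by decide

variable (ha : a * a = 1) (hb : b * b = 1) (hc : c * c = 1) (hab : a * b * a = b * a * b)
  (hac : a * c * a = c * a * c) (hbc : b * c * b = c * b * c)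
  (hbg : b * (a * c * a) * b = (a * c * a) * b * (a * c * a))

include ha in
theorem tbl_A (s t : ZMod 3) : a * tbl a b c s t * a = tbl a b c (-s) (-t) := by
  have inv : ∀ y : G, a * (a * y * a) * a = y := fun y => by
    calc a * (a * y * a) * a = (a * a) * y * (a * a) := by group
      _ = y := by rw [ha]; group
  rcases zmod3_cases s with rfl | rfl | rfl <;> rcases zmod3_cases t with rfl | rfl | rfl
  · show a * a * a = a
    rw [ha, one_mul]
  · show a * c * a = a * c * a
    rfl
  · exact inv c
  · show a * b * a = a * b * a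
    rfl
  · show a * (a * (b * c * b) * a) * a = b * c * b
    exact inv _
  · show a * (a * (b * (a * c * a) * b) * a) * a = b * (a * c * a) * b
    exact inv _
  · exact inv b
  · show a * (b * (a * c * a) * b) * a = a * (b * (a * c * a) * b) * a
    rfl
  · show a * (b * c * b) * a = a * (b * c * b) * a
    rfl

include ha hb hab in
theorem tbl_B (s t : ZMod 3) : b * tbl a b c s t * b = tbl a b c (-1 - s) (-t) := by
  have inv : ∀ y : G, b * (b * y * b) * b = y := fun y => by
    calc b * (b * y * b) * b = (b * b) * y * (b * b) := by group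
      _ = y := by rw [hb]; group
  have key : b * (a * (b * c * b) * a) * b = a * (b * (a * c * a) * b) * a := by
    calc b * (a * (b * c * b) * a) * b = (b * a * b) * c * (b * a * b) := by group
      _ = (a * b * a) * c * (a * b * a) := by rw [hab]
      _ = a * (b * (a * c * a) * b) * a := by group
  have key2 : b * (a * (b * (a * c * a) * b) * a) * b = a * (b * c * b) * a := by
    rw [← key]
    exact inv _
  have key3 : b * (a * b * a) * b = a := by
    rw [hab]
    exact inv a
  rcases zmod3_cases s with rfl | rfl | rfl <;> rcases zmod3_cases t with rfl | rfl | rfl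
  · exact hab.symm
  · rfl
  · rfl
  · show b * b * b = b
    rw [hb, one_mul]
  · exact key
  · exact key2
  · exact key3
  · exact inv _
  · exact inv _

include ha hc hac hbg hbc in
theorem tbl_C (s t : ZMod 3) : c * tbl a b c s t * c = tbl a b c (-s) (-1 - t) := by
  have inv : ∀ y : G, c * (c * y * c) * c = y := fun y => by
    calc c * (c * y * c) * c = (c * c) * y * (c * c) := by group
      _ = y := by rw [hc]; group
  -- `c e c = i`
  have key1 : c * (a * b * a) * c = a * (b * (a * c * a) * b) * a := by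
    rw [hbg]
    calc c * (a * b * a) * c = (a * a) * c * (a * b * a) * c * (a * a) := by rw [ha]; group
      _ = a * ((a * c * a) * b * (a * c * a)) * a := by group
  have key1' : c * (a * (b * (a * c * a) * b) * a) * c = a * b * a := by
    rw [← key1]
    exact inv _
  -- `c j c = k`
  have key2 : c * (b * (a * c * a) * b) * c = a * (b * c * b) * a := by
    rw [hbg]
    have hg : c * (a * c * a) * c = a := by
      rw [hac]
      exact inv a
    calc c * ((a * c * a) * b * (a * c * a)) * c
        = (c * (a * c * a) * c) * (c * b * c) * (c * (a * c * a) * c) := by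
          have := hc
          calc c * ((a * c * a) * b * (a * c * a)) * c
              = c * (a * c * a) * 1 * b * 1 * (a * c * a) * c := by group
            _ = c * (a * c * a) * (c * c) * b * (c * c) * (a * c * a) * c := by rw [hc]
            _ = _ := by group
      _ = a * (c * b * c) * a := by rw [hg]
      _ = a * (b * c * b) * a := by rw [hbc]
  have key2' : c * (a * (b * c * b) * a) * c = b * (a * c * a) * b := by
    rw [← key2]
    exact inv _
  have key3 : c * (a * c * a) * c = a := by
    rw [hac]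
    exact inv a
  have key4 : c * (b * c * b) * c = b := by
    rw [hbc]
    exact inv b
  rcases zmod3_cases s with rfl | rfl | rfl <;> rcases zmod3_cases t with rfl | rfl | rfl
  · exact hac.symm
  · show c * c * c = c
    rw [hc, one_mul]
  · exact key3
  · exact hbc.symm
  · exact key2'
  · exact key1'
  · exact key1
  · exact key2
  · exact key4

include ha hb hc hab hac hbc hbg in
/-- The multiplication table of the nine points. -/
theorem tbl_table (x y s t : ZMod 3) :
    tbl a b c x y * tbl a b c s t * tbl a b c x y = tbl a b c (-x - s) (-y - t) := by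
  have hA := tbl_A (a := a) (b := b) (c := c) ha
  have hB := tbl_B (a := a) (b := b) (c := c) ha hb hab
  have hC := tbl_C (a := a) (b := b) (c := c) ha hc hac hbc hbg
  -- a step
  have step : ∀ (w : G) (p q : ZMod 3), w * w = 1 →
      (∀ s t, w * tbl a b c s t * w = tbl a b c (-p - s) (-q - t)) →
      ∀ (x y : ZMod 3), (∀ s t, tbl a b c x y * tbl a b c s t * tbl a b c x y = tbl a b c (-x - s) (-y - t)) →
      ∀ s t, tbl a b c (-p - x) (-q - y) * tbl a b c s t * tbl a b c (-p - x) (-q - y) =
        tbl a b c (-(-p - x) - s) (-(-q - y) - t) := by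
    intro w p q hw hW x y hxy s t
    have e1 := hW x y
    rw [← e1]
    have e2 := hW s t
    have e3 := hxy (-p - s) (-q - t)
    rw [← e2] at e3
    have e4 := hW (-x - (-p - s)) (-y - (-q - t))
    rw [← e3] at e4
    have e5 : -p - (-x - (-p - s)) = -(-p - x) - s + (-p - p - p) := by ring
    have e6 : -q - (-y - (-q - t)) = -(-q - y) - t + (-q - q - q) := by ring
    have h3 : ∀ r : ZMod 3, -r - r - r = 0 := by decide
    rw [e5, e6, h3, h3, add_zero, add_zero] at e4
    rw [← e4]
    group
  have hA' : ∀ s t, a * tbl a b c s t * a = tbl a b c (-0 - s) (-0 - t) := by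
    intro s t
    rw [hA]
    congr 1 <;> ring
  have hB' : ∀ s t, b * tbl a b c s t * b = tbl a b c (-1 - s) (-0 - t) := by
    intro s t
    rw [hB]
    congr 1 <;> ring
  have hC' : ∀ s t, c * tbl a b c s t * c = tbl a b c (-0 - s) (-1 - t) := by
    intro s t
    rw [hC]
    congr 1 <;> ring
  have S00 : ∀ s t, tbl a b c 0 0 * tbl a b c s t * tbl a b c 0 0 = tbl a b c (-0 - s) (-0 - t) := hA'
  have S10 : ∀ s t, tbl a b c 1 0 * tbl a b c s t * tbl a b c 1 0 = tbl a b c (-1 - s) (-0 - t) := hB'
  have S01 : ∀ s t, tbl a b c 0 1 * tbl a b c s t * tbl a b c 0 1 = tbl a b c (-0 - s) (-1 - t) := hC'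
  have S20 : ∀ s t, tbl a b c 2 0 * tbl a b c s t * tbl a b c 2 0 = tbl a b c (-2 - s) (-0 - t) :=
    step b 1 0 hb hB' 0 0 S00
  have S02 : ∀ s t, tbl a b c 0 2 * tbl a b c s t * tbl a b c 0 2 = tbl a b c (-0 - s) (-2 - t) :=
    step c 0 1 hc hC' 0 0 S00
  have S22 : ∀ s t, tbl a b c 2 2 * tbl a b c s t * tbl a b c 2 2 = tbl a b c (-2 - s) (-2 - t) :=
    step b 1 0 hb hB' 0 1 S01
  have S11 : ∀ s t, tbl a b c 1 1 * tbl a b c s t * tbl a b c 1 1 = tbl a b c (-1 - s) (-1 - t) :=
    step a 0 0 ha hA' 2 2 S22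
  have S12 : ∀ s t, tbl a b c 1 2 * tbl a b c s t * tbl a b c 1 2 = tbl a b c (-1 - s) (-2 - t) :=
    step c 0 1 hc hC' 2 0 S20
  have S21 : ∀ s t, tbl a b c 2 1 * tbl a b c s t * tbl a b c 2 1 = tbl a b c (-2 - s) (-1 - t) :=
    step b 1 0 hb hB' 0 2 S02
  rcases zmod3_cases x with rfl | rfl | rfl <;> rcases zmod3_cases y with rfl | rfl | rfl
  · exact S00 s t
  · exact S01 s t
  · exact S02 s t
  · exact S10 s t
  · exact S11 s t
  · exact S12 s t
  · exact S20 s t
  · exact S21 s t
  · exact S22 s t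

end AffCase


section AffModel

variable (hD : IsThreeTranspositionSet D) (hc : ∀ g : G, ∀ d ∈ D, g * d * g⁻¹ ∈ D)

open Cfsg.Agent.Lib.ThreeT.Fischer

/-- All nine points are in `D`. -/
theorem tbl_mem {a b c : G} (ha : a ∈ D) (hb : b ∈ D) (hc' : c ∈ D)
    (hconj : ∀ x ∈ D, ∀ y ∈ D, x * y * x ∈ D) (s t : ZMod 3) : tbl a b c s t ∈ D := by
  have hg := hconj a ha c hc'
  have hh := hconj b hb c hc'
  have hj := hconj b hb _ hg
  rcases zmod3_cases s with rfl | rfl | rfl <;> rcases zmod3_cases t with rfl | rfl | rfl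
  · exact ha
  · exact hc'
  · exact hg
  · exact hb
  · exact hconj a ha _ hh
  · exact hconj a ha _ hj
  · exact hconj a ha b hb
  · exact hj
  · exact hh

include hD hc in
theorem aff_case {a b c : D} (hab : ¬ Commute (a : G) b) (hac : ¬ Commute (a : G) c)
    (hbc : ¬ Commute (b : G) c) (hbg : ¬ Commute (b : G) ((a : G) * c * a))
    (hne : (c : G) ≠ (a : G) * b * a) :
    Isomorphic (restrict (threeTranspositionLines D) (span (threeTranspositionLines D) (ln a b ∪ ln a c)))
      affinePlaneThree := by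
  have haa := mul_self_of_mem hD a.2
  have hbb := mul_self_of_mem hD b.2
  have hcc := mul_self_of_mem hD c.2
  have hconj : ∀ x ∈ D, ∀ y ∈ D, x * y * x ∈ D := fun x hx y hy => conj_mem hc hD hx hy
  have hgD : (a : G) * c * a ∈ D := hconj _ a.2 _ c.2
  have brab := braid hD a.2 b.2 hab
  have brac := braid hD a.2 c.2 hac
  have brbc := braid hD b.2 c.2 hbc
  have brbg := braid hD b.2 hgD hbg
  have htab := tbl_table haa hbb hcc brab brac brbc brbg
  let F : (Fin 2 → ZMod 3) → D := fun v =>
    ⟨tbl (a : G) b c (v 0) (v 1), tbl_mem a.2 b.2 c.2 hconj _ _⟩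
  have hFv : ∀ v, ((F v : D) : G) = tbl (a : G) b c (v 0) (v 1) := fun v => rfl
  have htabF : ∀ u v, (F u : G) * F v * F u = F (affT u v) := by
    intro u v
    rw [hFv, hFv, hFv, htab]
    rfl
  have hfun : ∀ v : Fin 2 → ZMod 3, F v = F ![v 0, v 1] := by
    intro v
    apply Subtype.ext
    rfl
  -- periodicity
  have hper : ∀ x y z, F x = F y → F z = F (z + y - x) := by
    intro x y z hxy
    have h1 := htabF x (affT z x)
    have h2 := htabF x (affT z y)
    rw [← htabF z x] at h1
    rw [← htabF z y] at h2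
    have e1 : affT x (affT z x) = z := by
      funext t
      simp only [affT, Pi.neg_apply, Pi.sub_apply]
      ring
    have e2 : affT x (affT z y) = z + y - x := by
      funext t
      simp only [affT, Pi.neg_apply, Pi.sub_apply, Pi.add_apply]
      ring
    rw [e1] at h1
    rw [e2] at h2
    apply Subtype.ext
    rw [← h1, ← h2, hxy]
  have hp00 : ((F ![0, 0] : D) : G) = a := rfl
  have hp10 : ((F ![1, 0] : D) : G) = b := rfl
  have hp01 : ((F ![0, 1] : D) : G) = c := rfl
  have hp20 : ((F ![2, 0] : D) : G) = (a : G) * b * a := rfl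
  have hp02 : ((F ![0, 2] : D) : G) = (a : G) * c * a := rfl
  have hp11 : ((F ![1, 1] : D) : G) = (a : G) * (b * c * b) * a := rfl
  have hp12 : ((F ![1, 2] : D) : G) = (a : G) * (b * (a * c * a) * b) * a := rfl
  have hp21 : ((F ![2, 1] : D) : G) = (b : G) * (a * c * a) * b := rfl
  have hp22 : ((F ![2, 2] : D) : G) = (b : G) * c * b := rfl
  have nab : (a : G) ≠ b := by
    intro h
    apply hab
    rw [h]
  have nac : (a : G) ≠ c := by
    intro h
    apply hac
    rw [h]
  have nbc : (b : G) ≠ c := by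
    intro h
    apply hbc
    rw [h]
  have hinv : ∀ x y z : G, x * x = 1 → x * y * x = z → y = x * z * x := by
    intro x y z hx h
    rw [← h]
    calc y = (x * x) * y * (x * x) := by rw [hx]; group
      _ = _ := by group
  -- the four directions
  have d10 : F ![0, 0] ≠ F ![1, 0] := fun h => nab (congrArg Subtype.val h)
  have d01 : F ![0, 0] ≠ F ![0, 1] := fun h => nac (congrArg Subtype.val h)
  have d11 : F ![0, 0] ≠ F ![1, 1] := by
    intro h
    have h1 : (a : G) = (a : G) * (b * c * b) * a := congrArg Subtype.val h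
    have h2 : (b : G) * c * b = a := (hinv a _ _ haa h1.symm).trans (by
      rw [haa, one_mul])
    have h3 : (c : G) = b * a * b := by
      rw [← h2]
      calc (c : G) = (b * b) * c * (b * b) := by rw [hbb]; group
        _ = _ := by group
    exact hne (h3.trans brab.symm)
  have d12 : F ![0, 0] ≠ F ![1, 2] := by
    intro h
    have h1 : (a : G) = (a : G) * (b * (a * c * a) * b) * a := congrArg Subtype.val h
    have h2 : (b : G) * (a * c * a) * b = a := (hinv a _ _ haa h1.symm).trans (by
      rw [haa, one_mul])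
    rw [brbg] at h2
    have h3 : (b : G) = (a * c * a) * a * (a * c * a) := by
      have hgg : ((a : G) * c * a) * (a * c * a) = 1 := mul_self_of_mem hD hgD
      have h5 : ((a : G) * c * a) * (((a : G) * c * a) * b * ((a : G) * c * a)) * ((a : G) * c * a) = b := by
        calc ((a : G) * c * a) * (((a : G) * c * a) * b * ((a : G) * c * a)) * ((a : G) * c * a)
            = (((a : G) * c * a) * (a * c * a)) * b * (((a : G) * c * a) * (a * c * a)) := by group
          _ = b := by rw [hgg]; group
      rw [h2] at h5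
      exact h5.symm
    have h4 : ((a : G) * c * a) * a * (a * c * a) = c := by
      calc ((a : G) * c * a) * a * (a * c * a) = a * c * (a * a) * (a * c * a) := by group
        _ = a * c * (a * c * a) := by rw [haa, mul_one]
        _ = a * (c * a * c) * a := by group
        _ = a * (a * c * a) * a := by rw [brac]
        _ = (a * a) * c * (a * a) := by group
        _ = c := by rw [haa, one_mul, mul_one]
    rw [h4] at h3
    exact nbc h3
  have hallzero : ∀ u : Fin 2 → ZMod 3, u ≠ 0 → F ![0, 0] ≠ F u := by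
    intro u hu h0
    -- `F 0 = F u = F (2 u)`
    have h1 : ∀ z, F z = F (z + u) := by
      intro z
      have := hper ![0, 0] u z h0
      have e : z + u - ![0, 0] = z + u := by
        rw [show (![0, 0] : Fin 2 → ZMod 3) = 0 by decide, sub_zero]
      rwa [e] at this
    have h2 : F ![0, 0] = F (u + u) := by
      rw [h0]
      exact h1 u
    have key : ∀ (p q : ZMod 3), (p, q) ≠ (0, 0) →
        (![p, q] = (![1, 0] : Fin 2 → ZMod 3) ∨ ![p + p, q + q] = (![1, 0] : Fin 2 → ZMod 3)) ∨
        (![p, q] = (![0, 1] : Fin 2 → ZMod 3) ∨ ![p + p, q + q] = (![0, 1] : Fin 2 → ZMod 3)) ∨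
        (![p, q] = (![1, 1] : Fin 2 → ZMod 3) ∨ ![p + p, q + q] = (![1, 1] : Fin 2 → ZMod 3)) ∨
        (![p, q] = (![1, 2] : Fin 2 → ZMod 3) ∨ ![p + p, q + q] = (![1, 2] : Fin 2 → ZMod 3)) := by
      decide
    have hne0 : (u 0, u 1) ≠ (0, 0) := by
      intro h
      apply hu
      funext t
      have h3 := congrArg Prod.fst h
      have h4 := congrArg Prod.snd h
      fin_cases t
      · exact h3
      · exact h4
    have eu : u = ![u 0, u 1] := by
      funext t
      fin_cases t <;> rfl
    have euu : u + u = ![u 0 + u 0, u 1 + u 1] := by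
      funext t
      fin_cases t <;> rfl
    rw [eu] at h0
    rw [euu] at h2
    rcases key (u 0) (u 1) hne0 with (h | h) | (h | h) | (h | h) | (h | h)
    · rw [h] at h0; exact d10 h0
    · rw [h] at h2; exact d10 h2
    · rw [h] at h0; exact d01 h0
    · rw [h] at h2; exact d01 h2
    · rw [h] at h0; exact d11 h0
    · rw [h] at h2; exact d11 h2
    · rw [h] at h0; exact d12 h0
    · rw [h] at h2; exact d12 h2
  have hinj : Function.Injective F := by
    intro x y hxy
    by_contra hne'
    have hu : y - x ≠ 0 := sub_ne_zero.2 (Ne.symm hne')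
    apply hallzero (y - x) hu
    have := hper x y ![0, 0] hxy
    have e : ![0, 0] + y - x = y - x := by
      rw [show (![0, 0] : Fin 2 → ZMod 3) = 0 by decide, zero_add]
    rwa [e] at this
  have hnc : ∀ p q, p ≠ q → ¬ Commute (F p : G) (F q) := by
    intro p q hpq hcomm
    have h1 := htabF p q
    have h2 : (F p : G) * F q * F p = F q := by
      rw [hcomm.eq, mul_assoc, mul_self_of_mem hD (F p).2, mul_one]
    rw [h2] at h1
    have h3 := hinj (Subtype.ext h1)
    apply hpq
    funext t
    have h4 := congrFun h3 t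
    simp only [affT, Pi.neg_apply, Pi.sub_apply] at h4
    have h5 : ∀ r s : ZMod 3, s = -r - s → r = s := by decide
    exact h5 _ _ h4
  have hcolAll : ∀ p q : Fin 2 → ZMod 3, p ≠ q → ∃ ℓ ∈ affinePlaneThree, p ∈ ℓ ∧ q ∈ ℓ :=
    fun p q hpq => aff_line p q hpq
  have hth : ∀ p q, p ≠ q → (∃ ℓ ∈ affinePlaneThree, p ∈ ℓ ∧ q ∈ ℓ) → thd hc (F p) (F q) = F (affT p q) := by
    intro p q hpq _
    apply Subtype.ext
    rw [thd_val hD hc]
    have h1 := htabF q p
    have e : affT q p = affT p q := by
      funext t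
      simp only [affT, Pi.neg_apply, Pi.sub_apply]
      ring
    rw [← e]
    exact h1
  have hd1 : ∀ ℓ ∈ affinePlaneThree, ∃ p q, p ≠ q ∧ ℓ = {p, q, affT p q} := by
    rintro _ ⟨v, w, hw, rfl⟩
    refine ⟨v, v + w, ?_, ?_⟩
    · intro h
      apply hw
      have := h.symm
      simpa using this
    · ext x
      simp only [Set.mem_ofPred_eq, Set.mem_insert_iff, Set.mem_singleton_iff]
      have e2 : affT v (v + w) = v + (2 : ZMod 3) • w := by
        funext t
        simp only [affT, Pi.neg_apply, Pi.sub_apply, Pi.add_apply, Pi.smul_apply, smul_eq_mul]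
        linear_combination (-(v t) - (w t)) * three_eq_zero
      constructor
      · rintro ⟨k, rfl⟩
        rcases zmod3_cases k with rfl | rfl | rfl
        · left; simp
        · right; left; simp
        · right; right; rw [e2]
      · rintro (rfl | rfl | rfl)
        · exact ⟨0, by simp⟩
        · exact ⟨1, by simp⟩
        · exact ⟨2, e2⟩
  have hd2 : ∀ p q, p ≠ q → (∃ ℓ ∈ affinePlaneThree, p ∈ ℓ ∧ q ∈ ℓ) →
      ({p, q, affT p q} : Set (Fin 2 → ZMod 3)) ∈ affinePlaneThree := by
    intro p q hpq _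
    refine ⟨p, q - p, sub_ne_zero.2 hpq.symm, ?_⟩
    ext x
    simp only [Set.mem_ofPred_eq, Set.mem_insert_iff, Set.mem_singleton_iff]
    have e2 : affT p q = p + (2 : ZMod 3) • (q - p) := by
      funext t
      simp only [affT, Pi.neg_apply, Pi.sub_apply, Pi.add_apply, Pi.smul_apply, smul_eq_mul]
      linear_combination (-(q t)) * three_eq_zero
    constructor
    · rintro (rfl | rfl | rfl)
      · exact ⟨0, by simp⟩
      · exact ⟨1, by simp⟩
      · exact ⟨2, e2⟩
    · rintro ⟨k, rfl⟩
      rcases zmod3_cases k with rfl | rfl | rfl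
      · left; simp
      · right; left; simp
      · right; right; rw [e2]
  have hb' : ∀ p q, p ≠ q → ((∃ ℓ ∈ affinePlaneThree, p ∈ ℓ ∧ q ∈ ℓ) ↔ ¬ Commute (F p : G) (F q)) :=
    fun p q hpq => ⟨fun _ => hnc p q hpq, fun _ => hcolAll p q hpq⟩
  have e00 : F ![0, 0] = a := Subtype.ext rfl
  have e10 : F ![1, 0] = b := Subtype.ext rfl
  have e01 : F ![0, 1] = c := Subtype.ext rfl
  have nn1 : (![0, 0] : Fin 2 → ZMod 3) ≠ ![1, 0] := by decide
  have nn2 : (![0, 0] : Fin 2 → ZMod 3) ≠ ![0, 1] := by decide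
  have t1 : thd hc a b = F ![2, 0] := by
    rw [← e00, ← e10, hth _ _ nn1 (hcolAll _ _ nn1)]
    congr 1
    decide
  have t2 : thd hc a c = F ![0, 2] := by
    rw [← e00, ← e01, hth _ _ nn2 (hcolAll _ _ nn2)]
    congr 1
    decide
  apply isomorphic_of_model hD hc affT F hinj hd1 hd2 hb' hth
  · rintro w (hw | hw)
    · rw [mem_ln_iff hc, t1] at hw
      rcases hw with rfl | rfl | rfl
      · exact ⟨_, e00⟩
      · exact ⟨_, e10⟩
      · exact ⟨_, rfl⟩
    · rw [mem_ln_iff hc, t2] at hw
      rcases hw with rfl | rfl | rfl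
      · exact ⟨_, e00⟩
      · exact ⟨_, e01⟩
      · exact ⟨_, rfl⟩
  · intro T' hT' hsub
    have m00 : F ![0, 0] ∈ T' := hT' (Or.inl (by rw [e00]; exact left_mem _ _))
    have m10 : F ![1, 0] ∈ T' := hT' (Or.inl (by rw [e10]; exact right_mem _ _))
    have m01 : F ![0, 1] ∈ T' := hT' (Or.inr (by rw [e01]; exact right_mem _ _))
    have m20 : F ![2, 0] ∈ T' := hT' (Or.inl (by rw [← t1]; exact thd_mem hc _ _))
    have m02 : F ![0, 2] ∈ T' := hT' (Or.inr (by rw [← t2]; exact thd_mem hc _ _))
    have hthird : ∀ p q, p ≠ q → F p ∈ T' → F q ∈ T' → F (affT p q) ∈ T' := by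
      intro p q hpq hp hq
      rw [← hth p q hpq (hcolAll p q hpq)]
      have hn := hnc p q hpq
      exact hsub _ (mem_lines hD hn) _ hp _ hq (ne_of_not_commute hD hn) (left_mem _ _) (right_mem _ _)
        (thd_mem hc _ _)
    have m22 : F ![2, 2] ∈ T' := by
      have := hthird ![1, 0] ![0, 1] (by decide) m10 m01
      rwa [show affT ![1, 0] ![0, 1] = ![2, 2] by decide] at this
    have m12 : F ![1, 2] ∈ T' := by
      have := hthird ![2, 0] ![0, 1] (by decide) m20 m01
      rwa [show affT ![2, 0] ![0, 1] = ![1, 2] by decide] at this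
    have m21 : F ![2, 1] ∈ T' := by
      have := hthird ![0, 2] ![1, 0] (by decide) m02 m10
      rwa [show affT ![0, 2] ![1, 0] = ![2, 1] by decide] at this
    have m11 : F ![1, 1] ∈ T' := by
      have := hthird ![0, 0] ![2, 2] (by decide) m00 m22
      rwa [show affT ![0, 0] ![2, 2] = ![1, 1] by decide] at this
    rintro _ ⟨v, rfl⟩
    rw [hfun v]
    rcases zmod3_cases (v 0) with h0 | h0 | h0 <;> rcases zmod3_cases (v 1) with h1 | h1 | h1 <;>
      rw [h0, h1] <;> assumption

end AffModel

/-! ### The main theorem -/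

theorem main [Finite G] (hG : IsThreeTranspositionGroup D) : IsFischerSpace (threeTranspositionLines D) := by
  have hD := hG.1
  have hc := hG.2.1
  refine ⟨partial_linear hD hc, ?_, ?_⟩
  · rintro _ ⟨x, y, h, rfl⟩
    exact ncard_line hD hc h
  · rintro _ ⟨x, y, hxy, rfl⟩ _ ⟨x', y', hxy', rfl⟩ hne ⟨a, ha, ha'⟩
    change ln x y ≠ ln x' y' at hne
    change a ∈ ln x y at ha
    change a ∈ ln x' y' at ha'
    change Isomorphic (restrict _ (span _ (ln x y ∪ ln x' y'))) _ ∨ Isomorphic (restrict _ (span _ (ln x y ∪ ln x' y'))) _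
    -- normal form of the lines
    have hnorm : ∀ {u v : D}, ¬ Commute (u : G) v → a ∈ ln u v →
        ∃ b : D, ¬ Commute (a : G) b ∧ ln u v = ln a b := by
      intro u v huv hau
      by_cases h : a = u
      · subst h
        exact ⟨v, huv, rfl⟩
      · exact ⟨u, (ln_eq_of_mem hD hc huv hau (left_mem u v) h).1, (ln_eq_of_mem hD hc huv hau (left_mem u v) h).2⟩
    obtain ⟨b, hab, hl⟩ := hnorm hxy ha
    obtain ⟨c, hac, hm⟩ := hnorm hxy' ha'
    rw [hl, hm]
    rw [hl, hm] at hne
    have hnot : ∀ {b c : D}, ¬ Commute (a : G) b → ¬ Commute (a : G) c → ln a b ≠ ln a c → b ∉ ln a c := by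
      intro b c hab hac hne hb
      apply hne
      have hba : a ≠ b := ne_of_not_commute hD hab
      exact ((ln_eq_of_mem hD hc hac (left_mem a c) hb hba).2).symm
    have hnot2 := hnot hab hac hne
    have hbc : b ≠ c := by
      rintro rfl
      exact hne rfl
    have hba : ¬ Commute (b : G) a := fun h => hab h.symm
    have hag := not_commute_thd hD hc hac
    have hae := not_commute_thd hD hc hab
    have lg : ln a (thd hc a c) = ln a c := ln_thd hD hc hac
    have le : ln a (thd hc a b) = ln a b := ln_thd hD hc hab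
    by_cases h1 : Commute (b : G) c
    · left
      have := dual_case hD hc hbc h1 hba hac
      exact this
    by_cases h2 : Commute (b : G) (thd hc a c)
    · left
      have hbg : b ≠ thd hc a c := by
        rintro he
        apply hnot2
        rw [he]
        exact thd_mem hc _ _
      have := dual_case hD hc hbg h2 hba hag
      rwa [lg] at this
    by_cases h3 : Commute (thd hc a b : G) c
    · left
      have heb : thd hc a b ≠ c := by
        rintro he
        apply hnot hac hab hne.symm
        rw [← he]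
        exact thd_mem hc _ _
      have := dual_case hD hc heb h3 (fun h => hae h.symm) hac
      rwa [le] at this
    · right
      have hvalg : ((thd hc a c : D) : G) = (a : G) * c * a := by
        rw [thd_val hD hc]
        exact (braid hD c.2 a.2 (fun h => hac h.symm)).symm ▸ rfl
      have hvale : ((thd hc a b : D) : G) = (a : G) * b * a := by
        rw [thd_val hD hc]
        exact (braid hD b.2 a.2 hba).symm ▸ rfl
      apply aff_case hD hc hab hac h1
      · rwa [hvalg] at h2
      · intro he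
        apply hnot hac hab hne.symm
        have : c = thd hc a b := Subtype.ext (he.trans hvale.symm)
        rw [this]
        exact thd_mem hc _ _

end Cfsg.Agent.Lib.ThreeT.Fischer2
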