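import Mathlib
import Cfsg.Prelude.Def_MonsterType
import Cfsg.Agent.Lib.Core.Basic

/-!
Lemmas on large extraspecial subgroups: a `Q`-invariant odd order subgroup centralising `Z(Q)` is trivial.
-/

set_option autoImplicit false

namespace Cfsg.Agent.Lib.ThreeT.LargeQ

open Cfsg

variable {G : Type*} [Group G] [Finite G]

/-- A subgroup of odd order and a 2-group meet trivially. -/
theorem eq_one_of_odd_of_isPGroup {K P : Subgroup G} (hK : Odd (Nat.card K)) (hP : IsPGroup 2 P) {x : G}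
    (hxK : x ∈ K) (hxP : x ∈ P) : x = 1 := by
  obtain ⟨k, hk⟩ := hP ⟨x, hxP⟩
  have hk' : x ^ (2 ^ k) = 1 := by
    have := congrArg (fun z : P => (z : G)) hk
    simpa using this
  have h2 : x ^ (Nat.card K) = 1 := by
    have h := pow_card_eq_one' (G := K) (x := ⟨x, hxK⟩)
    have h3 : (((⟨x, hxK⟩ : K) ^ Nat.card K : K) : G) = ((1 : K) : G) := congrArg Subtype.val h
    rwa [Subgroup.coe_pow] at h3
  have h1 := orderOf_dvd_of_pow_eq_one hk'
  have h3 := orderOf_dvd_of_pow_eq_one h2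
  have hc : Nat.Coprime (2 ^ k) (Nat.card K) := Nat.Coprime.pow_left _ (Nat.coprime_two_left.mpr hK)
  have h4 : orderOf x ∣ Nat.gcd (2 ^ k) (Nat.card K) := Nat.dvd_gcd h1 h3
  rw [hc] at h4
  exact orderOf_eq_one_iff.mp (Nat.dvd_one.mp h4)

omit [Finite G] in
/-- The commutator of an element `k` of `K` with `q` normalizing `K` lies in `K`. -/
theorem comm_mem_left {K : Subgroup G} {k q : G} (hk : k ∈ K) (hq : q ∈ Subgroup.normalizer (K : Set G)) :
    k * (q * k⁻¹ * q⁻¹) ∈ K :=
  K.mul_mem hk ((Subgroup.mem_normalizer_iff.mp hq _).mp (K.inv_mem hk))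

variable (Q : Subgroup G)

/-- The core argument: an element of a `Q`-invariant subgroup of odd order centralizing `Z(Q)` is trivial. -/
theorem eq_one_of_centralizes (hL1 : IsExtraspecial 2 ↥Q)
    (hL2 : Subgroup.centralizer (Q : Set G) = ((Subgroup.center ↥Q).map Q.subtype))
    (hL3 : Subgroup.centralizer (((Subgroup.center ↥Q).map Q.subtype) : Set G) ≤ Subgroup.normalizer (Q : Set G))
    {K : Subgroup G} (hK : Odd (Nat.card K)) (hQK : Q ≤ Subgroup.normalizer (K : Set G)) {k : G} (hk : k ∈ K)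
    (hcent : k ∈ Subgroup.centralizer (((Subgroup.center ↥Q).map Q.subtype) : Set G)) : k = 1 := by
  have hP : IsPGroup 2 Q := hL1.1.1
  -- k centralizes Q
  have hkN : k ∈ Subgroup.normalizer (Q : Set G) := hL3 hcent
  have hkC : k ∈ Subgroup.centralizer (Q : Set G) := by
    rw [Subgroup.mem_centralizer_iff]
    intro q hq
    have hq' : q ∈ Q := hq
    have h1 : k * (q * k⁻¹ * q⁻¹) ∈ K := comm_mem_left hk (hQK hq')
    have h2 : (k * q * k⁻¹) * q⁻¹ ∈ Q :=
      Q.mul_mem ((Subgroup.mem_normalizer_iff.mp hkN q).mp hq') (Q.inv_mem hq')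
    have h3 : k * (q * k⁻¹ * q⁻¹) = (k * q * k⁻¹) * q⁻¹ := by group
    rw [← h3] at h2
    have h4 := eq_one_of_odd_of_isPGroup hK hP h1 h2
    have h5 : (k * q * k⁻¹) * q⁻¹ = 1 := by rw [← h3]; exact h4
    have h6 : k * q * k⁻¹ = q := mul_inv_eq_one.mp h5
    have h7 : k * q = q * k := by
      calc k * q = k * q * k⁻¹ * k := by group
        _ = q * k := by rw [h6]
    exact h7.symm
  rw [hL2] at hkC
  obtain ⟨z, _, rfl⟩ := hkC
  have : (z : G) = 1 := eq_one_of_odd_of_isPGroup hK hP hk z.2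
  simpa using this

/-- The core argument: a `Q`-invariant subgroup of odd order centralizing `Z(Q)` is trivial. -/
theorem eq_bot_of_centralizes (hL1 : IsExtraspecial 2 ↥Q)
    (hL2 : Subgroup.centralizer (Q : Set G) = ((Subgroup.center ↥Q).map Q.subtype))
    (hL3 : Subgroup.centralizer (((Subgroup.center ↥Q).map Q.subtype) : Set G) ≤ Subgroup.normalizer (Q : Set G))
    {K : Subgroup G} (hK : Odd (Nat.card K)) (hQK : Q ≤ Subgroup.normalizer (K : Set G))
    (hcent : K ≤ Subgroup.centralizer (((Subgroup.center ↥Q).map Q.subtype) : Set G)) : K = ⊥ := by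
  rw [eq_bot_iff]
  intro k hk
  rw [Subgroup.mem_bot]
  exact eq_one_of_centralizes Q hL1 hL2 hL3 hK hQK hk (hcent hk)

end Cfsg.Agent.Lib.ThreeT.LargeQ
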