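import Mathlib
import Cfsg.Agent.Lib.ThreeT.S5
import Cfsg.Agent.Lib.ThreeT.WRel
import Cfsg.Agent.Lib.Core.Basic

/-!
# 3-transposition groups with local structure `S₃`

Each member `d` of `D` has commuting partners forming a line.  Then `⟨D⟩` is `S₅` or `S₃ × S₃`.
-/

set_option autoImplicit false
set_option linter.unusedSectionVars false

namespace Cfsg.Agent.Lib.ThreeT.LocalS3

open Cfsg Cfsg.Agent.Lib.ThreeT.Basic Equiv

variable {G : Type*} [Group G] {D : Set G}

/-- The commuting partners of `d` in `D`. -/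
def Aa (D : Set G) (d : G) : Set G := {y | y ∈ D ∧ y ≠ d ∧ Commute d y}

lemma Aa_symm {d y : G} (hd : d ∈ D) (h : y ∈ Aa D d) : d ∈ Aa D y :=
  ⟨hd, h.2.1.symm, h.2.2.symm⟩

/-- The line property of the set of partners. -/
structure Line (D : Set G) (d : G) : Prop where
  two : ∃ a ∈ Aa D d, ∃ b ∈ Aa D d, a ≠ b
  noncomm : ∀ p ∈ Aa D d, ∀ q ∈ Aa D d, p ≠ q → ¬ Commute p q
  third : ∀ p ∈ Aa D d, ∀ q ∈ Aa D d, p ≠ q → ∀ r ∈ Aa D d, r = p ∨ r = q ∨ r = p * q * p

section basics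

variable (hD : IsThreeTranspositionSet D) (hconj : ∀ g : G, ∀ d ∈ D, g * d * g⁻¹ ∈ D)
include hD

lemma inv_eq {p : G} (hp : p ∈ D) : p⁻¹ = p := inv_of_mem hD hp

include hconj in
lemma third_mem {d p q : G} (hp : p ∈ Aa D d) (hq : q ∈ Aa D d) : p * q * p ∈ Aa D d := by
  have hpi := inv_eq hD hp.1
  have hpp := mul_self_of_mem hD hp.1
  refine ⟨?_, ?_, ?_⟩
  · have := hconj p q hq.1
    rwa [hpi] at this
  · intro h
    apply hq.2.1
    have h1 : p * d = d * p := hp.2.2.symm.eq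
    calc q = p * (p * q * p) * p := by
          rw [show p * (p * q * p) * p = (p * p) * q * (p * p) by group, hpp]; group
      _ = p * d * p := by rw [h]
      _ = d * p * p := by rw [h1]
      _ = d := by rw [mul_assoc, hpp, mul_one]
  · have h1 : Commute d p := hp.2.2
    have h2 : Commute d q := hq.2.2
    exact (h1.mul_right h2).mul_right h1

lemma third_ne {p q : G} (hp : p ∈ D) (hq : q ∈ D) (h : ¬ Commute p q) :
    p * q * p ≠ p ∧ p * q * p ≠ q ∧ ¬ Commute p (p * q * p) ∧ ¬ Commute q (p * q * p) := by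
  have hpp := mul_self_of_mem hD hp
  have hqq := mul_self_of_mem hD hq
  have hb := braid hD hp hq h
  have e1 : p * (p * q * p) = q * p := by
    rw [show p * (p * q * p) = (p * p) * q * p by group, hpp, one_mul]
  have e2 : p * q * p * p = p * q := by rw [mul_assoc, hpp, mul_one]
  refine ⟨?_, ?_, ?_, ?_⟩
  · intro h1
    apply h
    have h2 : q = p := by
      have h3 : q * p = 1 := by rw [← e1, h1, hpp]
      have h4 : q = p⁻¹ := eq_inv_of_mul_eq_one_left h3
      rw [h4, inv_eq hD hp]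
    rw [h2]
  · intro h1
    apply h
    have h2 : p * q = q * p := by
      rw [← e2, h1]
    exact h2
  · intro h1
    apply h
    have h2 : p * (p * q * p) = (p * q * p) * p := h1
    rw [e1, e2] at h2
    exact h2.symm
  · intro h1
    apply h
    have h2 : q * (p * q * p) = (p * q * p) * q := h1
    rw [hb] at h2
    have e3 : q * (q * p * q) = p * q := by
      rw [show q * (q * p * q) = (q * q) * p * q by group, hqq, one_mul]
    have e4 : q * p * q * q = q * p := by rw [mul_assoc, hqq, mul_one]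
    rw [e3, e4] at h2
    exact h2

end basics

/-- Involutions in `S₃`. -/
theorem s3_noncomm : ∀ σ τ : Perm (Fin 3), σ ≠ 1 → τ ≠ 1 → σ * σ = 1 → τ * τ = 1 → σ ≠ τ → σ * τ ≠ τ * σ := by
  decide

theorem s3_third : ∀ σ τ ρ : Perm (Fin 3), (σ ≠ 1 ∧ τ ≠ 1 ∧ ρ ≠ 1 ∧ σ * σ = 1 ∧ τ * τ = 1 ∧ ρ * ρ = 1 ∧ σ ≠ τ) →
    ρ = σ ∨ ρ = τ ∨ ρ = σ * τ * σ := by
  decide

theorem s3_center : ∀ σ : Perm (Fin 3), (∀ τ : Perm (Fin 3), σ * τ = τ * σ) → σ = 1 := by
  decide

/-- The hypothesis `⟨A⟩ ≅ S₃` gives the line property. -/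
theorem line_of_iso (hD : IsThreeTranspositionSet D) {d : G}
    (h : Nonempty (↥(Subgroup.closure (Aa D d)) ≃* Perm (Fin 3))) : Line D d := by
  obtain ⟨e⟩ := h
  let lift : ∀ x ∈ Aa D d, ↥(Subgroup.closure (Aa D d)) := fun x hx => ⟨x, Subgroup.subset_closure hx⟩
  have hinv : ∀ x (hx : x ∈ Aa D d), e (lift x hx) * e (lift x hx) = 1 := by
    intro x hx
    rw [← map_mul, ← map_one e]
    congr 1
    apply Subtype.ext
    exact mul_self_of_mem hD hx.1
  have hne1 : ∀ x (hx : x ∈ Aa D d), e (lift x hx) ≠ 1 := by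
    intro x hx h1
    have h2 : lift x hx = 1 := e.injective (by rw [h1, map_one])
    have h3 : x = 1 := congrArg Subtype.val h2
    have h4 := hD.1 x hx.1
    rw [h3, orderOf_one] at h4
    omega
  refine ⟨?_, ?_, ?_⟩
  · by_contra hcon
    push Not at hcon
    have hc : ∀ x ∈ Aa D d, ∀ y ∈ Aa D d, x * y = y * x := by
      intro x hx y hy
      rw [hcon x hx y hy]
    have h2 : (e.symm (swap 0 1)) * (e.symm (swap 1 2)) = (e.symm (swap 1 2)) * (e.symm (swap 0 1)) :=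
      (Subgroup.isMulCommutative_closure hc).is_comm.comm _ _
    have h3 := congrArg e h2
    simp only [map_mul, MulEquiv.apply_symm_apply] at h3
    revert h3
    decide
  · intro p hp q hq hne hc
    apply s3_noncomm _ _ (hne1 p hp) (hne1 q hq) (hinv p hp) (hinv q hq)
    · intro h1
      apply hne
      have h2 := e.injective h1
      exact congrArg Subtype.val h2
    · rw [← map_mul, ← map_mul]
      congr 1
      apply Subtype.ext
      exact hc.eq
  · intro p hp q hq hne r hr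
    have key := s3_third _ _ _ ⟨hne1 p hp, hne1 q hq, hne1 r hr, hinv p hp, hinv q hq, hinv r hr, (by
      intro h1
      apply hne
      have h2 := e.injective h1
      exact congrArg Subtype.val h2)⟩
    rcases key with h1 | h1 | h1
    · left
      exact congrArg Subtype.val (e.injective h1)
    · right; left
      exact congrArg Subtype.val (e.injective h1)
    · right; right
      rw [← map_mul, ← map_mul] at h1
      exact congrArg Subtype.val (e.injective h1)

section string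

variable (hD : IsThreeTranspositionSet D) (hconj : ∀ g : G, ∀ d ∈ D, g * d * g⁻¹ ∈ D)

include hD in
/-- For `t`, `t'` distinct commuting and `x` non-commuting with both, `t t'` moves `x` to a partner of `x`. -/
lemma conj_string {t t' x : G} (ht : t ∈ D) (ht' : t' ∈ D) (hx : x ∈ D) (hne : t ≠ t')
    (hcomm : Commute t t') (h1 : ¬ Commute t x) (h2 : ¬ Commute x t') :
    Commute x ((t * t') * x * (t * t')⁻¹) ∧ (t * t') * x * (t * t')⁻¹ ≠ x := by
  obtain ⟨ψ, hinj, h0, h1', h2'⟩ := S4.exists_injective_hom hD ht hx ht' hne hcomm h1 h2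
  have e : (t * t') * x * (t * t')⁻¹ = ψ (swap 0 3) := by
    have h3 : (swap (0 : Fin 4) 1 * swap 2 3) * swap 1 2 * (swap 0 1 * swap 2 3)⁻¹ = swap 0 3 := by decide
    rw [← h3, map_mul, map_mul, map_inv, map_mul, h0, h1', h2']
  rw [e, ← h1']
  constructor
  · have h3 : Commute (swap (1 : Fin 4) 2) (swap 0 3) :=
      (by decide : swap (1 : Fin 4) 2 * swap 0 3 = swap 0 3 * swap 1 2)
    exact h3.map ψ
  · intro h3
    have h4 := hinj h3
    revert h4
    decide

end string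

/-- Checks in `S₅`. -/
theorem swap_conj_check : ∀ i j : Fin 5, i ≠ j → ∃ σ : Perm (Fin 5), σ * swap 0 1 * σ⁻¹ = swap i j := by
  decide +kernel

theorem partners_check : ∀ i j : Fin 5, i ≠ j → ∃ k l m : Fin 5, k ≠ l ∧ k ≠ m ∧ l ≠ m ∧
    swap i j * swap k l = swap k l * swap i j ∧ swap i j * swap k m = swap k m * swap i j ∧
    swap k l * swap k m * swap k l = swap l m ∧ swap k l ≠ swap i j ∧ swap k m ≠ swap i j ∧ swap k l ≠ swap k m := by
  decide +kernel

/-- The case where the lines `A(a)`, `A(b)` differ: the members of `D` are the images of transpositions. -/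
theorem s5_cover (hD : IsThreeTranspositionSet D) (hconj : ∀ g : G, ∀ d ∈ D, g * d * g⁻¹ ∈ D)
    (hL : ∀ d ∈ D, Line D d) {φ : Perm (Fin 5) →* G} (hinj : Function.Injective φ)
    (h0 : φ (swap 0 1) ∈ D) : ∀ x ∈ D, ∃ i j : Fin 5, i ≠ j ∧ x = φ (swap i j) := by
  have hT : ∀ i j : Fin 5, i ≠ j → φ (swap i j) ∈ D := by
    intro i j hij
    obtain ⟨σ, hσ⟩ := swap_conj_check i j hij
    rw [← hσ, map_mul, map_mul, map_inv]
    exact hconj _ _ h0
  have hpart : ∀ i j : Fin 5, i ≠ j → ∀ x ∈ D, x ≠ φ (swap i j) → Commute (φ (swap i j)) x →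
      ∃ k l : Fin 5, k ≠ l ∧ x = φ (swap k l) := by
    intro i j hij x hx hxne hxc
    obtain ⟨k, l, m, hkl, hkm, hlm, h1, h2, h3, h4, h5, h6⟩ := partners_check i j hij
    have hti := hT i j hij
    have ht1 : φ (swap k l) ∈ Aa D (φ (swap i j)) := by
      refine ⟨hT k l hkl, fun h => h4 (hinj h), ?_⟩
      show φ (swap i j) * φ (swap k l) = φ (swap k l) * φ (swap i j)
      rw [← map_mul, ← map_mul, h1]
    have ht2 : φ (swap k m) ∈ Aa D (φ (swap i j)) := by
      refine ⟨hT k m hkm, fun h => h5 (hinj h), ?_⟩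
      show φ (swap i j) * φ (swap k m) = φ (swap k m) * φ (swap i j)
      rw [← map_mul, ← map_mul, h2]
    have hne12 : φ (swap k l) ≠ φ (swap k m) := fun h => h6 (hinj h)
    rcases (hL _ hti).third _ ht1 _ ht2 hne12 x ⟨hx, hxne, hxc⟩ with h7 | h7 | h7
    · exact ⟨k, l, hkl, h7⟩
    · exact ⟨k, m, hkm, h7⟩
    · refine ⟨l, m, hlm, ?_⟩
      rw [h7, ← h3, map_mul, map_mul]
  intro x hx
  by_contra hcon
  push Not at hcon
  have hnot : ∀ i j : Fin 5, i ≠ j → ¬ Commute (φ (swap i j)) x := by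
    intro i j hij hc
    obtain ⟨k, l, hkl, h⟩ := hpart i j hij x hx (hcon i j hij) hc
    exact hcon k l hkl h
  have hstep : ∀ i j k l : Fin 5, i ≠ j → k ≠ l → swap i j ≠ swap k l →
      swap i j * swap k l = swap k l * swap i j →
      Commute x (φ (swap i j * swap k l) * x * (φ (swap i j * swap k l))⁻¹) ∧
        φ (swap i j * swap k l) * x * (φ (swap i j * swap k l))⁻¹ ≠ x := by
    intro i j k l hij hkl hne hc
    rw [map_mul]
    exact conj_string hD (hT i j hij) (hT k l hkl) hx (fun h => hne (hinj h)) ((show Commute _ _ from hc).map φ)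
      (hnot i j hij)
      (fun h => hnot k l hkl h.symm)
  set σ₁ : Perm (Fin 5) := swap 0 1 * swap 2 3 with hσ₁
  set σ₂ : Perm (Fin 5) := swap 0 2 * swap 1 3 with hσ₂
  set σ₃ : Perm (Fin 5) := swap 0 3 * swap 1 2 with hσ₃
  obtain ⟨c1, n1⟩ := hstep 0 1 2 3 (by decide) (by decide) (by decide) (by decide)
  obtain ⟨c2, n2⟩ := hstep 0 2 1 3 (by decide) (by decide) (by decide) (by decide)
  obtain ⟨c3, n3⟩ := hstep 0 3 1 2 (by decide) (by decide) (by decide) (by decide)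
  rw [← hσ₁] at c1 n1
  rw [← hσ₂] at c2 n2
  rw [← hσ₃] at c3 n3
  have e12 : σ₂⁻¹ * σ₁ = σ₃ := by decide +kernel
  have e13 : σ₁ * σ₃ = σ₂ := by decide +kernel
  set y₁ := φ σ₁ * x * (φ σ₁)⁻¹ with hy₁
  set y₂ := φ σ₂ * x * (φ σ₂)⁻¹ with hy₂
  set y₃ := φ σ₃ * x * (φ σ₃)⁻¹ with hy₃
  have hne12 : y₁ ≠ y₂ := by
    intro h
    apply n3
    have h1 : φ σ₃ = (φ σ₂)⁻¹ * φ σ₁ := by rw [← e12, map_mul, map_inv]
    rw [hy₃, h1]
    calc (φ σ₂)⁻¹ * φ σ₁ * x * ((φ σ₂)⁻¹ * φ σ₁)⁻¹ = (φ σ₂)⁻¹ * y₁ * φ σ₂ := by rw [hy₁]; group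
      _ = (φ σ₂)⁻¹ * y₂ * φ σ₂ := by rw [h]
      _ = x := by rw [hy₂]; group
  have hy12 : y₂ = φ σ₁ * y₃ * (φ σ₁)⁻¹ := by
    have h1 : φ σ₂ = φ σ₁ * φ σ₃ := by rw [← e13, map_mul]
    rw [hy₂, hy₃, h1]
    group
  have hcomm : Commute y₁ y₂ := by
    rw [hy12, hy₁]
    show (φ σ₁ * x * (φ σ₁)⁻¹) * (φ σ₁ * y₃ * (φ σ₁)⁻¹) = (φ σ₁ * y₃ * (φ σ₁)⁻¹) * (φ σ₁ * x * (φ σ₁)⁻¹)
    have h3 : x * y₃ = y₃ * x := c3
    calc (φ σ₁ * x * (φ σ₁)⁻¹) * (φ σ₁ * y₃ * (φ σ₁)⁻¹) = φ σ₁ * (x * y₃) * (φ σ₁)⁻¹ := by group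
      _ = φ σ₁ * (y₃ * x) * (φ σ₁)⁻¹ := by rw [h3]
      _ = _ := by group
  have hA1 : y₁ ∈ Aa D x := ⟨hconj _ _ hx, n1, c1⟩
  have hA2 : y₂ ∈ Aa D x := ⟨hconj _ _ hx, n2, c2⟩
  exact (hL x hx).noncomm _ hA1 _ hA2 hne12 hcomm

/-- The first alternative. -/
theorem s5_iso (hD : IsThreeTranspositionSet D) (hconj : ∀ g : G, ∀ d ∈ D, g * d * g⁻¹ ∈ D)
    (hL : ∀ d ∈ D, Line D d) {d a b u : G} (hd : d ∈ D) (ha : a ∈ Aa D d) (hb : b ∈ Aa D d) (hu : u ∈ Aa D b)
    (hud : u ≠ d) (hab : a ≠ b) (hne : Aa D a ≠ Aa D b) :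
    Nonempty (↥(Subgroup.closure D) ≃* Perm (Fin 5)) := by
  have hdb : d ∈ Aa D b := Aa_symm hd hb
  have hda : d ∈ Aa D a := Aa_symm hd ha
  have hnab := (hL d hd).noncomm a ha b hb hab
  have hdu : ¬ Commute d u := (hL b hb.1).noncomm d hdb u hu hud.symm
  have hua : ¬ Commute u a := by
    intro hc
    have hua' : u ≠ a := by
      rintro rfl
      exact hnab hu.2.2.symm
    have hu' : u ∈ Aa D a := ⟨hu.1, hua', hc.symm⟩
    apply hne
    ext r
    constructor
    · intro hr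
      rcases (hL a ha.1).third d hda u hu' hud.symm r hr with h | h | h
      · rw [h]; exact hdb
      · rw [h]; exact hu
      · rw [h]; exact third_mem hD hconj hdb hu
    · intro hr
      rcases (hL b hb.1).third d hdb u hu hud.symm r hr with h | h | h
      · rw [h]; exact hda
      · rw [h]; exact hu'
      · rw [h]; exact third_mem hD hconj hda hu'
  obtain ⟨φ, hinj, h0, h1, h2, h3⟩ := S5.exists_injective_hom hD hd hu.1 ha.1 hb.1 hdu hua hnab ha.2.2 hb.2.2
    hu.2.2.symm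
  have hcov := s5_cover hD hconj hL hinj (by rw [h0]; exact hd)
  have hT : ∀ i j : Fin 5, i ≠ j → φ (swap i j) ∈ D := by
    intro i j hij
    obtain ⟨σ, hσ⟩ := swap_conj_check i j hij
    rw [← hσ, map_mul, map_mul, map_inv, h0]
    exact hconj _ _ hd
  have hrange : φ.range = Subgroup.closure D := by
    apply le_antisymm
    · rintro _ ⟨σ, rfl⟩
      have hσ : σ ∈ Subgroup.closure {τ : Perm (Fin 5) | τ.IsSwap} := by
        rw [Equiv.Perm.closure_isSwap]; trivial
      induction hσ using Subgroup.closure_induction with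
      | mem τ hτ =>
        obtain ⟨i, j, hij, rfl⟩ := hτ
        exact Subgroup.subset_closure (hT i j hij)
      | one => simp
      | mul x y _ _ hx hy => rw [map_mul]; exact Subgroup.mul_mem _ hx hy
      | inv x _ hx => rw [map_inv]; exact Subgroup.inv_mem _ hx
    · rw [Subgroup.closure_le]
      intro x hx
      obtain ⟨i, j, _, rfl⟩ := hcov x hx
      exact ⟨_, rfl⟩
  exact ⟨(MulEquiv.subgroupCongr hrange.symm).trans (MonoidHom.ofInjective hinj).symm⟩

/-- Elements of two generated subgroups commute when the generators do. -/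
lemma commute_closure {S T : Set G} (h : ∀ x ∈ S, ∀ y ∈ T, x * y = y * x) :
    ∀ u ∈ Subgroup.closure S, ∀ v ∈ Subgroup.closure T, u * v = v * u := by
  have h1 : Subgroup.closure T ≤ Subgroup.centralizer S := by
    rw [Subgroup.closure_le]
    intro y hy
    rw [SetLike.mem_coe, Subgroup.mem_centralizer_iff]
    intro x hx
    exact h x hx y hy
  have h2 : Subgroup.closure S ≤ Subgroup.centralizer (Subgroup.closure T : Set G) := by
    rw [Subgroup.closure_le]
    intro x hx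
    rw [SetLike.mem_coe, Subgroup.mem_centralizer_iff]
    intro y hy
    have h3 := h1 hy
    rw [Subgroup.mem_centralizer_iff] at h3
    exact (h3 x hx).symm
  intro u hu v hv
  have h3 := h2 hu
  rw [Subgroup.mem_centralizer_iff] at h3
  exact (h3 v hv).symm

/-- The direct product alternative. -/
theorem prod_iso {H J K : Subgroup G} (e₁ : H ≃* Perm (Fin 3)) (e₂ : J ≃* Perm (Fin 3))
    (hc : ∀ u ∈ H, ∀ v ∈ J, u * v = v * u) (hK : K = H ⊔ J) :
    Nonempty (↥K ≃* Perm (Fin 3) × Perm (Fin 3)) := by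
  let f : H × J →* G := MonoidHom.noncommCoprod H.subtype J.subtype (fun m n => hc m m.2 n n.2)
  have hf : ∀ p : H × J, f p = (p.1 : G) * (p.2 : G) := fun p => rfl
  have hinj : Function.Injective f := by
    rw [injective_iff_map_eq_one]
    rintro ⟨⟨h, hh⟩, ⟨j, hj⟩⟩ hp0
    have hp : h * j = 1 := hp0
    have h1 : h = j⁻¹ := eq_inv_of_mul_eq_one_left hp
    have hJ : h ∈ J := by rw [h1]; exact J.inv_mem hj
    have hcen : ∀ τ : Perm (Fin 3), e₁ ⟨h, hh⟩ * τ = τ * e₁ ⟨h, hh⟩ := by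
      intro τ
      obtain ⟨y, rfl⟩ := e₁.surjective τ
      rw [← map_mul, ← map_mul]
      congr 1
      apply Subtype.ext
      exact (hc y y.2 h hJ).symm
    have h2 := s3_center _ hcen
    have h3 : (⟨h, hh⟩ : H) = 1 := e₁.injective (by rw [h2, map_one])
    have h4 : h = 1 := congrArg Subtype.val h3
    have h5 : j = 1 := by
      rw [h4, one_mul] at hp
      exact hp
    subst h4 h5
    rfl
  have hrange : f.range = K := by
    rw [hK]
    have := MonoidHom.noncommCoprod_range (f := H.subtype) (g := J.subtype) (fun m n => hc m m.2 n n.2)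
    rw [Subgroup.range_subtype, Subgroup.range_subtype] at this
    exact this
  exact ⟨(MulEquiv.subgroupCongr hrange.symm).trans
    ((MonoidHom.ofInjective hinj).symm.trans (MulEquiv.prodCongr e₁ e₂))⟩

/-- The elements of a normal `3`-subgroup commuting with `d` lie in `⟨m⟩`. -/
lemma mem_zpowers_of_card [Finite G] {d m v : G} {V : Subgroup G} (hVn : V.Normal) (hVp : IsPGroup 3 V)
    (hcard : Nat.card (Cfsg.pCore 3 ↥(Subgroup.centralizer ({d} : Set G))) = 3)
    (hm : m ∈ V) (hmd : m * d = d * m) (hm1 : m ≠ 1) (hv : v ∈ V) (hvd : v * d = d * v) :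
    ∃ k : ℤ, v = m ^ k := by
  have : Fact (Nat.Prime 3) := ⟨Nat.prime_three⟩
  have hmem : ∀ w : G, w * d = d * w → w ∈ Subgroup.centralizer ({d} : Set G) := by
    intro w hw
    rw [Subgroup.mem_centralizer_iff]
    intro x hx
    rw [Set.mem_singleton_iff] at hx
    rw [hx]
    exact hw.symm
  let C := Subgroup.centralizer ({d} : Set G)
  let S : Subgroup C := V.subgroupOf C
  have hSn : S.Normal := Subgroup.Normal.subgroupOf hVn C
  have hSp : IsPGroup 3 S := by
    intro x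
    obtain ⟨k, hk⟩ := hVp ⟨((x : C) : G), x.2⟩
    refine ⟨k, ?_⟩
    apply Subtype.ext
    apply Subtype.ext
    have := congrArg Subtype.val hk
    simpa using this
  have hle : S ≤ Cfsg.pCore 3 C := Cfsg.Agent.Lib.Core.Basic.le_pCore hSn hSp
  have hm' : (⟨m, hmem m hmd⟩ : C) ∈ Cfsg.pCore 3 C := hle hm
  have hv' : (⟨v, hmem v hvd⟩ : C) ∈ Cfsg.pCore 3 C := hle hv
  have hne : (⟨⟨m, hmem m hmd⟩, hm'⟩ : Cfsg.pCore 3 C) ≠ 1 := by
    intro h
    exact hm1 (congrArg (fun y : Cfsg.pCore 3 C => ((y : C) : G)) h)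
  obtain ⟨k, hk⟩ := mem_zpowers_of_prime_card hcard (g' := ⟨⟨v, hmem v hvd⟩, hv'⟩) hne
  refine ⟨k, ?_⟩
  have := congrArg (fun y : Cfsg.pCore 3 C => ((y : C) : G)) hk
  simpa using this.symm

/-- No further members of `D` in the `K₃,₃` case. -/
theorem no_extra [Finite G] (hD : IsThreeTranspositionSet D) (hconj : ∀ g : G, ∀ d ∈ D, g * d * g⁻¹ ∈ D)
    (hL : ∀ d ∈ D, Line D d) {d a b e x : G} (hd : d ∈ D) (ha : a ∈ Aa D d) (hb : b ∈ Aa D d) (hab : a ≠ b)
    (he : e ∈ Aa D a) (hed : e ≠ d) (hAB : Aa D a = Aa D b)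
    (hcard : Nat.card (Cfsg.pCore 3 ↥(Subgroup.centralizer ({d} : Set G))) = 3)
    (hx : x ∈ D) (hxd : x ≠ d) (hxa : x ≠ a) (h1 : x ∉ Aa D d) (h2 : x ∉ Aa D a) : False := by
  have hda : d ∈ Aa D a := Aa_symm hd ha
  have hdb : d ∈ Aa D b := Aa_symm hd hb
  have heb : e ∈ Aa D b := hAB ▸ he
  have hae : a ∈ Aa D e := Aa_symm ha.1 he
  have hbe : b ∈ Aa D e := Aa_symm hb.1 heb
  have hde : ¬ Commute d e := (hL a ha.1).noncomm d hda e he hed.symm
  have hnab : ¬ Commute a b := (hL d hd).noncomm a ha b hb hab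
  have hdd := mul_self_of_mem hD hd
  have hee := mul_self_of_mem hD he.1
  have haa := mul_self_of_mem hD ha.1
  have hbb := mul_self_of_mem hD hb.1
  have hdi := inv_of_mem hD hd
  have hei := inv_of_mem hD he.1
  have hai := inv_of_mem hD ha.1
  have hbi := inv_of_mem hD hb.1
  -- the relations `Wr`
  have hWde : WRel.Wr D d e := by
    intro y hy
    constructor
    · rintro ⟨h3, h4⟩
      rcases (hL d hd).third a ha b hb hab y ⟨hy, h3, h4⟩ with h | h | h
      · rw [h]; exact ⟨hae.2.1, hae.2.2⟩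
      · rw [h]; exact ⟨hbe.2.1, hbe.2.2⟩
      · have := third_mem hD hconj hae hbe
        rw [h]; exact ⟨this.2.1, this.2.2⟩
    · rintro ⟨h3, h4⟩
      rcases (hL e he.1).third a hae b hbe hab y ⟨hy, h3, h4⟩ with h | h | h
      · rw [h]; exact ⟨ha.2.1, ha.2.2⟩
      · rw [h]; exact ⟨hb.2.1, hb.2.2⟩
      · have := third_mem hD hconj ha hb
        rw [h]; exact ⟨this.2.1, this.2.2⟩
  have hWab : WRel.Wr D a b := by
    intro y hy
    have h3 := Set.ext_iff.1 hAB y
    constructor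
    · rintro ⟨h4, h5⟩
      have h6 := h3.1 ⟨hy, h4, h5⟩
      exact ⟨h6.2.1, h6.2.2⟩
    · rintro ⟨h4, h5⟩
      have h6 := h3.2 ⟨hy, h4, h5⟩
      exact ⟨h6.2.1, h6.2.2⟩
  set V := Cfsg.pCore 3 G with hV
  have hVn : V.Normal := Cfsg.pCore_normal 3 G
  have hVp : IsPGroup 3 V := Cfsg.Agent.Lib.Core.Basic.pCore_isPGroup
  have hn : d * e ∈ V := by
    have := (WRel.wr_iff_mul_mem_pCore hD hconj hd he.1).1 hWde
    rwa [hdi] at this
  have hm : a * b ∈ V := by
    have := (WRel.wr_iff_mul_mem_pCore hD hconj ha.1 hb.1).1 hWab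
    rwa [hai] at this
  obtain ⟨n, hndef⟩ : ∃ n, n = d * e := ⟨_, rfl⟩
  obtain ⟨m, hmdef⟩ : ∃ m, m = a * b := ⟨_, rfl⟩
  rw [← hndef] at hn
  rw [← hmdef] at hm
  have hn3 : n ^ 3 = 1 := by rw [hndef]; exact pow_three_of_not_commute hD hd he.1 hde
  have hn1 : n ≠ 1 := by
    intro h
    apply hed
    have : d = e⁻¹ := eq_inv_of_mul_eq_one_left (hndef ▸ h)
    rw [this, hei]
  have hm1 : m ≠ 1 := by
    intro h
    apply hab
    have : a = b⁻¹ := eq_inv_of_mul_eq_one_left (hmdef ▸ h)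
    rw [this, hbi]
  -- commuting relations
  have cda : d * a = a * d := ha.2.2.eq
  have cdb : d * b = b * d := hb.2.2.eq
  have cea : e * a = a * e := hae.2.2.eq
  have ceb : e * b = b * e := hbe.2.2.eq
  have hmd : m * d = d * m := by
    rw [hmdef, mul_assoc, ← cdb, ← mul_assoc, ← cda, mul_assoc]
  have hme : m * e = e * m := by
    rw [hmdef, mul_assoc, ← ceb, ← mul_assoc, ← cea, mul_assoc]
  have hnm : n * m = m * n := by
    rw [hndef, mul_assoc, ← hme, ← mul_assoc, ← hmd, mul_assoc]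
  -- description of `V`
  have hbr : d * e * d = e * d * e := braid hD hd he.1 hde
  have hconj1 : n * d * n⁻¹ = e := by
    rw [hndef, mul_inv_rev, hdi, hei]
    calc d * e * d * (e * d) = (d * e * d) * (e * d) := by group
      _ = (e * d * e) * (e * d) := by rw [hbr]
      _ = e * d * (e * e) * d := by group
      _ = e * (d * d) := by rw [hee]; group
      _ = e := by rw [hdd, mul_one]
  have hconj2 : n * e * n⁻¹ = d * e * d := by
    rw [hndef, mul_inv_rev, hdi, hei]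
    calc d * e * e * (e * d) = d * (e * e) * e * d := by group
      _ = d * e * d := by rw [hee]; group
  have hdesc : ∀ v ∈ V, ∃ i : ℕ, ∃ k : ℤ, v = n ^ i * m ^ k := by
    intro v hv
    have hw : v * d * v⁻¹ ∈ Aa D a := by
      have hwD : v * d * v⁻¹ ∈ D := hconj v d hd
      have hWw : WRel.Wr D d (v * d * v⁻¹) := by
        rw [WRel.wr_iff_mul_mem_pCore hD hconj hd hwD, hdi]
        have : d * (v * d * v⁻¹) = (d * v * d⁻¹) * v⁻¹ := by rw [hdi]; group
        rw [this]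
        exact V.mul_mem (hVn.conj_mem v hv d) (V.inv_mem hv)
      obtain ⟨h3, h4⟩ := (hWw a ha.1).1 ⟨ha.2.1, ha.2.2⟩
      exact ⟨hwD, h3.symm, h4.symm⟩
    have hfix : ∀ (i : ℕ), v * d * v⁻¹ = n ^ i * d * (n ^ i)⁻¹ → ∃ k : ℤ, v = n ^ i * m ^ k := by
      intro i hi
      have hu : (n ^ i)⁻¹ * v ∈ V := V.mul_mem (V.inv_mem (V.pow_mem hn i)) hv
      have hud : ((n ^ i)⁻¹ * v) * d = d * ((n ^ i)⁻¹ * v) := by
        calc ((n ^ i)⁻¹ * v) * d = (n ^ i)⁻¹ * (v * d * v⁻¹) * v := by group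
          _ = (n ^ i)⁻¹ * (n ^ i * d * (n ^ i)⁻¹) * v := by rw [hi]
          _ = _ := by group
      obtain ⟨k, hk⟩ := mem_zpowers_of_card hVn hVp hcard hm hmd hm1 hu hud
      refine ⟨k, ?_⟩
      rw [← hk]
      group
    rcases (hL a ha.1).third d hda e he hed.symm _ hw with h3 | h3 | h3
    · obtain ⟨k, hk⟩ := hfix 0 (by rw [h3]; group)
      exact ⟨0, k, hk⟩
    · obtain ⟨k, hk⟩ := hfix 1 (by rw [h3, pow_one, hconj1])
      exact ⟨1, k, hk⟩
    · obtain ⟨k, hk⟩ := hfix 2 (by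
        rw [h3]
        calc d * e * d = n * e * n⁻¹ := hconj2.symm
          _ = n * (n * d * n⁻¹) * n⁻¹ := by rw [hconj1]
          _ = _ := by rw [pow_two]; group)
      exact ⟨2, k, hk⟩
  -- `τ = d a` inverts `V`
  obtain ⟨τ, hτ⟩ : ∃ τ, τ = d * a := ⟨_, rfl⟩
  have hτi : τ⁻¹ = a * d := by rw [hτ, mul_inv_rev, hai, hdi]
  have hτn : τ * n * τ⁻¹ = n⁻¹ := by
    rw [hτi, hτ, hndef, mul_inv_rev, hdi, hei]
    calc d * a * (d * e) * (a * d) = d * (a * d) * (e * a) * d := by group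
      _ = d * (d * a) * (a * e) * d := by rw [cda, cea]
      _ = (d * d) * (a * a) * e * d := by group
      _ = e * d := by rw [hdd, haa]; group
  have hτm : τ * m * τ⁻¹ = m⁻¹ := by
    rw [hτi, hτ, hmdef, mul_inv_rev, hai, hbi]
    calc d * a * (a * b) * (a * d) = d * (a * a) * b * a * d := by group
      _ = d * (b * a) * d := by rw [haa]; group
      _ = (d * b) * (a * d) := by group
      _ = (b * d) * (d * a) := by rw [cdb, cda]
      _ = b * (d * d) * a := by group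
      _ = b * a := by rw [hdd]; group
  have hτV : ∀ v ∈ V, τ * v * τ⁻¹ = v⁻¹ := by
    intro v hv
    obtain ⟨i, k, rfl⟩ := hdesc v hv
    have h3 : τ * (n ^ i * m ^ k) * τ⁻¹ = (τ * n * τ⁻¹) ^ i * (τ * m * τ⁻¹) ^ k := by
      rw [conj_pow, conj_zpow]
      group
    rw [h3, hτn, hτm]
    have hc : Commute (n ^ i) (m ^ k) := ((show Commute n m from hnm).pow_left i).zpow_right k
    rw [mul_inv_rev (n ^ i) (m ^ k), inv_pow, inv_zpow, hc.inv_inv.eq]
  have hgτ : ∀ g : G, ∀ v ∈ V, (g * τ * g⁻¹) * v * (g * τ * g⁻¹)⁻¹ = v⁻¹ := by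
    intro g v hv
    have h3 := hτV _ (hVn.conj_mem v hv g⁻¹)
    calc (g * τ * g⁻¹) * v * (g * τ * g⁻¹)⁻¹ = g * (τ * (g⁻¹ * v * g⁻¹⁻¹) * τ⁻¹) * g⁻¹ := by group
      _ = g * (g⁻¹ * v * g⁻¹⁻¹)⁻¹ * g⁻¹ := by rw [h3]
      _ = _ := by group
  -- the string
  have hdx : ¬ Commute d x := fun h => h1 ⟨hx, hxd, h⟩
  have hxa' : ¬ Commute x a := fun h => h2 ⟨hx, hxa, h.symm⟩
  have hda' : d ≠ a := ha.2.1.symm
  obtain ⟨ψ, _, h0, h3, h4⟩ := S4.exists_injective_hom hD hd hx ha.1 hda' ha.2.2 hdx hxa'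
  let σ₁ : Perm (Fin 4) := swap 0 1 * swap 2 3
  let g₂ : Perm (Fin 4) := swap 1 2
  let g₃ : Perm (Fin 4) := swap 1 3
  have hσ : σ₁ * (g₂ * σ₁ * g₂⁻¹) = g₃ * σ₁ * g₃⁻¹ := by decide
  have hψ1 : ψ σ₁ = τ := by
    rw [hτ]
    show ψ (swap 0 1 * swap 2 3) = d * a
    rw [map_mul, h0, h4]
  have hψ : τ * (ψ g₂ * τ * (ψ g₂)⁻¹) = ψ g₃ * τ * (ψ g₃)⁻¹ := by
    have := congrArg ψ hσ
    simp only [map_mul, map_inv] at this
    rwa [hψ1] at this
  have h5 := hgτ (ψ g₃) n hn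
  rw [← hψ] at h5
  have h6 := hgτ (ψ g₂) n hn
  have h7 : (τ * (ψ g₂ * τ * (ψ g₂)⁻¹)) * n * (τ * (ψ g₂ * τ * (ψ g₂)⁻¹))⁻¹ = n := by
    calc (τ * (ψ g₂ * τ * (ψ g₂)⁻¹)) * n * (τ * (ψ g₂ * τ * (ψ g₂)⁻¹))⁻¹
        = τ * ((ψ g₂ * τ * (ψ g₂)⁻¹) * n * (ψ g₂ * τ * (ψ g₂)⁻¹)⁻¹) * τ⁻¹ := by group
      _ = τ * n⁻¹ * τ⁻¹ := by rw [h6]
      _ = (τ * n * τ⁻¹)⁻¹ := by group
      _ = n := by rw [hτn, inv_inv]
  rw [h7] at h5
  have h8 : n * n = 1 := by
    nth_rewrite 1 [h5]
    group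
  apply hn1
  calc n = n ^ 3 * (n * n)⁻¹ := by group
    _ = 1 := by rw [hn3, h8]; group

/-- The main theorem. -/
theorem main [Finite G] (hD : IsThreeTranspositionSet D) (hconj : ∀ g : G, ∀ d ∈ D, g * d * g⁻¹ ∈ D)
    (hne : D.Nonempty)
    (hloc : ∀ d ∈ D, Nonempty (↥(Subgroup.closure (Aa D d)) ≃* Perm (Fin 3)) ∧
      Nat.card (Cfsg.pCore 3 ↥(Subgroup.centralizer ({d} : Set G))) = 3) :
    Nonempty (↥(Subgroup.closure D) ≃* Perm (Fin 5)) ∨
      Nonempty (↥(Subgroup.closure D) ≃* Perm (Fin 3) × Perm (Fin 3)) := by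
  classical
  have hL : ∀ d ∈ D, Line D d := fun d hd => line_of_iso hD (hloc d hd).1
  obtain ⟨d, hd⟩ := hne
  obtain ⟨a, ha, b, hb, hab⟩ := (hL d hd).two
  have hda : d ∈ Aa D a := Aa_symm hd ha
  have hdb : d ∈ Aa D b := Aa_symm hd hb
  -- a second point in `A(a)` and `A(b)`
  have hsecond : ∀ y ∈ D, ∀ z ∈ Aa D y, ∃ u ∈ Aa D y, u ≠ z := by
    intro y hy z _
    obtain ⟨p, hp, q, hq, hpq⟩ := (hL y hy).two
    by_cases h : p = z
    · exact ⟨q, hq, fun h' => hpq (h.trans h'.symm)⟩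
    · exact ⟨p, hp, h⟩
  by_cases hAB : Aa D a = Aa D b
  · right
    obtain ⟨e, he, hed⟩ := hsecond a ha.1 d hda
    have heb : e ∈ Aa D b := hAB ▸ he
    have hae : a ∈ Aa D e := Aa_symm ha.1 he
    have hbe : b ∈ Aa D e := Aa_symm hb.1 heb
    have hf : d * e * d ∈ Aa D a := third_mem hD hconj hda he
    have hfb : d * e * d ∈ Aa D b := third_mem hD hconj hdb heb
    have hc : a * b * a ∈ Aa D d := third_mem hD hconj ha hb
    have hce : a * b * a ∈ Aa D e := third_mem hD hconj hae hbe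
    have haf : a ∈ Aa D (d * e * d) := Aa_symm ha.1 hf
    have hbf : b ∈ Aa D (d * e * d) := Aa_symm hb.1 hfb
    have hcf : a * b * a ∈ Aa D (d * e * d) := third_mem hD hconj haf hbf
    have hAd := (hL d hd).third a ha b hb hab
    have hAa := (hL a ha.1).third d hda e he hed.symm
    -- `D` is `K`, or a contradiction
    have hK : ∀ x ∈ D, x = d ∨ x = a ∨ x ∈ Aa D d ∨ x ∈ Aa D a := by
      intro x hx
      by_contra hcon
      push Not at hcon
      exact no_extra hD hconj hL hd ha hb hab he hed hAB (hloc d hd).2 hx hcon.1 hcon.2.1 hcon.2.2.1 hcon.2.2.2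
    obtain ⟨e₁⟩ := (hloc a ha.1).1
    obtain ⟨e₂⟩ := (hloc d hd).1
    refine prod_iso e₁ e₂ ?_ ?_
    · apply commute_closure
      intro x hx y hy
      rcases hAa x hx with h | h | h <;> rcases hAd y hy with h' | h' | h' <;> rw [h, h']
      · exact ha.2.2.eq
      · exact hb.2.2.eq
      · exact hc.2.2.eq
      · exact hae.2.2.eq
      · exact hbe.2.2.eq
      · exact hce.2.2.eq
      · exact haf.2.2.eq
      · exact hbf.2.2.eq
      · exact hcf.2.2.eq
    · apply le_antisymm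
      · rw [Subgroup.closure_le]
        intro x hx
        rcases hK x hx with h | h | h | h
        · rw [h]
          exact (le_sup_left : _ ≤ Subgroup.closure (Aa D a) ⊔ Subgroup.closure (Aa D d))
            (Subgroup.subset_closure hda)
        · rw [h]
          exact (le_sup_right : _ ≤ Subgroup.closure (Aa D a) ⊔ Subgroup.closure (Aa D d))
            (Subgroup.subset_closure ha)
        · exact (le_sup_right : _ ≤ Subgroup.closure (Aa D a) ⊔ Subgroup.closure (Aa D d))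
            (Subgroup.subset_closure h)
        · exact (le_sup_left : _ ≤ Subgroup.closure (Aa D a) ⊔ Subgroup.closure (Aa D d))
            (Subgroup.subset_closure h)
      · refine sup_le (Subgroup.closure_mono fun x hx => hx.1) (Subgroup.closure_mono fun x hx => hx.1)
  · left
    obtain ⟨u, hu, hud⟩ := hsecond b hb.1 d hdb
    exact s5_iso hD hconj hL hd ha hb hu hud hab hAB

end Cfsg.Agent.Lib.ThreeT.LocalS3
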