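import Cfsg.Agent.Lib.ThreeT.M22r
import Cfsg.Agent.Lib.Classical.HermTransv
import Cfsg.Agent.Lib.Classical.HermOrders
import Cfsg.Agent.S0279

/-!
# Groups of type M(22): the stabilizer of a point of the unitary 6-space and its Levi factor `SU₄(2)`
-/

set_option autoImplicit false
set_option linter.unusedSectionVars false
set_option linter.unusedVariables false
set_option linter.style.longLine false
set_option linter.unusedSimpArgs false
set_option linter.unnecessarySimpa false
set_option linter.style.haveILetI false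

namespace Cfsg.Agent.Lib.ThreeT.M22

open Cfsg Cfsg.Agent.Lib.ThreeT.Basic Cfsg.Agent.Lib.ThreeT.Class Cfsg.Agent.Lib.ThreeT.Relations
open Cfsg.Agent.Lib.ThreeT.Rank3 Cfsg.Agent.Lib.ThreeT.Descent Cfsg.Agent.Lib.ThreeT.NoSix
open Cfsg.Agent.Lib.ThreeT.U6Lift Cfsg.Agent.Lib.ThreeT.U6Geo
open Matrix

variable {G : Type*} [Group G] {D : Set G}
variable {K : Type*} [Field K] [Fintype K] [hK : Fact (Fintype.card K = 4)]

/-- The form. -/
local notation "B" => hermForm 6 K 2
/-- The form in dimension four. -/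
local notation "B₄" => hermForm 4 K 2

section twist

/-- Moving the coordinates by an element of `SU₆(2)`. -/
noncomputable def U6Data.twist {d : G} (U : U6Data D d K) (g : ↥(SU 6 K 2)) : U6Data D d K where
  e := U.e.trans (MulAut.conj (QuotientGroup.mk g⁻¹ : PSU 6 K 2))
  vec := fun x => act g⁻¹ (U.vec x)
  iso := fun u hu => by rw [form_act]; exact U.iso u hu
  ne0 := fun u hu => act_ne_zero _ (U.ne0 u hu)
  he := by
    intro u hu
    have h1 : (U.e.trans (MulAut.conj (QuotientGroup.mk g⁻¹ : PSU 6 K 2))) (phi D d u) =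
        (QuotientGroup.mk g⁻¹ : PSU 6 K 2) * U.e (phi D d u) * (QuotientGroup.mk g⁻¹ : PSU 6 K 2)⁻¹ := rfl
    rw [h1, U.he u hu, ← tv_conj g⁻¹ (U.iso u hu)]
    rfl
  comm := by
    intro u hu v hv
    rw [form_act]
    exact U.comm u hu v hv
  eq_of := by
    intro u hu v hv c hc
    apply U.eq_of u hu v hv c
    have := congrArg (act g) hc
    rwa [act_act_inv, act_smul, act_act_inv] at this
  ex := by
    intro p hp hp0
    have hp' : B (act g p) (act g p) = 0 := by rw [form_act, hp]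
    obtain ⟨u, hu, c, hc, e⟩ := U.ex (act g p) hp' (act_ne_zero _ hp0)
    refine ⟨u, hu, c, hc, ?_⟩
    rw [e, act_smul, act_inv_act]
  central := by
    intro l h1 h2 h3
    apply U.central l h1 h2
    have e : ∀ l' : List G, (∀ a ∈ l', a ∈ Da D d) →
        (l'.map (fun a => tv (act g⁻¹ (U.vec a)))).prod = g⁻¹ * (l'.map (fun a => tv (U.vec a))).prod * g := by
      intro l'
      induction l' with
      | nil => simp
      | cons a l' ih =>
        intro h
        simp only [List.map_cons, List.prod_cons]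
        rw [ih (fun x hx => h x (List.mem_cons_of_mem _ hx)), ← tv_conj g⁻¹ (U.iso a (h a (by simp)))]
        simp only [inv_inv]
        group
    rw [e l h1] at h3
    have h4 : g * (g⁻¹ * (l.map (fun a => tv (U.vec a))).prod * g) * g⁻¹ = 1 := by rw [h3]; group
    calc (l.map (fun a => tv (U.vec a))).prod = g * (g⁻¹ * (l.map (fun a => tv (U.vec a))).prod * g) * g⁻¹ := by group
      _ = 1 := h4
  central' := by
    intro l h1 h2 h3
    have e : ∀ l' : List G, (∀ a ∈ l', a ∈ Da D d) →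
        (l'.map (fun a => tv (act g⁻¹ (U.vec a)))).prod = g⁻¹ * (l'.map (fun a => tv (U.vec a))).prod * g := by
      intro l'
      induction l' with
      | nil => simp
      | cons a l' ih =>
        intro h
        simp only [List.map_cons, List.prod_cons]
        rw [ih (fun x hx => h x (List.mem_cons_of_mem _ hx)), ← tv_conj g⁻¹ (U.iso a (h a (by simp)))]
        simp only [inv_inv]
        group
    rw [e l h1, U.central' l h1 h2 h3]
    group
  lift := by
    intro s
    obtain ⟨x, hx, h⟩ := U.lift (g * s * g⁻¹)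
    refine ⟨x, hx, fun u hu => ?_⟩
    obtain ⟨m, c, hc, e⟩ := h u hu
    refine ⟨m, c, hc, ?_⟩
    rw [e, act_smul, ← act_mul, ← act_mul]
    congr 2
    group
  conj := by
    intro u hu v hv
    obtain ⟨m, c, hc, e⟩ := U.conj u hu v hv
    refine ⟨m, c, hc, ?_⟩
    rw [e, act_smul, act_add, act_smul, form_act]

omit [Fintype K] hK in
theorem U6Data.twist_vec [Fintype K] [Fact (Fintype.card K = 4)] {d : G} (U : U6Data D d K) (g : ↥(SU 6 K 2)) (x : G) : (U.twist g).vec x = act g⁻¹ (U.vec x) := rfl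

/-- Coordinates in which a given member of `D_d` is `b₀`. -/
theorem exists_chart {d u : G} (U : U6Data D d K) (hu : u ∈ Da D d) : ∃ U' : U6Data D d K, U'.vec u = b₀ := by
  obtain ⟨g, hg⟩ := exists_b₀ (U.ne0 u hu) (U.iso u hu)
  refine ⟨U.twist g, ?_⟩
  rw [U.twist_vec, ← hg, act_inv_act]

end twist

section vectors

/-- The embedding of the 4-space. -/
def hat (w : Fin 4 → K) : Fin 6 → K := ![0, 0, w 0, w 1, w 2, w 3]

/-- The projection to the 4-space. -/
def low (x : Fin 6 → K) : Fin 4 → K := ![x 2, x 3, x 4, x 5]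

omit [Fintype K] hK in
theorem low_apply (x : Fin 6 → K) (i : Fin 4) : low x i = x ⟨i.1 + 2, by omega⟩ := by
  fin_cases i <;> rfl

omit [Fintype K] hK in
@[simp] theorem low_hat (w : Fin 4 → K) : low (hat w) = w := by
  funext i
  fin_cases i <;> rfl

omit [Fintype K] hK in
theorem low_add (x y : Fin 6 → K) : low (x + y) = low x + low y := by
  funext i
  fin_cases i <;> rfl

omit [Fintype K] hK in
theorem low_smul (c : K) (x : Fin 6 → K) : low (c • x) = c • low x := by
  funext i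
  fin_cases i <;> rfl

omit [Fintype K] hK in
theorem hat_add (x y : Fin 4 → K) : hat (x + y) = hat x + hat y := by
  funext i
  fin_cases i <;> simp [hat]

omit [Fintype K] hK in
theorem hat_smul (c : K) (x : Fin 4 → K) : hat (c • x) = c • hat x := by
  funext i
  fin_cases i <;> simp [hat]

omit [Fintype K] hK in
@[simp] theorem low_b₀ : low (b₀ : Fin 6 → K) = 0 := by
  funext i
  fin_cases i <;> rfl

omit [Fintype K] hK in
theorem hat_zero_zero (w : Fin 4 → K) (i : Fin 6) (hi : i = 0 ∨ i = 1) : hat w i = 0 := by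
  rcases hi with rfl | rfl <;> rfl

theorem B_hat_b₀ (w : Fin 4 → K) : B (hat w) b₀ = 0 := by
  rw [B_b₀_eq]
  simp [hat]

theorem B_b₀_hat (w : Fin 4 → K) : B b₀ (hat w) = 0 := B_zero_symm (B_hat_b₀ w)

/-- Vectors perpendicular to `b₀`. -/
theorem perp_decomp {x : Fin 6 → K} (h : B x b₀ = 0) : x = x 0 • b₀ + hat (low x) := by
  rw [B_b₀_eq] at h
  have h1 : x 1 = x 0 := (eq_of_add_zero h).symm
  funext i
  fin_cases i <;> simp [hat, low, b₀, h1]

omit hK [Fintype K] in
theorem B₄_eq (x y : Fin 4 → K) : B₄ x y = x 0 * y 0 ^ 2 + x 1 * y 1 ^ 2 + x 2 * y 2 ^ 2 + x 3 * y 3 ^ 2 := by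
  simp [hermForm, Fin.sum_univ_four]

/-- The form on the perpendicular space of `b₀`. -/
theorem B_low {x y : Fin 6 → K} (hx : B x b₀ = 0) (hy : B y b₀ = 0) : B x y = B₄ (low x) (low y) := by
  rw [B_b₀_eq] at hx hy
  have h1 : x 1 = x 0 := (eq_of_add_zero hx).symm
  have h2 : y 1 = y 0 := (eq_of_add_zero hy).symm
  rw [B_vec, B₄_eq, h1, h2]
  simp only [low, Matrix.cons_val_zero, Matrix.cons_val_one, Matrix.cons_val]
  have h2z := two_zero (K := K)
  linear_combination (x 0 * y 0 ^ 2) * h2z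

theorem B_hat_hat (u v : Fin 4 → K) : B (hat u) (hat v) = B₄ u v := by
  rw [B_low (B_hat_b₀ u) (B_hat_b₀ v), low_hat, low_hat]

end vectors

section stabilizer

omit hK [Fintype K] in
theorem b₀_ne : (b₀ : Fin 6 → K) ≠ 0 := by
  intro h
  have := congrFun h 0
  simp [b₀] at this

/-- The stabilizer of the point `⟨b₀⟩`. -/
def TT : Subgroup ↥(SU 6 K 2) where
  carrier := {s | ∃ μ : K, act s b₀ = μ • b₀}
  mul_mem' := by
    rintro a c ⟨μ, h1⟩ ⟨ν, h2⟩
    refine ⟨ν * μ, ?_⟩
    rw [act_mul, h2, act_smul, h1, smul_smul]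
  one_mem' := ⟨1, by simp⟩
  inv_mem' := by
    rintro a ⟨μ, h1⟩
    have h0 : μ ≠ 0 := by
      rintro rfl
      rw [zero_smul] at h1
      exact act_ne_zero a b₀_ne h1
    refine ⟨μ⁻¹, ?_⟩
    have h2 : act a⁻¹ (act a b₀) = b₀ := act_inv_act a b₀
    rw [h1, act_smul] at h2
    calc act a⁻¹ b₀ = μ⁻¹ • (μ • act a⁻¹ b₀) := by rw [smul_smul, inv_mul_cancel₀ h0, one_smul]
      _ = μ⁻¹ • b₀ := by rw [h2]

theorem mem_TT {s : ↥(SU 6 K 2)} : s ∈ (TT : Subgroup ↥(SU 6 K 2)) ↔ ∃ μ : K, act s b₀ = μ • b₀ := Iff.rfl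

theorem ne_zero_of_act {s : ↥(SU 6 K 2)} {μ : K} (h : act s b₀ = μ • b₀) : μ ≠ 0 := by
  rintro rfl
  rw [zero_smul] at h
  exact act_ne_zero s b₀_ne h

/-- The stabilizer preserves the perpendicular space of `b₀`. -/
theorem perp_of_TT {s : ↥(SU 6 K 2)} (hs : s ∈ (TT : Subgroup ↥(SU 6 K 2))) {x : Fin 6 → K} (hx : B x b₀ = 0) :
    B (act s x) b₀ = 0 := by
  obtain ⟨μ, h⟩ := hs
  have h0 := ne_zero_of_act h
  have h1 : B (act s x) (act s b₀) = 0 := by rw [form_act, hx]
  rw [h, B_smul_right] at h1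
  exact (mul_eq_zero.1 h1).resolve_left (pow_ne_zero 2 h0)

/-- The lower block. -/
noncomputable def blk (s : ↥(SU 6 K 2)) : Matrix (Fin 4) (Fin 4) K :=
  Matrix.of fun i j => low (act s (hat (Pi.single j 1))) i

theorem hat_expand (w : Fin 4 → K) : hat w = w 0 • hat (Pi.single 0 1) + w 1 • hat (Pi.single 1 1) + w 2 • hat (Pi.single 2 1) + w 3 • hat (Pi.single 3 1) := by
  funext i
  fin_cases i <;> simp [hat, Pi.single_apply]

theorem blk_mulVec (s : ↥(SU 6 K 2)) (w : Fin 4 → K) : blk s *ᵥ w = low (act s (hat w)) := by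
  conv_rhs => rw [hat_expand w]
  simp only [act_add, act_smul, low_add, low_smul]
  funext i
  simp only [Matrix.mulVec, dotProduct, Fin.sum_univ_four, blk, Matrix.of_apply, Pi.add_apply, Pi.smul_apply, smul_eq_mul]
  ring

theorem blk_one : blk (1 : ↥(SU 6 K 2)) = 1 := by
  apply Matrix.ext_of_mulVec_single
  intro i
  rw [blk_mulVec, act_one, low_hat, Matrix.one_mulVec]

/-- Acting on the perpendicular space modulo `b₀`. -/
theorem low_act_of_perp {s : ↥(SU 6 K 2)} (hs : s ∈ (TT : Subgroup ↥(SU 6 K 2))) {x : Fin 6 → K} (hx : B x b₀ = 0) :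
    low (act s x) = blk s *ᵥ low x := by
  obtain ⟨μ, h⟩ := hs
  conv_lhs => rw [perp_decomp hx]
  rw [act_add, act_smul, h, low_add, low_smul, low_smul, low_b₀, blk_mulVec]
  simp

theorem blk_mul {s t : ↥(SU 6 K 2)} (hs : s ∈ (TT : Subgroup ↥(SU 6 K 2))) (ht : t ∈ (TT : Subgroup ↥(SU 6 K 2))) :
    blk (s * t) = blk s * blk t := by
  apply Matrix.ext_of_mulVec_single
  intro i
  rw [blk_mulVec, act_mul, low_act_of_perp hs (perp_of_TT ht (B_hat_b₀ _)), ← blk_mulVec, Matrix.mulVec_mulVec]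

theorem blk_form {s : ↥(SU 6 K 2)} (hs : s ∈ (TT : Subgroup ↥(SU 6 K 2))) (u v : Fin 4 → K) :
    B₄ (blk s *ᵥ u) (blk s *ᵥ v) = B₄ u v := by
  rw [blk_mulVec, blk_mulVec, ← B_low (perp_of_TT hs (B_hat_b₀ _)) (perp_of_TT hs (B_hat_b₀ _)), form_act, B_hat_hat]

theorem det_blk_ne {s : ↥(SU 6 K 2)} (hs : s ∈ (TT : Subgroup ↥(SU 6 K 2))) : (blk s).det ≠ 0 := by
  have h1 : blk s * blk s⁻¹ = 1 := by
    rw [← blk_mul hs (Subgroup.inv_mem _ hs), mul_inv_cancel, blk_one]
  intro h0
  have h2 := congrArg Matrix.det h1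
  rw [Matrix.det_mul, h0, zero_mul, Matrix.det_one] at h2
  exact zero_ne_one h2

theorem cube_inv {c : K} (hc : c ≠ 0) : c⁻¹ * (c⁻¹) ^ 2 = c⁻¹ ^ 3 := by ring

omit hK [Fintype K] in
theorem B₄_smul_both (c : K) (u v : Fin 4 → K) : B₄ (c • u) (c • v) = c ^ 3 * B₄ u v := by
  simp only [hermForm, Finset.mul_sum, Pi.smul_apply, smul_eq_mul]
  exact Finset.sum_congr rfl fun _ _ => by ring

/-- The normalized lower block. -/
noncomputable def nb (s : ↥(SU 6 K 2)) : Matrix (Fin 4) (Fin 4) K := ((blk s).det)⁻¹ • blk s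

theorem nb_det {s : ↥(SU 6 K 2)} (hs : s ∈ (TT : Subgroup ↥(SU 6 K 2))) : (nb s).det = 1 := by
  have h0 := det_blk_ne hs
  have h3 := cube _ h0
  rw [nb, Matrix.det_smul, Fintype.card_fin]
  set δ := (blk s).det with hδ
  have : δ⁻¹ ^ 4 * δ = (δ ^ 3)⁻¹ := by
    field_simp
  rw [this, h3, inv_one]

theorem nb_form {s : ↥(SU 6 K 2)} (hs : s ∈ (TT : Subgroup ↥(SU 6 K 2))) (u v : Fin 4 → K) :
    B₄ (nb s *ᵥ u) (nb s *ᵥ v) = B₄ u v := by
  have h0 := det_blk_ne hs
  have h3 := cube _ (inv_ne_zero h0)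
  rw [nb, Matrix.smul_mulVec, Matrix.smul_mulVec, B₄_smul_both, h3, one_mul, blk_form hs]

/-- The homomorphism to `SU₄(2)`. -/
noncomputable def theta : (TT : Subgroup ↥(SU 6 K 2)) →* ↥(SU 4 K 2) where
  toFun s := ⟨⟨nb s.1, nb_det s.2⟩, fun u v => nb_form s.2 u v⟩
  map_one' := by
    apply Subtype.ext
    apply Subtype.ext
    show nb (1 : ↥(SU 6 K 2)) = 1
    simp [nb, blk_one]
  map_mul' := by
    intro s t
    apply Subtype.ext
    apply Subtype.ext
    show nb (s.1 * t.1) = nb s.1 * nb t.1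
    rw [nb, nb, nb, blk_mul s.2 t.2, Matrix.det_mul, Matrix.smul_mul, Matrix.mul_smul, smul_smul, mul_inv]

theorem theta_coe (s : (TT : Subgroup ↥(SU 6 K 2))) :
    ((theta s : ↥(SU 4 K 2)).1.1 : Matrix (Fin 4) (Fin 4) K) = nb s.1 := rfl

/-- Scalars are in the kernel. -/
theorem theta_scal {s : ↥(SU 6 K 2)} (hs : s ∈ (TT : Subgroup ↥(SU 6 K 2))) {l : K} (hl : ∀ x, act s x = l • x) (h0 : l ≠ 0) :
    theta ⟨s, hs⟩ = 1 := by
  apply Subtype.ext
  apply Subtype.ext
  show nb s = 1
  have hb : blk s = l • 1 := by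
    apply Matrix.ext_of_mulVec_single
    intro i
    rw [blk_mulVec, hl, low_smul, low_hat, Matrix.smul_mulVec, Matrix.one_mulVec]
  have h4 := pow_four l
  rw [nb, hb, Matrix.det_smul, Matrix.det_one, mul_one, Fintype.card_fin, h4, smul_smul, inv_mul_cancel₀ h0, one_smul]

/-- Transvections of isotropic vectors perpendicular to `b₀`. -/
theorem tv_mem_TT {x : Fin 6 → K} (hx : B x x = 0) (hp : B x b₀ = 0) : tv x ∈ (TT : Subgroup ↥(SU 6 K 2)) := by
  refine ⟨1, ?_⟩
  rw [act_tv hx, B_zero_symm hp, zero_smul, add_zero, one_smul]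

omit hK in
theorem det_transv₄ [Fact (Fintype.card K = 4)] (v : Fin 4 → K) (h : B₄ v v = 0) :
    (unitaryTransvection 4 2 v (1 : K)).det = 1 := by
  unfold unitaryTransvection
  rw [one_smul, Matrix.vecMulVec_eq (ι := Unit), Matrix.det_one_add_replicateCol_mul_replicateRow]
  have : (fun j => v j ^ 2) ⬝ᵥ v = B₄ v v := by
    simp only [dotProduct, hermForm]
    exact Finset.sum_congr rfl fun _ _ => mul_comm _ _
  rw [this, h, add_zero]

theorem blk_tv {x : Fin 6 → K} (hx : B x x = 0) (hp : B x b₀ = 0) : blk (tv x) = unitaryTransvection 4 2 (low x) (1 : K) := by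
  apply Matrix.ext_of_mulVec_single
  intro i
  rw [blk_mulVec, act_tv hx, low_add, low_smul, low_hat, Cfsg.Agent.Lib.Classical.HermTransv.transv_mulVec, one_mul,
    B_low (B_hat_b₀ _) hp, low_hat]

theorem B₄_low_self {x : Fin 6 → K} (hx : B x x = 0) (hp : B x b₀ = 0) : B₄ (low x) (low x) = 0 := by
  rw [← B_low hp hp, hx]

/-- The image of a transvection. -/
theorem theta_tv {x : Fin 6 → K} (hx : B x x = 0) (hp : B x b₀ = 0) :
    ((theta ⟨tv x, tv_mem_TT hx hp⟩ : ↥(SU 4 K 2)).1.1 : Matrix (Fin 4) (Fin 4) K) = unitaryTransvection 4 2 (low x) (1 : K) := by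
  rw [theta_coe, nb, blk_tv hx hp, det_transv₄ _ (B₄_low_self hx hp), inv_one, one_smul]

end stabilizer

section trivial

/-- Elements of `SU₆(2)` trivial on the perpendicular space of `b₀`. -/
theorem eq_of_trivial_perp {s : ↥(SU 6 K 2)} (h : ∀ x, B x b₀ = 0 → act s x = x) : s = 1 ∨ s = tv b₀ := by
  have h2z := two_zero (K := K)
  set q : Fin 6 → K := ![1, 0, 0, 0, 0, 0] with hq
  have hqb : B q b₀ = 1 := by
    rw [B_b₀_eq]; simp [hq]
  have hbq : B b₀ q = 1 := by
    rw [B_symm, hqb, one_pow]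
  set r : Fin 6 → K := act s q + q with hr
  have hsq : act s q = q + r := by
    rw [hr, add_comm (act s q) q, ← add_assoc, vec_add_self, zero_add]
  have hrp : ∀ y, B y b₀ = 0 → B r y = 0 := by
    intro y hy
    have h1 : B (act s q) (act s y) = B q y := form_act s q y
    rw [h y hy, hsq, B_add_left] at h1
    have : B r y = B q y + (B q y + B r y) := by
      linear_combination (-(B q y)) * h2z
    rw [this, h1]
    linear_combination (B q y) * h2z
  have hr2 : r 2 = 0 := by
    have := hrp ![0, 0, 1, 0, 0, 0] (by rw [B_b₀_eq]; simp)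
    rw [B_vec] at this
    simpa using this
  have hr3 : r 3 = 0 := by
    have := hrp ![0, 0, 0, 1, 0, 0] (by rw [B_b₀_eq]; simp)
    rw [B_vec] at this
    simpa using this
  have hr4 : r 4 = 0 := by
    have := hrp ![0, 0, 0, 0, 1, 0] (by rw [B_b₀_eq]; simp)
    rw [B_vec] at this
    simpa using this
  have hr5 : r 5 = 0 := by
    have := hrp ![0, 0, 0, 0, 0, 1] (by rw [B_b₀_eq]; simp)
    rw [B_vec] at this
    simpa using this
  have hr01 : r 0 + r 1 = 0 := by
    have := hrp b₀ B_b₀_b₀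
    rw [B_b₀_eq] at this
    exact this
  set c := r 0 with hc
  have hr1 : r 1 = c := (eq_of_add_zero hr01).symm
  have hrc : r = c • b₀ := by
    funext i
    fin_cases i <;> simp [b₀, hr1, hr2, hr3, hr4, hr5, hc]
  have hform : B (act s q) (act s q) = B q q := form_act s q q
  rw [hsq, hrc] at hform
  simp only [B_add_left, B_add_right, B_smul_left, B_smul_right, hqb, hbq, B_b₀_b₀, mul_zero, add_zero] at hform
  have hcc : c ^ 2 + c = 0 := by
    linear_combination hform
  have hcases : c = 0 ∨ c = 1 := by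
    have : c * (c + 1) = 0 := by linear_combination hcc
    rcases mul_eq_zero.1 this with h0 | h0
    · exact Or.inl h0
    · exact Or.inr (eq_of_add_zero h0)
  have hact : ∀ x, act s x = x + (c * B x b₀) • b₀ := by
    intro x
    set y : Fin 6 → K := x + B x b₀ • q with hy
    have hyp : B y b₀ = 0 := by
      rw [hy, B_add_left, B_smul_left, hqb, mul_one]
      linear_combination (B x b₀) * h2z
    have hx : x = B x b₀ • q + y := by
      rw [hy, add_comm x, ← add_assoc, char_two_smul, zero_add]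
    calc act s x = act s (B x b₀ • q + y) := by rw [← hx]
      _ = B x b₀ • act s q + act s y := by rw [act_add, act_smul]
      _ = B x b₀ • (q + c • b₀) + y := by rw [h y hyp, hsq, hrc]
      _ = (B x b₀ • q + y) + (c * B x b₀) • b₀ := by
        rw [smul_add, smul_smul, mul_comm (B x b₀) c]
        abel
      _ = x + (c * B x b₀) • b₀ := by rw [← hx]
  rcases hcases with h0 | h1
  · left
    apply ext_act
    intro x
    rw [hact, h0, act_one]
    simp
  · right
    apply ext_act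
    intro x
    rw [hact, h1, act_tv B_b₀_b₀, one_mul]

end trivial

end Cfsg.Agent.Lib.ThreeT.M22
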