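import Cfsg.Agent.Lib.ThreeT.M22s

/-!
# Groups of type M(22): the joint centralizer of two commuting members

`Kt a u` maps onto `SU₄(2)`; the kernel has order `2¹⁰`.
-/

set_option autoImplicit false
set_option linter.unusedSectionVars false
set_option linter.unusedVariables false
set_option linter.style.longLine false
set_option linter.unusedSimpArgs false
set_option linter.unnecessarySimpa false
set_option linter.style.haveILetI false

namespace Cfsg.Agent.Lib.ThreeT.M22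

open Cfsg Cfsg.Agent.Lib.ThreeT.Basic Cfsg.Agent.Lib.ThreeT.Class Cfsg.Agent.Lib.ThreeT.Relations
open Cfsg.Agent.Lib.ThreeT.Rank3 Cfsg.Agent.Lib.ThreeT.Descent Cfsg.Agent.Lib.ThreeT.NoSix
open Cfsg.Agent.Lib.ThreeT.U6Lift Cfsg.Agent.Lib.ThreeT.U6Geo
open Matrix

variable {G : Type*} [Group G] {D : Set G}
variable {K : Type*} [Field K] [Fintype K] [hK : Fact (Fintype.card K = 4)]

/-- The form. -/
local notation "B" => hermForm 6 K 2
/-- The form in dimension four. -/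
local notation "B₄" => hermForm 4 K 2

/-- The joint centralizer. -/
def Kt (a u : G) : Subgroup G := Subgroup.centralizer ({a, u} : Set G)

omit [Fintype K] hK in
theorem mem_Kt {a u x : G} : x ∈ Kt a u ↔ Commute x a ∧ Commute x u := by
  constructor
  · intro h
    have h1 := Subgroup.mem_centralizer_iff.1 h
    exact ⟨(h1 a (by simp)).symm, (h1 u (by simp)).symm⟩
  · rintro ⟨h1, h2⟩
    refine Subgroup.mem_centralizer_iff.2 ?_
    intro g hg
    rcases hg with rfl | rfl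
    · exact h1.symm
    · exact h2.symm

/-- The data of a pair of commuting members, with coordinates at the first in which the second is `b₀`. -/
structure Pt (D : Set G) (a u : G) (K : Type*) [Field K] [Fintype K] [Fact (Fintype.card K = 4)] where
  hG : IsThreeTranspositionGroup D
  hp : IsPrimitiveUnderConj D
  h22 : IsOfTypeM22 G D
  data : ∀ d ∈ D, Nonempty (U6Data D d K)
  ha : a ∈ D
  U : U6Data D a K
  hu : u ∈ Da D a
  hb : U.vec u = b₀

namespace Pt

variable {a u : G} (P : Pt D a u K)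

include P

theorem comm_au : Commute a u := P.hu.2.2

theorem a_mem : a ∈ Kt a u := mem_Kt.2 ⟨Commute.refl a, P.comm_au⟩

theorem u_mem : u ∈ Kt a u := mem_Kt.2 ⟨P.comm_au.symm, Commute.refl u⟩

/-- Members commuting with both. -/
theorem mem_of_perp {v : G} (hv : v ∈ Da D a) (hp : B (P.U.vec v) b₀ = 0) : v ∈ Kt a u := by
  refine mem_Kt.2 ⟨hv.2.2.symm, ?_⟩
  rw [← P.hb] at hp
  exact (P.U.comm v hv u P.hu).2 hp

theorem perp_of_mem {v : G} (hv : v ∈ Da D a) (h : Commute v u) : B (P.U.vec v) b₀ = 0 := by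
  rw [← P.hb]
  exact (P.U.comm v hv u P.hu).1 h

variable [Fintype G]

/-- Elements of `Kt` lie in `⟨D_a⟩`. -/
theorem mem_closure {x : G} (hx : Commute x a) : x ∈ Subgroup.closure (Da D a) := by
  have := (centralizer_main P.hG P.hp P.h22 P.data P.ha).2 x
  apply this.1
  rw [mem_Cn]
  simpa using hx

/-- Lifts. -/
theorem exists_lift {x : G} (hx : x ∈ Kt a u) : ∃ s : ↥(SU 6 K 2), s ∈ (TT : Subgroup ↥(SU 6 K 2)) ∧ ActsAs P.U x s := by
  obtain ⟨h1, h2⟩ := mem_Kt.1 hx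
  obtain ⟨s, hs⟩ := P.U.exists_su P.hG (P.mem_closure h1)
  refine ⟨s, ?_, hs⟩
  obtain ⟨-, c, hc, e⟩ := hs u P.hu
  have e1 : x * u * x⁻¹ = u := by rw [h2.eq]; group
  rw [e1, P.hb] at e
  refine ⟨c⁻¹, ?_⟩
  calc act s b₀ = c⁻¹ • (c • act s b₀) := by rw [smul_smul, inv_mul_cancel₀ hc, one_smul]
    _ = c⁻¹ • b₀ := by rw [← e]

/-- Two lifts of the same element differ by a scalar. -/
theorem lift_scal {x : G} (hx : Commute x a) {s s' : ↥(SU 6 K 2)} (h : ActsAs P.U x s) (h' : ActsAs P.U x s') :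
    ∃ l : K, l ≠ 0 ∧ ∀ y, act (s'⁻¹ * s) y = l • y := by
  have h1 := (h'.inv P.hG hx).mul h
  rw [inv_mul_cancel] at h1
  exact h1.scal_of_trivial (fun v _ => Commute.one_left v)

theorem theta_eq_of_lifts {x : G} (hx : Commute x a) {s s' : ↥(SU 6 K 2)} (hs : s ∈ (TT : Subgroup ↥(SU 6 K 2))) (hs' : s' ∈ (TT : Subgroup ↥(SU 6 K 2)))
    (h : ActsAs P.U x s) (h' : ActsAs P.U x s') : theta ⟨s, hs⟩ = theta ⟨s', hs'⟩ := by
  obtain ⟨l, hl, e⟩ := P.lift_scal hx h h'
  have h1 := theta_scal (Subgroup.mul_mem _ (Subgroup.inv_mem _ hs') hs) e hl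
  have h2 : (⟨s'⁻¹ * s, Subgroup.mul_mem _ (Subgroup.inv_mem _ hs') hs⟩ : (TT : Subgroup ↥(SU 6 K 2))) = (⟨s', hs'⟩ : (TT : Subgroup ↥(SU 6 K 2)))⁻¹ * ⟨s, hs⟩ := rfl
  rw [h2, map_mul, map_inv] at h1
  exact (inv_mul_eq_one.1 h1).symm

omit P in
/-- A chosen lift. -/
noncomputable def lft {a u : G} (P : Pt D a u K) (x : Kt a u) : ↥(SU 6 K 2) := (P.exists_lift x.2).choose

theorem lft_mem (x : Kt a u) : P.lft x ∈ (TT : Subgroup ↥(SU 6 K 2)) := (P.exists_lift x.2).choose_spec.1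

theorem lft_acts (x : Kt a u) : ActsAs P.U x.1 (P.lft x) := (P.exists_lift x.2).choose_spec.2

omit P in
/-- **The map onto `SU₄(2)`.** -/
noncomputable def vt {a u : G} (P : Pt D a u K) : Kt a u →* ↥(SU 4 K 2) where
  toFun x := theta ⟨P.lft x, P.lft_mem x⟩
  map_one' := by
    have h1 := P.theta_eq_of_lifts (x := 1) (Commute.one_left a) (P.lft_mem 1) (Subgroup.one_mem _) (P.lft_acts 1) (ActsAs.one P.U)
    rw [h1]
    exact map_one theta
  map_mul' := by
    intro x y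
    have hxy := (P.lft_acts x).mul (P.lft_acts y)
    have h1 := P.theta_eq_of_lifts (x := x.1 * y.1) (mem_Kt.1 (x * y).2).1 (P.lft_mem (x * y))
      (Subgroup.mul_mem _ (P.lft_mem x) (P.lft_mem y)) (P.lft_acts (x * y)) hxy
    rw [h1, ← map_mul]
    rfl

theorem vt_of_lift {x : Kt a u} {s : ↥(SU 6 K 2)} (hs : s ∈ (TT : Subgroup ↥(SU 6 K 2))) (h : ActsAs P.U x.1 s) :
    P.vt x = theta ⟨s, hs⟩ :=
  P.theta_eq_of_lifts (mem_Kt.1 x.2).1 (P.lft_mem x) hs (P.lft_acts x) h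

/-- The image of a member. -/
theorem vt_gen {v : G} (hv : v ∈ Da D a) (hk : v ∈ Kt a u) :
    (((P.vt ⟨v, hk⟩ : ↥(SU 4 K 2)).1.1 : Matrix (Fin 4) (Fin 4) K)) = unitaryTransvection 4 2 (low (P.U.vec v)) (1 : K) := by
  have hp := P.perp_of_mem hv (mem_Kt.1 hk).2
  have hi := P.U.iso v hv
  rw [P.vt_of_lift (x := ⟨v, hk⟩) (tv_mem_TT hi hp) (ActsAs.gen P.hG P.U hv)]
  exact theta_tv hi hp

omit P in
/-- The transvections of a vector and its multiples agree. -/
theorem transv_smul {c : K} (hc : c ≠ 0) (v : Fin 4 → K) :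
    unitaryTransvection 4 2 (c • v) (1 : K) = unitaryTransvection 4 2 v (1 : K) := by
  unfold unitaryTransvection
  congr 2
  ext i j
  simp only [Matrix.vecMulVec_apply, Pi.smul_apply, smul_eq_mul]
  have h3 := cube c hc
  calc c * v i * (c * v j) ^ 2 = c ^ 3 * (v i * v j ^ 2) := by ring
    _ = v i * v j ^ 2 := by rw [h3, one_mul]

/-- `vt` is onto. -/
theorem vt_surj : Function.Surjective P.vt := by
  have hF : Fintype.card K = 2 ^ 2 := by rw [hK.out]; norm_num
  have h1 := Cfsg.Agent.Lib.Classical.HermTransv.closure_transv_SU hF 4 (by norm_num) (by norm_num)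
  rw [← MonoidHom.range_eq_top, eq_top_iff, ← h1, Subgroup.closure_le]
  rintro A ⟨v, c, hv, hA⟩
  by_cases hv0 : v = 0
  · have : A = 1 := by
      apply Subtype.ext
      apply Subtype.ext
      show ((A : Matrix.SpecialLinearGroup (Fin 4) K) : Matrix (Fin 4) (Fin 4) K) = 1
      rw [hA, hv0]
      unfold unitaryTransvection
      ext i j
      simp [Matrix.vecMulVec_apply]
    rw [this]
    exact Subgroup.one_mem _
  have hiso : ∀ x y : Fin 4 → K, B₄ (unitaryTransvection 4 2 v c *ᵥ x) (unitaryTransvection 4 2 v c *ᵥ y) = B₄ x y := by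
    intro x y
    rw [← hA]
    exact A.2 x y
  have hc := (Cfsg.Agent.Lib.Classical.HermTransv.transv_isometry_iff hF 4 v hv0 hv c).1 hiso
  have hc' : c = 0 ∨ c = 1 := by
    rcases hc with h | h
    · exact Or.inl h
    · right
      have h2 : c = -1 := by simpa using h
      rw [h2, neg_self]
  rcases hc' with rfl | rfl
  · have : A = 1 := by
      apply Subtype.ext
      apply Subtype.ext
      show ((A : Matrix.SpecialLinearGroup (Fin 4) K) : Matrix (Fin 4) (Fin 4) K) = 1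
      rw [hA]
      unfold unitaryTransvection
      simp
    rw [this]
    exact Subgroup.one_mem _
  have hh : B (hat v) (hat v) = 0 := by rw [B_hat_hat, hv]
  have hh0 : hat v ≠ 0 := by
    intro h
    apply hv0
    have := congrArg low h
    rw [low_hat] at this
    rw [this]
    funext i
    fin_cases i <;> rfl
  obtain ⟨w, hw, d, hd, e⟩ := P.U.ex (hat v) hh hh0
  have hp : B (P.U.vec w) b₀ = 0 := by
    rw [e, B_smul_left, B_hat_b₀, mul_zero]
  have hk := P.mem_of_perp hw hp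
  refine ⟨⟨w, hk⟩, ?_⟩
  apply Subtype.ext
  apply Subtype.ext
  show (((P.vt ⟨w, hk⟩ : ↥(SU 4 K 2)).1.1 : Matrix (Fin 4) (Fin 4) K)) = ((A : Matrix.SpecialLinearGroup (Fin 4) K) : Matrix (Fin 4) (Fin 4) K)
  rw [P.vt_gen hw hk, e, low_smul, low_hat, transv_smul hd, hA]

omit P in
/-- The order of `SU₄(2)`. -/
theorem card_SU₄ : Nat.card ↥(SU 4 K 2) = 25920 := by
  have hF : Fintype.card K = 2 ^ 2 := by rw [hK.out]; norm_num
  have h3 := Cfsg.Agent.Lib.Classical.HermOrders.card_SU hF 4 (by norm_num)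
  have e1 : (2 ^ (4 * (4 - 1) / 2) * ∏ i ∈ Finset.range 4,
      (if Even i then 2 ^ (i + 1) + 1 else 2 ^ (i + 1) - 1) : ℕ) = 77760 := by decide +kernel
  rw [e1] at h3
  omega

omit P in
/-- The centre of `SU₄(2)` is trivial. -/
theorem center_SU₄ : Subgroup.center ↥(SU 4 K 2) = ⊥ := by
  have hF : Fintype.card K = 2 ^ 2 := by rw [hK.out]; norm_num
  have h3 := Cfsg.Agent.S0279.result hF 4 (by norm_num)
  have e2 : Nat.gcd 4 (2 + 1) = 1 := by norm_num
  rw [e2] at h3
  exact Subgroup.eq_bot_of_card_eq _ h3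

omit P in
/-- `SU₄(2)` and `PSU₄(2)`. -/
noncomputable def suPsu : ↥(SU 4 K 2) ≃* PSU 4 K 2 :=
  MulEquiv.ofBijective (QuotientGroup.mk' (Subgroup.center ↥(SU 4 K 2))) ⟨by
    rw [← MonoidHom.ker_eq_bot_iff, QuotientGroup.ker_mk', center_SU₄], QuotientGroup.mk'_surjective _⟩

omit P in
/-- `SU₄(2)` is simple. -/
theorem simple_SU₄ : IsSimpleGroup ↥(SU 4 K 2) := by
  have hF : Fintype.card K = 2 ^ 2 := by rw [hK.out]; norm_num
  haveI := Cfsg.Agent.Lib.Classical.HermBridge.isSimpleGroup_PSU hF 4 (by norm_num) (by norm_num)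
  exact (suPsu (K := K)).isSimpleGroup

/-- The order of `Kt`. -/
theorem card_Kt : Nat.card (Kt a u) = 26542080 := by
  have h1 := card_Cn_near P.hG P.hp P.h22 P.data P.ha P.hu
  rw [← h1, ← card_CnG]
  apply Nat.card_congr
  apply Equiv.subtypeEquivRight
  intro x
  rw [mem_Kt, mem_CnG]
  simp [and_comm]

/-- The order of the kernel. -/
theorem card_ker : Nat.card P.vt.ker = 1024 := by
  have h1 := Subgroup.card_eq_card_quotient_mul_card_subgroup P.vt.ker
  rw [P.card_Kt, Nat.card_congr (QuotientGroup.quotientKerEquivOfSurjective P.vt P.vt_surj).toEquiv, card_SU₄] at h1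
  omega

end Pt

section unip

/-- The elements acting trivially on `⟨b₀⟩` and on its perpendicular space modulo `b₀`. -/
def Un (s : ↥(SU 6 K 2)) : Prop := act s b₀ = b₀ ∧ ∀ y, B y b₀ = 0 → low (act s y) = low y

/-- The translation part. -/
noncomputable def ff (s : ↥(SU 6 K 2)) (y : Fin 6 → K) : K := (act s y) 0 + y 0

theorem Un.mem {s : ↥(SU 6 K 2)} (h : Un s) : s ∈ (TT : Subgroup ↥(SU 6 K 2)) := ⟨1, by rw [h.1, one_smul]⟩

theorem Un.act_perp {s : ↥(SU 6 K 2)} (h : Un s) {y : Fin 6 → K} (hy : B y b₀ = 0) : act s y = y + ff s y • b₀ := by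
  have h1 := perp_of_TT h.mem hy
  have e1 := perp_decomp h1
  have e2 := perp_decomp hy
  rw [h.2 y hy] at e1
  have h2z := two_zero (K := K)
  calc act s y = (act s y) 0 • b₀ + hat (low y) := e1
    _ = (y 0 • b₀ + hat (low y)) + ((act s y) 0 + y 0) • b₀ := by
      rw [add_smul]
      have : y 0 • (b₀ : Fin 6 → K) + y 0 • b₀ = 0 := char_two_smul _ _
      calc (act s y) 0 • b₀ + hat (low y) = (y 0 • b₀ + y 0 • b₀) + ((act s y) 0 • b₀ + hat (low y)) := by rw [this, zero_add]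
        _ = _ := by abel
    _ = y + ff s y • b₀ := by rw [← e2]; rfl

theorem Un.one : Un (1 : ↥(SU 6 K 2)) := ⟨by simp, fun y _ => by simp⟩

theorem Un.mul {s t : ↥(SU 6 K 2)} (hs : Un s) (ht : Un t) : Un (s * t) := by
  refine ⟨by rw [act_mul, ht.1, hs.1], fun y hy => ?_⟩
  rw [act_mul, hs.2 _ (perp_of_TT ht.mem hy), ht.2 y hy]

theorem ff_mul {s t : ↥(SU 6 K 2)} (hs : Un s) (ht : Un t) {y : Fin 6 → K} (hy : B y b₀ = 0) :
    ff (s * t) y = ff s y + ff t y := by
  have h2z := two_zero (K := K)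
  have e1 : act (s * t) y = y + (ff s y + ff t y) • b₀ := by
    rw [act_mul, ht.act_perp hy, act_add, act_smul, hs.1, hs.act_perp hy, add_smul, add_assoc]
  have hb : (b₀ : Fin 6 → K) 0 = 1 := rfl
  rw [ff, e1]
  simp only [Pi.add_apply, Pi.smul_apply, hb, smul_eq_mul, mul_one]
  linear_combination (y 0) * h2z

theorem Un.inv {s : ↥(SU 6 K 2)} (h : Un s) : Un s⁻¹ := by
  refine ⟨?_, fun y hy => ?_⟩
  · have := act_inv_act s b₀
    rwa [h.1] at this
  · have h1 := perp_of_TT (Subgroup.inv_mem _ h.mem) hy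
    have h2 := h.2 _ h1
    rw [act_act_inv] at h2
    exact h2.symm

theorem ff_inv {s : ↥(SU 6 K 2)} (h : Un s) {y : Fin 6 → K} (hy : B y b₀ = 0) : ff s⁻¹ y = ff s y := by
  have h2z := two_zero (K := K)
  have h1 := ff_mul h h.inv hy
  rw [mul_inv_cancel] at h1
  have h0 : ff (1 : ↥(SU 6 K 2)) y = 0 := by
    rw [ff, act_one]
    linear_combination (y 0) * h2z
  rw [h0] at h1
  linear_combination (-1 : K) * h1 - (ff s y) * h2z

theorem ff_add (s : ↥(SU 6 K 2)) (x y : Fin 6 → K) : ff s (x + y) = ff s x + ff s y := by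
  simp only [ff, act_add, Pi.add_apply]
  ring

theorem ff_smul (s : ↥(SU 6 K 2)) (c : K) (x : Fin 6 → K) : ff s (c • x) = c * ff s x := by
  simp only [ff, act_smul, Pi.smul_apply, smul_eq_mul]
  ring

theorem ff_b₀ {s : ↥(SU 6 K 2)} (h : Un s) : ff s b₀ = 0 := by
  have h2z := two_zero (K := K)
  rw [ff, h.1]
  linear_combination ((b₀ : Fin 6 → K) 0) * h2z

/-- Elements with trivial translation part. -/
theorem Un.eq_of_ff {s : ↥(SU 6 K 2)} (h : Un s) (hf : ∀ y, B y b₀ = 0 → ff s y = 0) : s = 1 ∨ s = tv b₀ := by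
  apply eq_of_trivial_perp
  intro x hx
  rw [h.act_perp hx, hf x hx, zero_smul, add_zero]

theorem un_tv : Un (tv (b₀ : Fin 6 → K)) := by
  refine ⟨?_, fun y hy => ?_⟩
  · rw [act_tv B_b₀_b₀, B_b₀_b₀, zero_smul, add_zero]
  · rw [act_tv B_b₀_b₀, hy, zero_smul, add_zero]

theorem ff_tv {y : Fin 6 → K} (hy : B y b₀ = 0) : ff (tv (b₀ : Fin 6 → K)) y = 0 := by
  have h2z := two_zero (K := K)
  rw [ff, act_tv B_b₀_b₀, hy, zero_smul, add_zero]
  linear_combination (y 0) * h2z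

/-- Products of two transvections of a fibre. -/
theorem un_pair {w : Fin 4 → K} (hw : B₄ w w = 0) (l m : K) :
    Un (tv (hat w + l • b₀) * tv (hat w + m • b₀)) ∧
      ∀ y, B y b₀ = 0 → ff (tv (hat w + l • b₀) * tv (hat w + m • b₀)) y = B₄ (low y) w * (l + m) := by
  have h2z := two_zero (K := K)
  set x₁ : Fin 6 → K := hat w + l • b₀ with hx₁
  set x₂ : Fin 6 → K := hat w + m • b₀ with hx₂
  have p₁ : B x₁ b₀ = 0 := by
    rw [hx₁, B_add_left, B_hat_b₀, B_smul_left, B_b₀_b₀, mul_zero, add_zero]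
  have p₂ : B x₂ b₀ = 0 := by
    rw [hx₂, B_add_left, B_hat_b₀, B_smul_left, B_b₀_b₀, mul_zero, add_zero]
  have l₁ : low x₁ = w := by
    rw [hx₁, low_add, low_smul, low_hat, low_b₀, smul_zero, add_zero]
  have l₂ : low x₂ = w := by
    rw [hx₂, low_add, low_smul, low_hat, low_b₀, smul_zero, add_zero]
  have i₁ : B x₁ x₁ = 0 := by rw [B_low p₁ p₁, l₁, hw]
  have i₂ : B x₂ x₂ = 0 := by rw [B_low p₂ p₂, l₂, hw]
  have i₁₂ : B x₂ x₁ = 0 := by rw [B_low p₂ p₁, l₁, l₂, hw]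
  have key : ∀ y, B y b₀ = 0 → act (tv x₁ * tv x₂) y = y + (B₄ (low y) w * (l + m)) • b₀ := by
    intro y hy
    rw [act_mul, act_tv i₂, act_tv i₁, B_add_left, B_smul_left, i₁₂, mul_zero, add_zero,
      B_low hy p₁, B_low hy p₂, l₁, l₂, hx₁, hx₂, add_assoc]
    congr 1
    rw [smul_add, smul_add, smul_smul, smul_smul, mul_add, add_smul]
    calc B₄ (low y) w • hat w + (B₄ (low y) w * m) • (b₀ : Fin 6 → K) + (B₄ (low y) w • hat w + (B₄ (low y) w * l) • b₀)
        = (B₄ (low y) w • hat w + B₄ (low y) w • hat w) + ((B₄ (low y) w * l) • b₀ + (B₄ (low y) w * m) • b₀) := by abel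
      _ = _ := by rw [char_two_smul, zero_add]
  have hU : Un (tv x₁ * tv x₂) := by
    refine ⟨?_, fun y hy => ?_⟩
    · rw [act_mul, act_tv i₂, act_tv i₁, B_zero_symm p₂, zero_smul, add_zero, B_zero_symm p₁, zero_smul, add_zero]
    · rw [key y hy, low_add, low_smul, low_b₀, smul_zero, add_zero]
  refine ⟨hU, fun y hy => ?_⟩
  rw [ff, key y hy]
  have hb : (b₀ : Fin 6 → K) 0 = 1 := rfl
  simp only [Pi.add_apply, Pi.smul_apply, hb, smul_eq_mul, mul_one]
  linear_combination (y 0) * h2z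

end unip

namespace Pt

variable {a u : G} (P : Pt D a u K) [Fintype G]

/-- `x` has the lift `s` with translation part `f`. -/
def HasF (P : Pt D a u K) (x : G) (f : (Fin 6 → K) → K) : Prop :=
  ∃ s : ↥(SU 6 K 2), ActsAs P.U x s ∧ Un s ∧ ∀ y, B y b₀ = 0 → ff s y = f y

include P

omit [Fintype G] in
theorem HasF.mul {x x' : G} {f f' : (Fin 6 → K) → K} (h : P.HasF x f) (h' : P.HasF x' f') :
    P.HasF (x * x') (fun y => f y + f' y) := by
  obtain ⟨s, h1, h2, h3⟩ := h
  obtain ⟨s', h1', h2', h3'⟩ := h'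
  refine ⟨s * s', h1.mul h1', h2.mul h2', fun y hy => ?_⟩
  rw [ff_mul h2 h2' hy, h3 y hy, h3' y hy]

omit [Fintype G] in
theorem HasF.inv {x : G} {f : (Fin 6 → K) → K} (h : P.HasF x f) (hx : Commute x a) : P.HasF x⁻¹ f := by
  obtain ⟨s, h1, h2, h3⟩ := h
  refine ⟨s⁻¹, h1.inv P.hG hx, h2.inv, fun y hy => ?_⟩
  rw [ff_inv h2 hy, h3 y hy]

omit [Fintype G] in
theorem HasF.unique {x : G} {f f' : (Fin 6 → K) → K} (hx : Commute x a) (h : P.HasF x f) (h' : P.HasF x f') :
    ∀ y, B y b₀ = 0 → f y = f' y := by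
  obtain ⟨s, h1, h2, h3⟩ := h
  obtain ⟨s', h1', h2', h3'⟩ := h'
  intro y hy
  have h1'' := (h1'.inv P.hG hx).mul h1
  rw [inv_mul_cancel] at h1''
  obtain ⟨l, hl, e⟩ := h1''.scal_of_trivial (fun v _ => Commute.one_left v)
  have hU := h2'.inv.mul h2
  have hb := hU.1
  rw [e] at hb
  have hl1 : l = 1 := by
    have := congrFun hb 0
    simpa [b₀] using this
  have hss : s = s' := by
    have : s'⁻¹ * s = 1 := by
      apply ext_act
      intro x
      rw [e, hl1, one_smul, act_one]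
    exact (inv_mul_eq_one.1 this).symm
  rw [← h3 y hy, ← h3' y hy, hss]

theorem HasF.one : P.HasF 1 (fun _ => 0) := by
  have h2z := two_zero (K := K)
  refine ⟨1, ActsAs.one P.U, Un.one, fun y hy => ?_⟩
  rw [ff, act_one]
  linear_combination (y 0) * h2z

theorem HasF.of_a : P.HasF a (fun _ => 0) := by
  have h2z := two_zero (K := K)
  refine ⟨1, ?_, Un.one, fun y hy => ?_⟩
  · intro v hv
    have e : a * v * a⁻¹ = v := by rw [hv.2.2.eq]; group
    rw [e]
    exact ⟨hv, 1, one_ne_zero, by simp⟩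
  · rw [ff, act_one]
    linear_combination (y 0) * h2z

theorem HasF.of_u : P.HasF u (fun _ => 0) := by
  have h := ActsAs.gen P.hG P.U P.hu
  rw [P.hb] at h
  exact ⟨_, h, un_tv, fun y hy => ff_tv hy⟩

/-- The kernel of `vt` from lifts. -/
theorem HasF.vt_eq {x : Kt a u} {f : (Fin 6 → K) → K} (h : P.HasF x.1 f) : P.vt x = 1 := by
  obtain ⟨s, h1, h2, h3⟩ := h
  rw [P.vt_of_lift h2.mem h1]
  apply Subtype.ext
  apply Subtype.ext
  show nb s = 1
  have hb : blk s = 1 := by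
    apply Matrix.ext_of_mulVec_single
    intro i
    rw [blk_mulVec, h2.2 _ (B_hat_b₀ _), low_hat, Matrix.one_mulVec]
  rw [nb, hb]
  simp

/-- Elements with a trivial translation part. -/
theorem HasF.mem_V {x : G} {f : (Fin 6 → K) → K} (h : P.HasF x f) (hx : Commute x a) (hf : ∀ y, B y b₀ = 0 → f y = 0) :
    x = 1 ∨ x = a ∨ x = u ∨ x = a * u := by
  obtain ⟨s, h1, h2, h3⟩ := h
  have hw : ∃ a ∈ D, ∃ b ∈ D, a ≠ b ∧ Commute a b := ⟨a, P.ha, u, P.hu.1, P.hu.2.1.symm, P.hu.2.2⟩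
  have key : ∀ z : G, Commute z a → ActsAs P.U z 1 → z = 1 ∨ z = a := by
    intro z hza hz
    exact Cfsg.Agent.Lib.ThreeT.M24.eq_of_commute_all' P.hG P.hp hw P.h22.1 (Cfsg.Agent.Lib.ThreeT.M24.span_M22 P.hG P.hp P.h22 P.data) P.ha hza
      (hz.commute_of_scal (l := 1) (fun x => by simp))
  rcases h2.eq_of_ff (fun y hy => by rw [h3 y hy, hf y hy]) with rfl | rfl
  · rcases key x hx h1 with h | h
    · exact Or.inl h
    · exact Or.inr (Or.inl h)
  · have hg := ActsAs.gen P.hG P.U P.hu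
    rw [P.hb] at hg
    have h4 := h1.mul hg
    rw [tv_sq B_b₀_b₀] at h4
    have huu := mul_self_of_mem P.hG.1 P.hu.1
    rcases key (x * u) (hx.mul_left P.comm_au.symm) h4 with h | h
    · right; right; left
      calc x = x * u * u := by rw [mul_assoc, huu, mul_one]
        _ = u := by rw [h, one_mul]
    · right; right; right
      calc x = x * u * u := by rw [mul_assoc, huu, mul_one]
        _ = a * u := by rw [h]

theorem blk_pow_TT {s : ↥(SU 6 K 2)} (hs : s ∈ (TT : Subgroup ↥(SU 6 K 2))) (n : ℕ) : blk (s ^ n) = (blk s) ^ n := by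
  induction n with
  | zero => simp [blk_one]
  | succ n ih =>
    rw [pow_succ, pow_succ, blk_mul (Subgroup.pow_mem _ hs n) hs, ih]

omit P in
theorem act_pow_b₀ {s : ↥(SU 6 K 2)} {μ : K} (h : act s b₀ = μ • b₀) (n : ℕ) : act (s ^ n) b₀ = μ ^ n • b₀ := by
  induction n with
  | zero => simp
  | succ n ih =>
    rw [pow_succ, act_mul, h, act_smul, ih, smul_smul, pow_succ, mul_comm]

/-- Elements of the kernel have unipotent lifts. -/
theorem exists_HasF {x : Kt a u} (hx : P.vt x = 1) : ∃ f, P.HasF x.1 f := by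
  have hs₀ := P.lft_mem x
  have h₀ := P.lft_acts x
  set s₀ := P.lft x with hs₀d
  have hθ : theta ⟨s₀, hs₀⟩ = 1 := by
    rw [← P.vt_of_lift hs₀ h₀]
    exact hx
  have hn : nb s₀ = 1 := congrArg (fun t : ↥(SU 4 K 2) => ((t.1 : Matrix.SpecialLinearGroup (Fin 4) K) : Matrix (Fin 4) (Fin 4) K)) hθ
  have hδ := det_blk_ne hs₀
  set δ := (blk s₀).det with hδd
  have hb : blk s₀ = δ • 1 := by
    have : δ • nb s₀ = blk s₀ := by
      rw [nb, ← hδd, smul_smul, mul_inv_cancel₀ hδ, one_smul]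
    rw [← this, hn]
  obtain ⟨z, hz⟩ := exists_scal (inv_ne_zero hδ)
  have hzT : z ∈ (TT : Subgroup ↥(SU 6 K 2)) := ⟨δ⁻¹, hz b₀⟩
  have hz1 : ActsAs P.U 1 z := by
    intro v hv
    refine ⟨by simpa using hv, δ, hδ, ?_⟩
    rw [hz, smul_smul, mul_inv_cancel₀ hδ, one_smul]
    simp
  have h₁ : ActsAs P.U x.1 (z * s₀) := by
    have := hz1.mul h₀
    rwa [one_mul] at this
  have hs₁ : z * s₀ ∈ (TT : Subgroup ↥(SU 6 K 2)) := Subgroup.mul_mem _ hzT hs₀
  have hbz : blk z = δ⁻¹ • 1 := by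
    apply Matrix.ext_of_mulVec_single
    intro i
    rw [blk_mulVec, hz, low_smul, low_hat, Matrix.smul_mulVec, Matrix.one_mulVec]
  have hb₁ : blk (z * s₀) = 1 := by
    rw [blk_mul hzT hs₀, hbz, hb, Matrix.smul_mul, Matrix.one_mul, smul_smul, inv_mul_cancel₀ hδ, one_smul]
  obtain ⟨μ, hμ⟩ := hs₁
  have hμ0 := ne_zero_of_act hμ
  have hpow : x.1 ^ 1024 = 1 := by
    have h1 : (⟨x, hx⟩ : P.vt.ker) ^ 1024 = 1 := by
      have := pow_card_eq_one' (G := P.vt.ker) (x := ⟨x, hx⟩)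
      rwa [P.card_ker] at this
    have h2 := congrArg (fun t : P.vt.ker => ((t : Kt a u) : G)) h1
    simpa using h2
  have h₂ := h₁.pow 1024
  rw [hpow] at h₂
  obtain ⟨l, hl, e⟩ := h₂.scal_of_trivial (fun v _ => Commute.one_left v)
  have hbp := blk_pow_TT P (Subgroup.mul_mem _ hzT hs₀) 1024
  rw [hb₁, one_pow] at hbp
  have hl1 : l = 1 := by
    have h3 := blk_mulVec ((z * s₀) ^ 1024) (Pi.single 0 1)
    rw [hbp, Matrix.one_mulVec, e, low_smul, low_hat] at h3
    have h4 := congrFun h3 0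
    simpa using h4.symm
  have hμ1 : μ = 1 := by
    have h3 := act_pow_b₀ hμ 1024
    rw [e, hl1, one_smul] at h3
    have h4 : μ ^ 1024 = 1 := by
      have := congrFun h3 0
      simpa [b₀] using this.symm
    have h5 := cube μ hμ0
    calc μ = μ * (μ ^ 3) ^ 341 := by rw [h5, one_pow, mul_one]
      _ = μ ^ 1024 := by ring
      _ = 1 := h4
  have hU : Un (z * s₀) := by
    refine ⟨by rw [hμ, hμ1, one_smul], fun y hy => ?_⟩
    rw [low_act_of_perp (Subgroup.mul_mem _ hzT hs₀) hy, hb₁, Matrix.one_mulVec]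
  exact ⟨ff (z * s₀), z * s₀, h₁, hU, fun _ _ => rfl⟩

/-- The members of a fibre. -/
def Fb (P : Pt D a u K) (w : Fin 4 → K) (l : K) (v : G) : Prop :=
  v ∈ Da D a ∧ ∃ c : K, c ≠ 0 ∧ P.U.vec v = c • (hat w + l • b₀)

omit P [Fintype G] in
theorem B_fb (w : Fin 4 → K) (l : K) : B (hat w + l • b₀) b₀ = 0 := by
  rw [B_add_left, B_hat_b₀, B_smul_left, B_b₀_b₀, mul_zero, add_zero]

omit P [Fintype G] in
theorem low_fb (w : Fin 4 → K) (l : K) : low (hat w + l • b₀) = w := by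
  rw [low_add, low_smul, low_hat, low_b₀, smul_zero, add_zero]

omit P [Fintype G] in
theorem B_self_fb {w : Fin 4 → K} (hw : B₄ w w = 0) (l : K) : B (hat w + l • b₀) (hat w + l • b₀) = 0 := by
  rw [B_low (B_fb w l) (B_fb w l), low_fb, hw]

omit [Fintype G] in
theorem exists_fb {w : Fin 4 → K} (hw : B₄ w w = 0) (hw0 : w ≠ 0) (l : K) : ∃ v, P.Fb w l v := by
  have h0 : hat w + l • b₀ ≠ 0 := by
    intro h
    have := congrArg low h
    rw [low_fb] at this
    apply hw0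
    rw [this]
    funext i
    fin_cases i <;> rfl
  obtain ⟨v, hv, c, hc, e⟩ := P.U.ex _ (B_self_fb hw l) h0
  exact ⟨v, hv, c, hc, e⟩

omit [Fintype G] in
theorem Fb.unique {w : Fin 4 → K} {l : K} {v v' : G} (h : P.Fb w l v) (h' : P.Fb w l v') : v = v' := by
  obtain ⟨h1, c, hc, e⟩ := h
  obtain ⟨h2, c', hc', e'⟩ := h'
  apply P.U.eq_of v' h2 v h1 (c * c'⁻¹)
  rw [e, e', smul_smul, mul_assoc, inv_mul_cancel₀ hc', mul_one]

omit [Fintype G] in
theorem Fb.eq_l {w : Fin 4 → K} {l l' : K} {v : G} (hw0 : w ≠ 0) (h : P.Fb w l v) (h' : P.Fb w l' v) : l = l' := by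
  obtain ⟨h1, c, hc, e⟩ := h
  obtain ⟨h2, c', hc', e'⟩ := h'
  rw [e] at e'
  have h3 := congrArg low e'
  rw [low_smul, low_smul, low_fb, low_fb] at h3
  obtain ⟨i, hi⟩ := Function.ne_iff.1 hw0
  have h4 : c = c' := by
    have := congrFun h3 i
    simp only [Pi.smul_apply, smul_eq_mul] at this
    exact mul_right_cancel₀ hi this
  rw [← h4] at e'
  have h5 := smul_right_injective _ hc e'
  have h6 := congrFun h5 0
  simpa [hat, b₀] using h6

omit [Fintype G] in
theorem Fb.perp {w : Fin 4 → K} {l : K} {v : G} (h : P.Fb w l v) : B (P.U.vec v) b₀ = 0 := by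
  obtain ⟨h1, c, hc, e⟩ := h
  rw [e, B_smul_left, B_fb, mul_zero]

omit [Fintype G] in
theorem Fb.mem_K {w : Fin 4 → K} {l : K} {v : G} (h : P.Fb w l v) : v ∈ Kt a u :=
  P.mem_of_perp h.1 (Fb.perp P h)

omit [Fintype G] in
theorem Fb.acts {w : Fin 4 → K} {l : K} {v : G} (hw : B₄ w w = 0) (h : P.Fb w l v) : ActsAs P.U v (tv (hat w + l • b₀)) := by
  have h1 := ActsAs.gen P.hG P.U h.1
  obtain ⟨c, hc, e⟩ := h.2
  rw [e, tv_smul (B_self_fb hw l) hc] at h1
  exact h1

omit [Fintype G] in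
/-- Two members of a fibre. -/
theorem Fb.hasF {w : Fin 4 → K} {l m : K} {v v' : G} (hw : B₄ w w = 0) (h : P.Fb w l v) (h' : P.Fb w m v') :
    P.HasF (v * v') (fun y => B₄ (low y) w * (l + m)) := by
  obtain ⟨h1, h2⟩ := un_pair hw l m
  exact ⟨_, (Fb.acts P hw h).mul (Fb.acts P hw h'), h1, h2⟩

omit [Fintype G] in
/-- Conjugating a member of a fibre by an element with translation part `f`. -/
theorem Fb.conj {w : Fin 4 → K} {l : K} {v x : G} {f : (Fin 6 → K) → K} (h : P.Fb w l v) (hx : P.HasF x f) :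
    P.Fb w (l + f (hat w)) (x * v * x⁻¹) := by
  obtain ⟨s, h1, h2, h3⟩ := hx
  obtain ⟨h4, c, hc, e⟩ := h
  obtain ⟨h5, d, hd, e'⟩ := h1 v h4
  refine ⟨h5, d * c, mul_ne_zero hd hc, ?_⟩
  rw [e', e, act_smul, act_add, act_smul, h2.1, h2.act_perp (B_hat_b₀ w), h3 _ (B_hat_b₀ w), smul_smul, add_smul]
  rw [smul_add]
  simp only [smul_add, smul_smul]
  abel

omit P [Fintype G] in
/-- The vectors of the standard basis and isotropic sums. -/
theorem isotropic_sum (i j : Fin 4) (hij : i ≠ j) {κ : K} (hκ : κ ≠ 0) :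
    B₄ (Pi.single i 1 + κ • Pi.single j 1) (Pi.single i 1 + κ • Pi.single j 1) = 0 := by
  have h2z := two_zero (K := K)
  have h3 := cube κ hκ
  rw [B₄_eq]
  fin_cases i <;> fin_cases j <;> simp at hij <;>
    simp [Pi.single_apply] <;> linear_combination (1 : K) * h2z + h3

omit P [Fintype G] in
/-- An element of `Un` with zero translations on isotropic vectors has zero translations. -/
theorem ff_zero_of_iso {s : ↥(SU 6 K 2)} (h : Un s) (hf : ∀ w : Fin 4 → K, B₄ w w = 0 → w ≠ 0 → ff s (hat w) = 0) :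
    ∀ y, B y b₀ = 0 → ff s y = 0 := by
  obtain ⟨ω, hω⟩ := exists_root (K := K)
  have hω0 := root_ne_zero hω
  have h2z := two_zero (K := K)
  have hbase : ∀ j : Fin 4, ff s (hat (Pi.single j 1)) = 0 := by
    intro j
    obtain ⟨i, hij⟩ : ∃ i : Fin 4, i ≠ j := ⟨j + 1, by fin_cases j <;> decide⟩
    have hne : ∀ κ : K, κ ≠ 0 → (Pi.single i 1 + κ • Pi.single j 1 : Fin 4 → K) ≠ 0 := by
      intro κ _ h0
      have := congrFun h0 i
      simp [Pi.single_apply, hij] at this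
    have h1 := hf _ (isotropic_sum i j hij one_ne_zero) (hne 1 one_ne_zero)
    have h2 := hf _ (isotropic_sum i j hij hω0) (hne ω hω0)
    rw [hat_add, hat_smul, ff_add, ff_smul] at h1 h2
    have h3 : (1 + ω) * ff s (hat (Pi.single j 1)) = 0 := by
      linear_combination h1 + h2 - (ff s (hat (Pi.single i 1))) * h2z
    have h4 : (1 + ω) ≠ 0 := by
      intro h0
      have e1 : ω = 1 := by
        have := eq_of_add_zero h0
        exact this.symm
      rw [e1] at hω
      have : (3 : K) = 0 := by linear_combination hω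
      have h5 : (1 : K) = 0 := by linear_combination this - h2z
      exact one_ne_zero h5
    exact (mul_eq_zero.1 h3).resolve_left h4
  intro y hy
  conv_lhs => rw [perp_decomp hy, hat_expand (low y)]
  simp only [ff_add, ff_smul, hbase, ff_b₀ h, mul_zero, add_zero]

/-- **The centre of `Kt a u`.** -/
theorem mem_of_center {z : Kt a u} (hz : z ∈ Subgroup.center (Kt a u)) : z.1 = 1 ∨ z.1 = a ∨ z.1 = u ∨ z.1 = a * u := by
  have h1 : P.vt z = 1 := by
    have h2 : P.vt z ∈ Subgroup.center ↥(SU 4 K 2) := by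
      rw [Subgroup.mem_center_iff]
      intro t
      obtain ⟨t', rfl⟩ := P.vt_surj t
      rw [← map_mul, ← map_mul, (Subgroup.mem_center_iff.1 hz t')]
    rw [center_SU₄] at h2
    exact Subgroup.mem_bot.1 h2
  obtain ⟨f, hf⟩ := P.exists_HasF h1
  have hza := (mem_Kt.1 z.2).1
  refine HasF.mem_V P hf hza ?_
  obtain ⟨s, s1, s2, s3⟩ := id hf
  intro y hy
  rw [← s3 y hy]
  refine ff_zero_of_iso s2 (fun w hw hw0 => ?_) y hy
  obtain ⟨v, hv⟩ := P.exists_fb hw hw0 0
  have hk := Fb.mem_K P hv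
  have hc := Fb.conj P hv hf
  have e1 : z.1 * v * z.1⁻¹ = v := by
    have := Subgroup.mem_center_iff.1 hz ⟨v, hk⟩
    have h2 : v * z.1 = z.1 * v := congrArg Subtype.val this
    rw [← h2]
    group
  rw [e1] at hc
  have h3 := Fb.eq_l P hw0 hv hc
  rw [s3 _ (B_hat_b₀ w)]
  simpa using h3.symm

/-- Commutators and squares of elements of the kernel. -/
theorem comm_sq_mem {x y : G} {f g : (Fin 6 → K) → K} (hx : P.HasF x f) (hy : P.HasF y g) (hxa : Commute x a) (hya : Commute y a) :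
    (x * y * x⁻¹ * y⁻¹ = 1 ∨ x * y * x⁻¹ * y⁻¹ = a ∨ x * y * x⁻¹ * y⁻¹ = u ∨ x * y * x⁻¹ * y⁻¹ = a * u) ∧
      (x ^ 2 = 1 ∨ x ^ 2 = a ∨ x ^ 2 = u ∨ x ^ 2 = a * u) := by
  have h2z := two_zero (K := K)
  constructor
  · have h1 := ((hx.mul P hy).mul P (hx.inv P hxa)).mul P (hy.inv P hya)
    refine HasF.mem_V P h1 (((hxa.mul_left hya).mul_left hxa.inv_left).mul_left hya.inv_left) (fun z hz => ?_)
    linear_combination (f z + g z) * h2z
  · have h1 := hx.mul P hx
    rw [← pow_two] at h1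
    refine HasF.mem_V P h1 (hxa.pow_left 2) (fun z hz => ?_)
    linear_combination (f z) * h2z

end Pt

end Cfsg.Agent.Lib.ThreeT.M22
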