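import Cfsg.Agent.Lib.ThreeT.M22t
import Cfsg.Agent.S0815

/-!
# Groups of type M(22): the centralizer of the product of two commuting members

`C` permutes the two members, `Kt a u` has index two in `C`, the kernel `EE` of `Kt a u → SU₄(2)` is normal in `C` and
no element swapping the two members acts trivially on `Kt a u / EE`.
-/

set_option autoImplicit false
set_option linter.unusedSectionVars false
set_option linter.unusedVariables false
set_option linter.style.longLine false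
set_option linter.unusedSimpArgs false
set_option linter.unnecessarySimpa false
set_option linter.style.haveILetI false

namespace Cfsg.Agent.Lib.ThreeT.M22

open Cfsg Cfsg.Agent.Lib.ThreeT.Basic Cfsg.Agent.Lib.ThreeT.Class Cfsg.Agent.Lib.ThreeT.Relations
open Cfsg.Agent.Lib.ThreeT.Rank3 Cfsg.Agent.Lib.ThreeT.Descent Cfsg.Agent.Lib.ThreeT.NoSix
open Cfsg.Agent.Lib.ThreeT.U6Lift Cfsg.Agent.Lib.ThreeT.U6Geo
open Matrix

variable {G : Type*} [Group G] {D : Set G}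
variable {K : Type*} [Field K] [Fintype K] [hK : Fact (Fintype.card K = 4)]

/-- The form. -/
local notation "B" => hermForm 6 K 2
/-- The form in dimension four. -/
local notation "B₄" => hermForm 4 K 2

/-- The centralizer of the product. -/
def Cc (a u : G) : Subgroup G := Subgroup.centralizer ({a * u} : Set G)

omit [Fintype K] hK in
theorem mem_Cc {a u x : G} : x ∈ Cc a u ↔ Commute x (a * u) := by
  constructor
  · intro h
    exact (Subgroup.mem_centralizer_iff.1 h (a * u) (by simp)).symm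
  · intro h
    refine Subgroup.mem_centralizer_iff.2 ?_
    intro g hg
    rw [Set.mem_singleton_iff.1 hg]
    exact h.symm

namespace Pt

variable {a u : G} (P : Pt D a u K) [Fintype G]

/-- The kernel, inside `G`. -/
noncomputable def EE (P : Pt D a u K) : Subgroup G := (P.vt.ker).map (Kt a u).subtype

include P

theorem mem_EE {x : G} : x ∈ P.EE ↔ ∃ h : x ∈ Kt a u, P.vt ⟨x, h⟩ = 1 := by
  constructor
  · rintro ⟨y, hy, rfl⟩
    exact ⟨y.2, hy⟩
  · rintro ⟨h, e⟩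
    exact ⟨⟨x, h⟩, e, rfl⟩

theorem EE_le : P.EE ≤ Kt a u := fun x hx => ((P.mem_EE).1 hx).1

theorem card_EE : Nat.card P.EE = 1024 := by
  rw [EE, Subgroup.card_map_of_injective (Subgroup.subtype_injective _)]
  exact P.card_ker

theorem exists_HasF_of_mem {x : G} (hx : x ∈ P.EE) : ∃ f, P.HasF x f := by
  obtain ⟨h, e⟩ := P.mem_EE.1 hx
  exact P.exists_HasF (x := ⟨x, h⟩) e

theorem mem_EE_of_HasF {x : G} (hx : x ∈ Kt a u) {f : (Fin 6 → K) → K} (h : P.HasF x f) : x ∈ P.EE :=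
  P.mem_EE.2 ⟨hx, HasF.vt_eq P (x := ⟨x, hx⟩) h⟩

theorem a_mem_EE : a ∈ P.EE := P.mem_EE_of_HasF P.a_mem (HasF.of_a P)

theorem u_mem_EE : u ∈ P.EE := P.mem_EE_of_HasF P.u_mem (HasF.of_u P)

theorem closure_le_EE : Subgroup.closure ({a, u} : Set G) ≤ P.EE := by
  rw [Subgroup.closure_le]
  rintro x (rfl | rfl)
  · exact P.a_mem_EE
  · exact P.u_mem_EE

omit P [Fintype G] in
theorem mem_closure_of_four {a u x : G} (h : x = 1 ∨ x = a ∨ x = u ∨ x = a * u) : x ∈ Subgroup.closure ({a, u} : Set G) := by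
  have ha : a ∈ Subgroup.closure ({a, u} : Set G) := Subgroup.subset_closure (by simp)
  have hu : u ∈ Subgroup.closure ({a, u} : Set G) := Subgroup.subset_closure (by simp)
  rcases h with rfl | rfl | rfl | rfl
  · exact Subgroup.one_mem _
  · exact ha
  · exact hu
  · exact Subgroup.mul_mem _ ha hu

/-- **The centre of `Kt a u`.** -/
theorem map_center : (Subgroup.center (Kt a u)).map (Kt a u).subtype = Subgroup.closure ({a, u} : Set G) := by
  apply le_antisymm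
  · rintro x ⟨z, hz, rfl⟩
    exact mem_closure_of_four (P.mem_of_center hz)
  · rw [Subgroup.closure_le]
    have key : ∀ y : G, (hy : y ∈ Kt a u) → (∀ x : Kt a u, Commute x.1 y) → y ∈ (Subgroup.center (Kt a u)).map (Kt a u).subtype := by
      intro y hy h
      refine ⟨⟨y, hy⟩, ?_, rfl⟩
      rw [SetLike.mem_coe, Subgroup.mem_center_iff]
      intro g
      apply Subtype.ext
      exact (h g).eq
    rintro x (rfl | rfl)
    · exact key _ P.a_mem fun x => (mem_Kt.1 x.2).1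
    · exact key _ P.u_mem fun x => (mem_Kt.1 x.2).2

/-- Commutators and squares of `EE`. -/
theorem EE_comm_sq {x y : G} (hx : x ∈ P.EE) (hy : y ∈ P.EE) :
    x * y * x⁻¹ * y⁻¹ ∈ Subgroup.closure ({a, u} : Set G) ∧ x ^ 2 ∈ Subgroup.closure ({a, u} : Set G) := by
  obtain ⟨f, hf⟩ := P.exists_HasF_of_mem hx
  obtain ⟨g, hg⟩ := P.exists_HasF_of_mem hy
  have h := comm_sq_mem P hf hg (mem_Kt.1 (P.EE_le hx)).1 (mem_Kt.1 (P.EE_le hy)).1
  exact ⟨mem_closure_of_four h.1, mem_closure_of_four h.2⟩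

/-- Elements of the centralizer of the product permute the two members. -/
theorem fix_or_swap {c : G} (hc : c ∈ Cc a u) :
    (c * a * c⁻¹ = a ∧ c * u * c⁻¹ = u) ∨ (c * a * c⁻¹ = u ∧ c * u * c⁻¹ = a) := by
  have hcj := P.hG.2.1
  have h1 : c * a * c⁻¹ ∈ D := hcj c a P.ha
  have h2 : c * u * c⁻¹ ∈ D := hcj c u P.hu.1
  have hne : a ≠ u := P.hu.2.1.symm
  have hcomm := P.comm_au
  have hne' : c * a * c⁻¹ ≠ c * u * c⁻¹ := fun h => hne (by simpa using h)
  have hcomm' : Commute (c * a * c⁻¹) (c * u * c⁻¹) := by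
    show c * a * c⁻¹ * (c * u * c⁻¹) = c * u * c⁻¹ * (c * a * c⁻¹)
    have := hcomm.eq
    calc c * a * c⁻¹ * (c * u * c⁻¹) = c * (a * u) * c⁻¹ := by group
      _ = c * (u * a) * c⁻¹ := by rw [this]
      _ = _ := by group
  have e : a * u = (c * a * c⁻¹) * (c * u * c⁻¹) := by
    have h3 := (mem_Cc.1 hc).eq
    calc a * u = c * (a * u) * c⁻¹ := by rw [h3]; group
      _ = _ := by group
  rcases two_unique P.hG P.hp P.ha P.hu.1 h1 h2 hne hcomm hne' hcomm' e with ⟨h3, h4⟩ | ⟨h3, h4⟩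
  · exact Or.inl ⟨h3.symm, h4.symm⟩
  · exact Or.inr ⟨h4.symm, h3.symm⟩

theorem Kt_le : Kt a u ≤ Cc a u := fun x hx => by
  obtain ⟨h1, h2⟩ := mem_Kt.1 hx
  exact mem_Cc.2 (h1.mul_right h2)

omit P [Fintype G] in
theorem commute_of_conj {c x : G} (h : c * x * c⁻¹ = x) : Commute c x := by
  show c * x = x * c
  calc c * x = c * x * c⁻¹ * c := by group
    _ = x * c := by rw [h]

/-- Elements fixing the two members. -/
theorem mem_Kt_of_fix {c : G} (h1 : c * a * c⁻¹ = a) (h2 : c * u * c⁻¹ = u) : c ∈ Kt a u :=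
  mem_Kt.2 ⟨commute_of_conj h1, commute_of_conj h2⟩

/-- The centralizer normalizes `Kt`. -/
theorem conj_mem_Kt {c x : G} (hc : c ∈ Cc a u) (hx : x ∈ Kt a u) : c * x * c⁻¹ ∈ Kt a u := by
  obtain ⟨h1, h2⟩ := mem_Kt.1 hx
  have key : ∀ y : G, Commute x y → Commute (c * x * c⁻¹) (c * y * c⁻¹) := by
    intro y hy
    show c * x * c⁻¹ * (c * y * c⁻¹) = c * y * c⁻¹ * (c * x * c⁻¹)
    calc c * x * c⁻¹ * (c * y * c⁻¹) = c * (x * y) * c⁻¹ := by group
      _ = c * (y * x) * c⁻¹ := by rw [hy.eq]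
      _ = _ := by group
  have k1 := key a h1
  have k2 := key u h2
  rcases P.fix_or_swap hc with ⟨e1, e2⟩ | ⟨e1, e2⟩
  · rw [e1] at k1
    rw [e2] at k2
    exact mem_Kt.2 ⟨k1, k2⟩
  · rw [e1] at k1
    rw [e2] at k2
    exact mem_Kt.2 ⟨k2, k1⟩

omit P in
/-- Conjugation on `Kt`. -/
noncomputable def cj (P : Pt D a u K) {c : G} (hc : c ∈ Cc a u) : Kt a u →* Kt a u where
  toFun x := ⟨c * x.1 * c⁻¹, P.conj_mem_Kt hc x.2⟩
  map_one' := by
    apply Subtype.ext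
    simp
  map_mul' := by
    intro x y
    apply Subtype.ext
    show c * (x.1 * y.1) * c⁻¹ = c * x.1 * c⁻¹ * (c * y.1 * c⁻¹)
    group

theorem cj_coe {c : G} (hc : c ∈ Cc a u) (x : Kt a u) : (P.cj hc x).1 = c * x.1 * c⁻¹ := rfl

theorem cj_surj {c : G} (hc : c ∈ Cc a u) : Function.Surjective (P.cj hc) := by
  intro y
  have hc' : c⁻¹ ∈ Cc a u := Subgroup.inv_mem _ hc
  refine ⟨⟨c⁻¹ * y.1 * c⁻¹⁻¹, P.conj_mem_Kt hc' y.2⟩, ?_⟩
  apply Subtype.ext
  show c * (c⁻¹ * y.1 * c⁻¹⁻¹) * c⁻¹ = y.1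
  group

/-- **The kernel is normal in the centralizer of the product.** -/
theorem conj_ker {c : G} (hc : c ∈ Cc a u) {x : Kt a u} (hx : P.vt x = 1) : P.vt (P.cj hc x) = 1 := by
  haveI := simple_SU₄ (K := K)
  have hN : ((P.vt.ker).map (P.cj hc)).Normal := Subgroup.Normal.map inferInstance _ (P.cj_surj hc)
  have hM : (((P.vt.ker).map (P.cj hc)).map P.vt).Normal := Subgroup.Normal.map hN _ P.vt_surj
  rcases hM.eq_bot_or_eq_top with h | h
  · have : P.vt (P.cj hc x) ∈ ((P.vt.ker).map (P.cj hc)).map P.vt := ⟨_, ⟨x, hx, rfl⟩, rfl⟩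
    rw [h] at this
    exact Subgroup.mem_bot.1 this
  · exfalso
    have h1 : Nat.card ↥(((P.vt.ker).map (P.cj hc)).map P.vt) ∣ Nat.card ↥((P.vt.ker).map (P.cj hc)) := Subgroup.card_map_dvd _ _
    have h2 : Nat.card ↥((P.vt.ker).map (P.cj hc)) ∣ Nat.card P.vt.ker := Subgroup.card_map_dvd _ _
    have h3 := h1.trans h2
    rw [h, P.card_ker, Subgroup.card_top, card_SU₄] at h3
    omega

theorem conj_EE {c x : G} (hc : c ∈ Cc a u) (hx : x ∈ P.EE) : c * x * c⁻¹ ∈ P.EE := by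
  obtain ⟨h, e⟩ := P.mem_EE.1 hx
  have h1 := P.conj_ker hc (x := ⟨x, h⟩) e
  have e2 : P.cj hc ⟨x, h⟩ = ⟨c * x * c⁻¹, P.conj_mem_Kt hc h⟩ := rfl
  rw [e2] at h1
  exact P.mem_EE.2 ⟨P.conj_mem_Kt hc h, h1⟩

/-- An element swapping the two members. -/
theorem exists_swap : ∃ c : G, c * a * c⁻¹ = u ∧ c * u * c⁻¹ = a := by
  obtain ⟨t, ht⟩ := P.hp.1 a P.ha u P.hu.1
  have hcj := P.hG.2.1
  have h1 : t * u * t⁻¹ ∈ D := hcj t u P.hu.1
  have hne : t * u * t⁻¹ ≠ u := by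
    intro h
    have h' : t * u * t⁻¹ = t * a * t⁻¹ := h.trans ht.symm
    exact P.hu.2.1 (by simpa using h')
  have hcm : Commute (t * u * t⁻¹) u := by
    show t * u * t⁻¹ * u = u * (t * u * t⁻¹)
    have h3 := P.comm_au.eq
    calc t * u * t⁻¹ * u = t * u * t⁻¹ * (t * a * t⁻¹) := by rw [ht]
      _ = t * (u * a) * t⁻¹ := by group
      _ = t * (a * u) * t⁻¹ := by rw [h3]
      _ = (t * a * t⁻¹) * (t * u * t⁻¹) := by group
      _ = u * (t * u * t⁻¹) := by rw [ht]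
  have hm1 : t * u * t⁻¹ ∈ Da D u := ⟨h1, hne, hcm.symm⟩
  have hm2 : a ∈ Da D u := swap_Da P.hu P.ha
  obtain ⟨g, hg, e⟩ := exists_conj_of_mem_Da P.hG P.hp P.hu.1 hm1 hm2
  have hgu : Commute g u := by
    have : g ∈ Subgroup.centralizer ({u} : Set G) := by
      refine (Subgroup.closure_le _).2 ?_ hg
      intro v hv
      refine Subgroup.mem_centralizer_iff.2 ?_
      intro w hw
      rw [Set.mem_singleton_iff.1 hw]
      exact hv.2.2
    exact (Subgroup.mem_centralizer_iff.1 this u (by simp)).symm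
  refine ⟨g * t, ?_, ?_⟩
  · calc g * t * a * (g * t)⁻¹ = g * (t * a * t⁻¹) * g⁻¹ := by group
      _ = u := by rw [ht, hgu.eq]; group
  · calc g * t * u * (g * t)⁻¹ = g * (t * u * t⁻¹) * g⁻¹ := by group
      _ = a := e

/-- **`Kt` has index two.** -/
theorem index_Kt : ((Kt a u).subgroupOf (Cc a u)).index = 2 := by
  obtain ⟨c₀, h1, h2⟩ := P.exists_swap
  have hc₀ : c₀ ∈ Cc a u := by
    refine mem_Cc.2 (commute_of_conj ?_)
    calc c₀ * (a * u) * c₀⁻¹ = (c₀ * a * c₀⁻¹) * (c₀ * u * c₀⁻¹) := by group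
      _ = u * a := by rw [h1, h2]
      _ = a * u := P.comm_au.symm.eq
  rw [Subgroup.index_eq_two_iff]
  refine ⟨⟨c₀, hc₀⟩, fun b => ?_⟩
  simp only [Subgroup.mem_subgroupOf]
  have hb := b.2
  have hne : a ≠ u := P.hu.2.1.symm
  show Xor' (b.1 * c₀ ∈ Kt a u) (b.1 ∈ Kt a u)
  have key : ∀ x : G, x ∈ Kt a u → x * a * x⁻¹ = a ∧ x * u * x⁻¹ = u := by
    intro x hx
    obtain ⟨e1, e2⟩ := mem_Kt.1 hx
    exact ⟨by rw [e1.eq]; group, by rw [e2.eq]; group⟩
  rcases P.fix_or_swap hb with ⟨e1, e2⟩ | ⟨e1, e2⟩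
  · right
    refine ⟨P.mem_Kt_of_fix e1 e2, fun h => ?_⟩
    have h3 := (key _ h).1
    have h4 : b.1 * c₀ * a * (b.1 * c₀)⁻¹ = b.1 * (c₀ * a * c₀⁻¹) * b.1⁻¹ := by group
    rw [h4, h1, e2] at h3
    exact hne h3.symm
  · left
    have h4 : b.1 * c₀ * a * (b.1 * c₀)⁻¹ = b.1 * (c₀ * a * c₀⁻¹) * b.1⁻¹ := by group
    have h5 : b.1 * c₀ * u * (b.1 * c₀)⁻¹ = b.1 * (c₀ * u * c₀⁻¹) * b.1⁻¹ := by group
    refine ⟨P.mem_Kt_of_fix (by rw [h4, h1, e2]) (by rw [h5, h2, e1]), fun h => ?_⟩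
    have h3 := (key _ h).1
    rw [e1] at h3
    exact hne h3.symm

end Pt

end Cfsg.Agent.Lib.ThreeT.M22
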