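import Cfsg.Agent.Lib.ThreeT.M22u

/-!
# Groups of type M(22): an element swapping two commuting members does not centralize `Kt a u / EE`
-/

set_option autoImplicit false
set_option linter.unusedSectionVars false
set_option linter.unusedVariables false
set_option linter.style.longLine false
set_option linter.unusedSimpArgs false
set_option linter.unnecessarySimpa false
set_option linter.style.haveILetI false

namespace Cfsg.Agent.Lib.ThreeT.M22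

open Cfsg Cfsg.Agent.Lib.ThreeT.Basic Cfsg.Agent.Lib.ThreeT.Class Cfsg.Agent.Lib.ThreeT.Relations
open Cfsg.Agent.Lib.ThreeT.Rank3 Cfsg.Agent.Lib.ThreeT.Descent Cfsg.Agent.Lib.ThreeT.NoSix
open Cfsg.Agent.Lib.ThreeT.U6Lift Cfsg.Agent.Lib.ThreeT.U6Geo
open Matrix

variable {G : Type*} [Group G] {D : Set G}
variable {K : Type*} [Field K] [Fintype K] [hK : Fact (Fintype.card K = 4)]

/-- The form. -/
local notation "B" => hermForm 6 K 2
/-- The form in dimension four. -/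
local notation "B₄" => hermForm 4 K 2

section diag

/-- An isotropic vector of the 4-space. -/
def w₀ : Fin 4 → K := ![1, 1, 0, 0]

/-- A second isotropic vector of the 4-space. -/
def w₁ : Fin 4 → K := ![1, 0, 1, 0]

theorem B₄_w₀ : B₄ (w₀ : Fin 4 → K) w₀ = 0 := by
  have h2z := two_zero (K := K)
  rw [B₄_eq]
  simp [w₀]
  linear_combination h2z

theorem B₄_w₁ : B₄ (w₁ : Fin 4 → K) w₁ = 0 := by
  have h2z := two_zero (K := K)
  rw [B₄_eq]
  simp [w₁]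
  linear_combination h2z

theorem B₄_w₀_w₁ : B₄ (w₀ : Fin 4 → K) w₁ = 1 := by
  rw [B₄_eq]
  simp [w₀, w₁]

omit hK [Fintype K] in
theorem w₀_ne : (w₀ : Fin 4 → K) ≠ 0 := by
  intro h
  have := congrFun h 0
  simp [w₀] at this

omit hK [Fintype K] in
theorem w₁_ne : (w₁ : Fin 4 → K) ≠ 0 := by
  intro h
  have := congrFun h 0
  simp [w₁] at this

/-- A diagonal element of `SU₆(2)`. -/
noncomputable def sd {ω : K} (hω : ω ^ 2 + ω + 1 = 0) : ↥(SU 6 K 2) :=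
  ⟨⟨Matrix.diagonal ![1, 1, ω, ω, ω ^ 2, ω ^ 2], by
    have h3 := root_cube hω
    rw [Matrix.det_diagonal]
    simp [Fin.prod_univ_six]
    calc ω * ω * ω ^ 2 * ω ^ 2 = (ω ^ 3) ^ 2 := by ring
      _ = 1 := by rw [h3, one_pow]⟩, by
    have h3 := root_cube hω
    intro x y
    show B (Matrix.diagonal ![1, 1, ω, ω, ω ^ 2, ω ^ 2] *ᵥ x) (Matrix.diagonal ![1, 1, ω, ω, ω ^ 2, ω ^ 2] *ᵥ y) = B x y
    rw [B_vec, B_vec]
    simp [Matrix.mulVec_diagonal]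
    linear_combination (x 2 * y 2 ^ 2 + x 3 * y 3 ^ 2 + (ω ^ 3 + 1) * (x 4 * y 4 ^ 2 + x 5 * y 5 ^ 2)) * h3⟩

theorem act_sd {ω : K} (hω : ω ^ 2 + ω + 1 = 0) (x : Fin 6 → K) :
    act (sd hω) x = ![x 0, x 1, ω * x 2, ω * x 3, ω ^ 2 * x 4, ω ^ 2 * x 5] := by
  funext i
  show (Matrix.diagonal ![1, 1, ω, ω, ω ^ 2, ω ^ 2] *ᵥ x) i = _
  rw [Matrix.mulVec_diagonal]
  fin_cases i <;> simp

theorem act_sd_b₀ {ω : K} (hω : ω ^ 2 + ω + 1 = 0) : act (sd hω) b₀ = b₀ := by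
  rw [act_sd]
  funext i
  fin_cases i <;> simp [b₀]

theorem act_sd_fb {ω : K} (hω : ω ^ 2 + ω + 1 = 0) (l : K) :
    act (sd hω) (hat w₀ + l • b₀) = ω • (hat w₀ + (ω ^ 2 * l) • b₀) := by
  have h3 := root_cube hω
  rw [act_sd]
  funext i
  fin_cases i <;> simp [b₀, hat, w₀]
  · linear_combination (-l) * h3
  · linear_combination (-l) * h3

/-- A vector defining the same transvection as `w₀` is a multiple of `w₀`. -/
theorem eq_smul_w₀ {x : Fin 4 → K} (h : unitaryTransvection 4 2 x (1 : K) = unitaryTransvection 4 2 w₀ (1 : K)) :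
    ∃ d : K, d ≠ 0 ∧ x = d • w₀ := by
  have h2z := two_zero (K := K)
  have e : ∀ i j : Fin 4, x i * x j ^ 2 = w₀ i * w₀ j ^ 2 := by
    intro i j
    have := congrFun (congrFun h i) j
    simp only [unitaryTransvection, Matrix.add_apply, Matrix.smul_apply, Matrix.vecMulVec_apply, smul_eq_mul, one_mul] at this
    exact add_left_cancel this
  have e00 := e 0 0
  have e10 := e 1 0
  have e20 := e 2 0
  have e30 := e 3 0
  simp [w₀] at e00 e10 e20 e30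
  have h0 : x 0 ≠ 0 := by
    intro h0
    rw [h0] at e00
    simp at e00
  refine ⟨x 0, h0, ?_⟩
  have h3 : x 0 ^ 2 * (x 1 + x 0) = 0 := by linear_combination e10 + e00 + h2z
  have h4 : x 1 = x 0 := by
    rcases mul_eq_zero.1 h3 with h | h
    · exact absurd (pow_eq_zero_iff (two_ne_zero)|>.1 h) h0
    · exact eq_of_add_zero h
  rcases e20 with h5 | h5
  · rcases e30 with h6 | h6
    · funext i
      fin_cases i <;> simp [w₀, h4, h5, h6]
    · exact absurd h6 h0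
  · exact absurd h5 h0

end diag

/-- **A map swapping two points of a line has a unique fixed point among the other three.** -/
theorem swap_line {t a u : G} (U' : U6Data D t K) (ha : a ∈ Da D t) (hu : u ∈ Da D t) (hne : a ≠ u) {ω : K} (hω : ω ^ 2 + ω + 1 = 0)
    {x₃ x₄ x₅ : G} (hL : U'.LinePts a u ω x₃ x₄ x₅) {c : G} {s : ↥(SU 6 K 2)} (hs : ActsAs U' c s) (h1 : c * a * c⁻¹ = u) (h2 : c * u * c⁻¹ = a) :
    ∃ x, (x = x₃ ∨ x = x₄ ∨ x = x₅) ∧ c * x * c⁻¹ = x ∧ ∀ y, (y = x₃ ∨ y = x₄ ∨ y = x₅) → c * y * c⁻¹ = y → y = x := by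
  have h2z := two_zero (K := K)
  have hω0 := root_ne_zero hω
  have hω3 := root_cube hω
  have hli := U'.li ha hu hne
  obtain ⟨-, d₁, hd₁, e₁⟩ := hs a ha
  obtain ⟨-, d₂, hd₂, e₂⟩ := hs u hu
  rw [h1] at e₁
  rw [h2] at e₂
  have sA : act s (U'.vec a) = d₁⁻¹ • U'.vec u := by
    conv_rhs => rw [e₁]
    rw [smul_smul, inv_mul_cancel₀ hd₁, one_smul]
  have sQ : act s (U'.vec u) = d₂⁻¹ • U'.vec a := by
    conv_rhs => rw [e₂]
    rw [smul_smul, inv_mul_cancel₀ hd₂, one_smul]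
  -- the action on the line
  have hact : ∀ (e ρ : K), act s (e • (U'.vec a + ρ • U'.vec u)) = e • (d₁⁻¹ • U'.vec u + ρ • d₂⁻¹ • U'.vec a) := by
    intro e ρ
    rw [act_smul, act_add, act_smul, sA, sQ]
  have key : ∀ {y : G} {ρ e : K}, y ∈ Da D t → e ≠ 0 → ρ ≠ 0 → U'.vec y = e • (U'.vec a + ρ • U'.vec u) →
      (c * y * c⁻¹ = y ↔ ρ ^ 2 * d₁ = d₂) := by
    intro y ρ e hy he hρ hv
    obtain ⟨hm, d, hd, e'⟩ := hs y hy
    rw [hv, hact] at e'
    constructor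
    · intro hf
      rw [hf, hv] at e'
      have h0 : (e + d * e * ρ * d₂⁻¹) • U'.vec a + (e * ρ + d * e * d₁⁻¹) • U'.vec u = 0 := by
        have h3 : e • (U'.vec a + ρ • U'.vec u) + d • (e • (d₁⁻¹ • U'.vec u + ρ • d₂⁻¹ • U'.vec a)) = 0 := by
          rw [← e']
          exact vec_add_self _
        rw [← h3]
        simp only [smul_add, smul_smul, add_smul]
        have e1 : d * (e * (ρ * d₂⁻¹)) = d * e * ρ * d₂⁻¹ := by ring
        have e2 : d * (e * d₁⁻¹) = d * e * d₁⁻¹ := by ring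
        rw [e1, e2]
        abel
      obtain ⟨c1, c2⟩ := LinearIndependent.pair_iff.1 hli _ _ h0
      have c3 : d * ρ = d₂ := by
        have h5 : 1 + d * ρ * d₂⁻¹ = 0 := by
          have : e * (1 + d * ρ * d₂⁻¹) = 0 := by linear_combination c1
          exact (mul_eq_zero.1 this).resolve_left he
        have h6 : d * ρ * d₂⁻¹ = 1 := (eq_of_add_zero h5).symm
        field_simp at h6
        exact h6
      have c4 : ρ * d₁ = d := by
        have h5 : ρ + d * d₁⁻¹ = 0 := by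
          have : e * (ρ + d * d₁⁻¹) = 0 := by linear_combination c2
          exact (mul_eq_zero.1 this).resolve_left he
        rw [eq_of_add_zero h5]
        field_simp
      rw [← c3, ← c4]
      ring
    · intro hρ2
      apply U'.eq_of y hy _ hm (d * ρ * d₂⁻¹)
      rw [e', hv]
      simp only [smul_add, smul_smul]
      have e1 : d * (e * d₁⁻¹) = d * ρ * d₂⁻¹ * (e * ρ) := by
        rw [← hρ2]
        field_simp
      have e2 : d * (e * (ρ * d₂⁻¹)) = d * ρ * d₂⁻¹ * e := by ring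
      rw [e1, e2]
      abel
  -- points
  have p₃ : x₃ ∈ Da D t ∧ ∃ e : K, e ≠ 0 ∧ U'.vec x₃ = e • (U'.vec a + (1 : K) • U'.vec u) := by
    refine ⟨hL.m₃, ?_⟩
    simpa using hL.v₃
  have p₄ := hL.m₄
  have p₅ := hL.m₅
  obtain ⟨e₃, he₃, v₃⟩ := p₃.2
  obtain ⟨e₄, he₄, v₄⟩ := hL.v₄
  obtain ⟨e₅, he₅, v₅⟩ := hL.v₅
  have k₃ := key p₃.1 he₃ one_ne_zero v₃
  have k₄ := key p₄ he₄ hω0 v₄
  have k₅ := key p₅ he₅ (pow_ne_zero 2 hω0) v₅
  -- uniqueness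
  have uniq : ∀ {y y' : G} {ρ ρ' e e' : K}, y ∈ Da D t → y' ∈ Da D t → e' ≠ 0 → ρ ^ 2 * d₁ = d₂ → ρ' ^ 2 * d₁ = d₂ →
      U'.vec y = e • (U'.vec a + ρ • U'.vec u) → U'.vec y' = e' • (U'.vec a + ρ' • U'.vec u) → y = y' := by
    intro y y' ρ ρ' e e' hy hy' he' h3 h4 v v'
    have h5 : ρ ^ 2 = ρ' ^ 2 := mul_right_cancel₀ hd₁ (h3.trans h4.symm)
    have h6 : ρ = ρ' := by
      have : (ρ + ρ') ^ 2 = 0 := by linear_combination h5 + (ρ * ρ' + ρ' ^ 2) * h2z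
      exact eq_of_add_zero (pow_eq_zero_iff two_ne_zero |>.1 this)
    apply U'.eq_of y' hy' y hy (e * e'⁻¹)
    rw [v, v', h6, smul_smul, mul_assoc, inv_mul_cancel₀ he', mul_one]
  have all : ∀ y, (y = x₃ ∨ y = x₄ ∨ y = x₅) → y ∈ Da D t ∧ ∃ (ρ e : K), e ≠ 0 ∧ ρ ≠ 0 ∧ U'.vec y = e • (U'.vec a + ρ • U'.vec u) := by
    rintro y (rfl | rfl | rfl)
    · exact ⟨p₃.1, 1, e₃, he₃, one_ne_zero, v₃⟩
    · exact ⟨p₄, ω, e₄, he₄, hω0, v₄⟩
    · exact ⟨p₅, ω ^ 2, e₅, he₅, pow_ne_zero 2 hω0, v₅⟩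
  -- existence
  have ex : ∃ x, (x = x₃ ∨ x = x₄ ∨ x = x₅) ∧ c * x * c⁻¹ = x := by
    set r := d₂ * d₁⁻¹ with hr
    have hr0 : r ≠ 0 := mul_ne_zero hd₂ (inv_ne_zero hd₁)
    have hrd : r * d₁ = d₂ := by rw [hr]; field_simp
    have hr3 := cube r hr0
    have hf : (r + 1) * (r + ω) * (r + ω ^ 2) = 0 := by
      linear_combination hr3 + (r ^ 2 + ω * r) * hω + hω3 + h2z
    rcases mul_eq_zero.1 hf with hf | hf
    · rcases mul_eq_zero.1 hf with hf | hf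
      · have hr1 : r = 1 := eq_of_add_zero hf
        refine ⟨x₃, Or.inl rfl, k₃.2 ?_⟩
        rw [one_pow, one_mul, ← hrd, hr1, one_mul]
      · have hr1 : r = ω := eq_of_add_zero hf
        refine ⟨x₅, Or.inr (Or.inr rfl), k₅.2 ?_⟩
        rw [← hrd, hr1]
        linear_combination (ω * d₁) * hω3
    · have hr1 : r = ω ^ 2 := eq_of_add_zero hf
      refine ⟨x₄, Or.inr (Or.inl rfl), k₄.2 ?_⟩
      rw [← hrd, hr1]
  obtain ⟨x, hx, hfx⟩ := ex
  refine ⟨x, hx, hfx, fun y hy hfy => ?_⟩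
  obtain ⟨m1, ρ, e, he, hρ, v⟩ := all y hy
  obtain ⟨m2, ρ', e', he', hρ', v'⟩ := all x hx
  have hy1 := (key m1 he hρ v).1 hfy
  have hx1 := (key m2 he' hρ' v').1 hfx
  exact uniq m1 m2 he' hy1 hx1 v v'

namespace Pt

variable {a u : G} (P : Pt D a u K) [Fintype G]

include P

/-- An element of `Kt` acting as the diagonal element. -/
theorem exists_m {ω : K} (hω : ω ^ 2 + ω + 1 = 0) : ∃ m : G, m ∈ Kt a u ∧ ActsAs P.U m (sd hω) := by
  obtain ⟨g, hg, h⟩ := P.U.lift (sd hω)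
  have hga : Commute g a := by
    have : g ∈ Subgroup.centralizer ({a} : Set G) := by
      refine (Subgroup.closure_le _).2 ?_ hg
      intro v hv
      refine Subgroup.mem_centralizer_iff.2 ?_
      intro w hw
      rw [Set.mem_singleton_iff.1 hw]
      exact hv.2.2
    exact (Subgroup.mem_centralizer_iff.1 this a (by simp)).symm
  obtain ⟨h1, c, hc, e⟩ := h u P.hu
  rw [P.hb, act_sd_b₀, ← P.hb] at e
  have hgu := P.U.eq_of u P.hu _ h1 c e
  exact ⟨g, mem_Kt.2 ⟨hga, commute_of_conj hgu⟩, h⟩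

/-- The action of the diagonal element on a fibre. -/
theorem Fb.of_m {ω : K} (hω : ω ^ 2 + ω + 1 = 0) {m v : G} {l : K} (hm : ActsAs P.U m (sd hω)) (h : P.Fb w₀ l v) :
    P.Fb w₀ (ω ^ 2 * l) (m * v * m⁻¹) := by
  obtain ⟨h1, c, hc, e⟩ := h
  obtain ⟨h5, d, hd, e'⟩ := hm v h1
  refine ⟨h5, d * c * ω, mul_ne_zero (mul_ne_zero hd hc) (root_ne_zero hω), ?_⟩
  rw [e', e, act_smul, act_sd_fb, smul_smul, smul_smul, mul_assoc d c ω]

/-- Members perpendicular to `b₀` with a given image in the 4-space. -/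
theorem fb_of_low {w : Fin 4 → K} {v : G} (hv : v ∈ Da D a) (hp : B (P.U.vec v) b₀ = 0) {d : K} (hd : d ≠ 0)
    (hl : low (P.U.vec v) = d • w) : ∃ l, P.Fb w l v := by
  refine ⟨d⁻¹ * (P.U.vec v) 0, hv, d, hd, ?_⟩
  conv_lhs => rw [perp_decomp hp, hl, hat_smul]
  rw [smul_add, smul_smul, mul_inv_cancel_left₀ hd, add_comm]

/-- **No element swapping the two members centralizes `Kt a u / EE`.** -/
theorem no_central_swap {c : G} (hc : c ∈ Cc a u) (h1 : c * a * c⁻¹ = u) (h2 : c * u * c⁻¹ = a)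
    (hk : ∀ x : Kt a u, P.vt (P.cj hc x) = P.vt x) : False := by
  have h2z := two_zero (K := K)
  have hcj := P.hG.2.1
  obtain ⟨ω, hω⟩ := exists_root (K := K)
  have hω0 := root_ne_zero hω
  have hω3 := root_cube hω
  -- the base point of the fibre
  obtain ⟨t₁, ht₁⟩ := P.exists_fb B₄_w₀ w₀_ne 0
  have ht₁K := Fb.mem_K P ht₁
  obtain ⟨c₀, hc₀, e₀⟩ := id ht₁.2
  have e₀' : P.U.vec t₁ = c₀ • hat w₀ := by rw [e₀, zero_smul, add_zero]
  have ht₁u : t₁ ≠ u := by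
    rintro rfl
    have := congrArg low (e₀'.symm.trans P.hb)
    rw [low_smul, low_hat, low_b₀] at this
    exact (smul_ne_zero hc₀ w₀_ne) this
  have hat₁ : Commute t₁ u := (mem_Kt.1 ht₁K).2
  -- its image lies in the fibre
  have hxK := P.conj_mem_Kt hc ht₁K
  have ht' : c * t₁ * c⁻¹ ∈ Da D a := by
    refine ⟨hcj c t₁ ht₁.1.1, ?_, (mem_Kt.1 hxK).1.symm⟩
    intro h
    rw [← h2] at h
    exact ht₁u (by simpa using h)
  have hm : unitaryTransvection 4 2 (low (P.U.vec (c * t₁ * c⁻¹))) (1 : K) = unitaryTransvection 4 2 w₀ (1 : K) := by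
    rw [← P.vt_gen ht' hxK]
    have e1 : P.vt ⟨c * t₁ * c⁻¹, hxK⟩ = P.vt ⟨t₁, ht₁K⟩ := hk ⟨t₁, ht₁K⟩
    rw [e1, P.vt_gen ht₁.1 ht₁K, e₀', low_smul, low_hat, transv_smul hc₀]
  obtain ⟨d, hd, e⟩ := eq_smul_w₀ hm
  obtain ⟨l, hl⟩ := P.fb_of_low ht' (P.perp_of_mem ht' (mem_Kt.1 hxK).2) hd e
  -- correcting by an element of the kernel
  obtain ⟨v₁, hv₁⟩ := P.exists_fb B₄_w₁ w₁_ne l
  obtain ⟨v₂, hv₂⟩ := P.exists_fb B₄_w₁ w₁_ne 0
  have he := Fb.hasF P B₄_w₁ hv₁ hv₂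
  have heK : v₁ * v₂ ∈ Kt a u := Subgroup.mul_mem _ (Fb.mem_K P hv₁) (Fb.mem_K P hv₂)
  obtain ⟨e', hed⟩ : ∃ e', e' = v₁ * v₂ := ⟨_, rfl⟩
  rw [← hed] at he heK
  have h3 := Fb.conj P hl he
  have hz : l + (B₄ (low (hat w₀)) w₁ * (l + 0)) = 0 := by
    rw [low_hat, B₄_w₀_w₁]
    linear_combination l * h2z
  rw [hz] at h3
  have h4 := Fb.unique P h3 ht₁
  obtain ⟨hea, heu⟩ := mem_Kt.1 heK
  obtain ⟨c', hc'd⟩ : ∃ c', c' = e' * c := ⟨_, rfl⟩
  have hc'C : c' ∈ Cc a u := by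
    rw [hc'd]
    exact Subgroup.mul_mem _ (P.Kt_le heK) hc
  have c'a : c' * a * c'⁻¹ = u := by
    rw [hc'd]
    calc (e' * c) * a * (e' * c)⁻¹ = e' * (c * a * c⁻¹) * e'⁻¹ := by group
      _ = e' * u * e'⁻¹ := by rw [h1]
      _ = u := by rw [heu.eq]; group
  have c'u : c' * u * c'⁻¹ = a := by
    rw [hc'd]
    calc (e' * c) * u * (e' * c)⁻¹ = e' * (c * u * c⁻¹) * e'⁻¹ := by group
      _ = e' * a * e'⁻¹ := by rw [h2]
      _ = a := by rw [hea.eq]; group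
  have c't : c' * t₁ * c'⁻¹ = t₁ := by
    rw [hc'd]
    calc (e' * c) * t₁ * (e' * c)⁻¹ = e' * (c * t₁ * c⁻¹) * e'⁻¹ := by group
      _ = t₁ := h4
  have cct : Commute c' t₁ := commute_of_conj c't
  -- the element of order three
  obtain ⟨m, hmK, hm'⟩ := P.exists_m hω
  have hn0 : c' * m * c'⁻¹ * m⁻¹ ∈ Kt a u := Subgroup.mul_mem _ (P.conj_mem_Kt hc'C hmK) (Subgroup.inv_mem _ hmK)
  have hnvt : P.vt ⟨_, hn0⟩ = 1 := by
    have e1 : (⟨_, hn0⟩ : Kt a u) = ⟨e', heK⟩ * (P.cj hc ⟨m, hmK⟩) * (⟨e', heK⟩ : Kt a u)⁻¹ * (⟨m, hmK⟩ : Kt a u)⁻¹ := by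
      apply Subtype.ext
      show c' * m * c'⁻¹ * m⁻¹ = e' * (c * m * c⁻¹) * e'⁻¹ * m⁻¹
      rw [hc'd]
      group
    rw [e1, map_mul, map_mul, map_mul, hk, map_inv, map_inv, HasF.vt_eq P (x := ⟨e', heK⟩) he]
    simp
  obtain ⟨f, hf⟩ := P.exists_HasF hnvt
  have hf' : P.HasF (c' * m * c'⁻¹ * m⁻¹) f := hf
  have hmt : m * t₁ * m⁻¹ = t₁ := by
    have h5 := Fb.of_m P hω hm' ht₁
    rw [mul_zero] at h5
    exact Fb.unique P h5 ht₁
  have cmt : Commute m t₁ := commute_of_conj hmt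
  have hnt : (c' * m * c'⁻¹ * m⁻¹) * t₁ * (c' * m * c'⁻¹ * m⁻¹)⁻¹ = t₁ := by
    have : Commute (c' * m * c'⁻¹ * m⁻¹) t₁ := ((cct.mul_left cmt).mul_left cct.inv_left).mul_left cmt.inv_left
    rw [this.eq]
    group
  have hfz : f (hat w₀) = 0 := by
    have h5 := Fb.conj P ht₁ hf'
    rw [hnt] at h5
    have h6 := Fb.eq_l P w₀_ne ht₁ h5
    simpa using h6.symm
  have hnfix : ∀ {l : K} {v : G}, P.Fb w₀ l v → (c' * m * c'⁻¹ * m⁻¹) * v * (c' * m * c'⁻¹ * m⁻¹)⁻¹ = v := by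
    intro l v hv
    have h5 := Fb.conj P hv hf'
    rw [hfz, add_zero] at h5
    exact Fb.unique P h5 hv
  -- the chart at the base point
  have ht₁D := ht₁.1.1
  obtain ⟨U'⟩ := P.data t₁ ht₁D
  have ha' : a ∈ Da D t₁ := swap_Da ht₁.1 P.ha
  have hu' : u ∈ Da D t₁ := ⟨P.hu.1, ht₁u.symm, hat₁⟩
  have hne : a ≠ u := P.hu.2.1.symm
  have hcl : c' ∈ Subgroup.closure (Da D t₁) :=
    ((centralizer_main P.hG P.hp P.h22 P.data ht₁D).2 c').1 (by rw [mem_Cn]; simpa using cct)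
  obtain ⟨s', hs'⟩ := U'.exists_su P.hG hcl
  obtain ⟨x₃, x₄, x₅, hL'⟩ := U'.exists_linePts ha' hu' hne P.comm_au hω
  obtain ⟨u₃, u₄, u₅, hL⟩ := P.U.exists_linePts ht₁.1 P.hu ht₁u hat₁ hω
  have hR := exists_hexad P.hG P.hp P.h22.1 P.data P.ha ht₁.1 P.hu ht₁u hat₁ hω P.U hL
  have hR' : IsRel D [t₁, a, u, u₃, u₄, u₅] := IsRel.perm hR (List.Perm.swap _ _ _)
  have hperm := rel_on_line U' hω hR' hL' P.hG.1
  -- the points of the line in the fibre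
  have fbl : ∀ {y : G} {ρ e : K}, y ∈ Da D a → e ≠ 0 → P.U.vec y = e • (P.U.vec t₁ + ρ • P.U.vec u) → P.Fb w₀ (ρ * c₀⁻¹) y := by
    intro y ρ e hy he hv
    refine ⟨hy, e * c₀, mul_ne_zero he hc₀, ?_⟩
    rw [hv, e₀', P.hb, smul_add, smul_add, smul_smul, smul_smul, smul_smul]
    congr 2
    field_simp
  obtain ⟨e₃, he₃, v₃⟩ := hL.v₃
  obtain ⟨e₄, he₄, v₄⟩ := hL.v₄
  obtain ⟨e₅, he₅, v₅⟩ := hL.v₅
  have F₃ : P.Fb w₀ (1 * c₀⁻¹) u₃ := fbl hL.m₃ he₃ (by rw [one_smul]; exact v₃)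
  have F₄ : P.Fb w₀ (ω * c₀⁻¹) u₄ := fbl hL.m₄ he₄ v₄
  have F₅ : P.Fb w₀ (ω ^ 2 * c₀⁻¹) u₅ := fbl hL.m₅ he₅ v₅
  have conv' : ∀ {l : K} {y : G}, l ≠ 0 → P.Fb w₀ l y → y = u₃ ∨ y = u₄ ∨ y = u₅ := by
    intro l y hl0 hy
    have hr0 : l * c₀ ≠ 0 := mul_ne_zero hl0 hc₀
    have hr3 := cube _ hr0
    have hf : (l * c₀ + 1) * (l * c₀ + ω) * (l * c₀ + ω ^ 2) = 0 := by
      linear_combination hr3 + ((l * c₀) ^ 2 + ω * (l * c₀)) * hω + hω3 + h2z
    have el : ∀ ρ : K, l * c₀ = ρ → l = ρ * c₀⁻¹ := by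
      intro ρ h
      rw [← h]
      field_simp
    rcases mul_eq_zero.1 hf with hf | hf
    · rcases mul_eq_zero.1 hf with hf | hf
      · have h5 := el 1 (eq_of_add_zero hf)
        rw [h5] at hy
        exact Or.inl (Fb.unique P hy F₃)
      · have h5 := el ω (eq_of_add_zero hf)
        rw [h5] at hy
        exact Or.inr (Or.inl (Fb.unique P hy F₄))
    · have h5 := el (ω ^ 2) (eq_of_add_zero hf)
      rw [h5] at hy
      exact Or.inr (Or.inr (Fb.unique P hy F₅))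
  -- the contradiction
  obtain ⟨x, hx, hfx, huniq⟩ := swap_line U' ha' hu' hne hω hL' hs' c'a c'u
  have hxu : x = u₃ ∨ x = u₄ ∨ x = u₅ := by
    have h5 : x ∈ [x₃, x₄, x₅] := by simpa using hx
    have h6 := hperm.mem_iff.2 h5
    simpa using h6
  obtain ⟨l₁, hl₁, hxF⟩ : ∃ l₁ : K, l₁ ≠ 0 ∧ P.Fb w₀ l₁ x := by
    rcases hxu with rfl | rfl | rfl
    · exact ⟨_, mul_ne_zero one_ne_zero (inv_ne_zero hc₀), F₃⟩
    · exact ⟨_, mul_ne_zero hω0 (inv_ne_zero hc₀), F₄⟩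
    · exact ⟨_, mul_ne_zero (pow_ne_zero 2 hω0) (inv_ne_zero hc₀), F₅⟩
  have hyF := Fb.of_m P hω hm' hxF
  have hyl : ω ^ 2 * l₁ ≠ 0 := mul_ne_zero (pow_ne_zero 2 hω0) hl₁
  have hyu := conv' hyl hyF
  have hyx : m * x * m⁻¹ = x₃ ∨ m * x * m⁻¹ = x₄ ∨ m * x * m⁻¹ = x₅ := by
    have h5 : m * x * m⁻¹ ∈ [u₃, u₄, u₅] := by simpa using hyu
    have h6 := hperm.mem_iff.1 h5
    simpa using h6
  have hyne : m * x * m⁻¹ ≠ x := by
    intro h
    rw [h] at hyF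
    have h5 := Fb.eq_l P w₀_ne hyF hxF
    have h6 : ω * l₁ = 0 := by
      linear_combination l₁ * hω - h5 - l₁ * h2z
    exact (mul_ne_zero hω0 hl₁) h6
  have hfy : c' * (m * x * m⁻¹) * c'⁻¹ = m * x * m⁻¹ := by
    have h5 := hnfix hyF
    calc c' * (m * x * m⁻¹) * c'⁻¹ = (c' * m * c'⁻¹) * (c' * x * c'⁻¹) * (c' * m * c'⁻¹)⁻¹ := by group
      _ = (c' * m * c'⁻¹) * x * (c' * m * c'⁻¹)⁻¹ := by rw [hfx]
      _ = (c' * m * c'⁻¹ * m⁻¹) * (m * x * m⁻¹) * (c' * m * c'⁻¹ * m⁻¹)⁻¹ := by group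
      _ = m * x * m⁻¹ := h5
  exact hyne (huniq _ hyx hfy)

theorem vt_cj_eq {c : G} (hc : c ∈ Cc a u) {x y : Kt a u} (h : P.vt x = P.vt y) : P.vt (P.cj hc x) = P.vt (P.cj hc y) := by
  have h1 : P.vt (x⁻¹ * y) = 1 := by rw [map_mul, map_inv, h, inv_mul_cancel]
  have h2 := P.conj_ker hc h1
  rw [map_mul, map_mul, map_inv, map_inv] at h2
  exact (inv_mul_eq_one.1 h2)

omit P in
/-- The action on `SU₄(2)`, as a function. -/
noncomputable def thFun (P : Pt D a u K) (c : ↥(Cc a u)) (s : ↥(SU 4 K 2)) : ↥(SU 4 K 2) :=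
  P.vt (P.cj c.2 (Function.surjInv P.vt_surj s))

theorem thFun_vt (c : ↥(Cc a u)) (x : Kt a u) : P.thFun c (P.vt x) = P.vt (P.cj c.2 x) :=
  P.vt_cj_eq c.2 (Function.surjInv_eq P.vt_surj _)

omit P in
/-- The action on `SU₄(2)`. -/
noncomputable def thAut (P : Pt D a u K) (c : ↥(Cc a u)) : MulAut ↥(SU 4 K 2) where
  toFun := P.thFun c
  invFun := P.thFun c⁻¹
  left_inv := by
    intro s
    obtain ⟨x, rfl⟩ := P.vt_surj s
    rw [P.thFun_vt, P.thFun_vt]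
    congr 1
    apply Subtype.ext
    show c.1⁻¹ * (c.1 * x.1 * c.1⁻¹) * c.1⁻¹⁻¹ = x.1
    group
  right_inv := by
    intro s
    obtain ⟨x, rfl⟩ := P.vt_surj s
    rw [P.thFun_vt, P.thFun_vt]
    congr 1
    apply Subtype.ext
    show c.1 * (c.1⁻¹ * x.1 * c.1⁻¹⁻¹) * c.1⁻¹ = x.1
    group
  map_mul' := by
    intro s t
    obtain ⟨x, rfl⟩ := P.vt_surj s
    obtain ⟨y, rfl⟩ := P.vt_surj t
    rw [← map_mul, P.thFun_vt, P.thFun_vt, P.thFun_vt, map_mul, map_mul]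

theorem thAut_vt (c : ↥(Cc a u)) (x : Kt a u) : P.thAut c (P.vt x) = P.vt (P.cj c.2 x) := P.thFun_vt c x

omit P in
/-- The action on `SU₄(2)`, as a homomorphism. -/
noncomputable def thHom (P : Pt D a u K) : ↥(Cc a u) →* MulAut ↥(SU 4 K 2) :=
  MonoidHom.mk' P.thAut (by
    intro c c'
    refine MulEquiv.ext fun s => ?_
    obtain ⟨x, rfl⟩ := P.vt_surj s
    show P.thAut (c * c') (P.vt x) = P.thAut c (P.thAut c' (P.vt x))
    rw [P.thAut_vt, P.thAut_vt, P.thAut_vt]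
    congr 1
    apply Subtype.ext
    show (c.1 * c'.1) * x.1 * (c.1 * c'.1)⁻¹ = c.1 * (c'.1 * x.1 * c'.1⁻¹) * c.1⁻¹
    group)

/-- The kernel of the action. -/
theorem ker_thHom : P.thHom.ker = P.EE.subgroupOf (Cc a u) := by
  ext c
  rw [MonoidHom.mem_ker, Subgroup.mem_subgroupOf]
  constructor
  · intro h
    have hk : ∀ x : Kt a u, P.vt (P.cj c.2 x) = P.vt x := by
      intro x
      rw [← P.thAut_vt]
      have : P.thAut c = 1 := h
      rw [this]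
      rfl
    rcases P.fix_or_swap c.2 with ⟨e1, e2⟩ | ⟨e1, e2⟩
    · have hcK := P.mem_Kt_of_fix e1 e2
      refine P.mem_EE.2 ⟨hcK, ?_⟩
      have h2 : P.vt ⟨c.1, hcK⟩ ∈ Subgroup.center ↥(SU 4 K 2) := by
        rw [Subgroup.mem_center_iff]
        intro t
        obtain ⟨x, rfl⟩ := P.vt_surj t
        have h3 := hk x
        have e3 : P.cj c.2 x = ⟨c.1, hcK⟩ * x * (⟨c.1, hcK⟩ : Kt a u)⁻¹ := rfl
        rw [e3, map_mul, map_mul, map_inv] at h3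
        exact (mul_inv_eq_iff_eq_mul.1 h3).symm
      rw [center_SU₄] at h2
      exact Subgroup.mem_bot.1 h2
    · exact (P.no_central_swap c.2 e1 e2 hk).elim
  · intro h
    obtain ⟨hcK, e⟩ := P.mem_EE.1 h
    show P.thAut c = 1
    refine MulEquiv.ext fun s => ?_
    obtain ⟨x, rfl⟩ := P.vt_surj s
    show P.thAut c (P.vt x) = P.vt x
    rw [P.thAut_vt]
    have e3 : P.cj c.2 x = ⟨c.1, hcK⟩ * x * (⟨c.1, hcK⟩ : Kt a u)⁻¹ := rfl
    rw [e3, map_mul, map_mul, map_inv, e]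
    simp

omit P [Fintype G] in
/-- The order of the automorphism group. -/
theorem card_mulAut_SU₄ : Nat.card (MulAut ↥(SU 4 K 2)) = 51840 := by
  have hF : Fintype.card K = 2 ^ 2 := by rw [hK.out]; norm_num
  have h1 := Cfsg.Agent.S0815.result (F := K) 2 1 le_rfl (q := 2) (by norm_num) hF 4 (by norm_num) (by norm_num)
  have h2 : Nat.card (PSU 4 K 2) = 25920 := by
    rw [← Nat.card_congr (suPsu (K := K)).toEquiv]
    exact card_SU₄
  rw [h2] at h1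
  rw [Nat.card_congr (MulAut.congr (suPsu (K := K))).toEquiv, h1]
  norm_num

/-- The order of the centralizer of the product. -/
theorem card_Cc : Nat.card (Cc a u) = 53084160 := by
  have h1 := Subgroup.card_mul_index ((Kt a u).subgroupOf (Cc a u))
  rw [P.index_Kt, Nat.card_congr (Subgroup.subgroupOfEquivOfLe P.Kt_le).toEquiv, P.card_Kt] at h1
  omega

/-- `EE` is normal in the centralizer of the product. -/
theorem normal_EE : (P.EE.subgroupOf (Cc a u)).Normal :=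
  ⟨fun x hx c => by
    rw [Subgroup.mem_subgroupOf] at hx ⊢
    exact P.conj_EE c.2 hx⟩

/-- **The quotient of the centralizer of the product by `EE` is the full automorphism group of `PSU₄(2)`.** -/
theorem quot_iso [(P.EE.subgroupOf (Cc a u)).Normal] : Nonempty (↥(Cc a u) ⧸ P.EE.subgroupOf (Cc a u) ≃* MulAut (PSU 4 K 2)) := by
  have hker := P.ker_thHom
  haveI : Finite (MulAut ↥(SU 4 K 2)) := Nat.finite_of_card_ne_zero (by rw [card_mulAut_SU₄]; norm_num)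
  have hinj := QuotientGroup.kerLift_injective P.thHom
  have hcard : Nat.card (↥(Cc a u) ⧸ P.thHom.ker) = Nat.card (MulAut ↥(SU 4 K 2)) := by
    rw [card_mulAut_SU₄]
    have h1 := Subgroup.card_mul_index P.thHom.ker
    rw [hker, Nat.card_congr (Subgroup.subgroupOfEquivOfLe (P.EE_le.trans P.Kt_le)).toEquiv, P.card_EE, P.card_Cc] at h1
    have h2 : (P.EE.subgroupOf (Cc a u)).index = 51840 := by omega
    rw [hker]
    exact h2
  have hbij := (Nat.bijective_iff_injective_and_card (QuotientGroup.kerLift P.thHom)).2 ⟨hinj, hcard⟩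
  exact ⟨(QuotientGroup.quotientMulEquivOfEq hker.symm).trans ((MulEquiv.ofBijective _ hbij).trans (MulAut.congr (suPsu (K := K))))⟩

end Pt

end Cfsg.Agent.Lib.ThreeT.M22
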