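import Cfsg.Agent.Lib.ThreeT.M22v

/-!
# Groups of type M(22): the structure of the kernel `EE`

Four members of a fibre have product `a u`; commutators and squares of `EE` lie in `⟨a u⟩`; the centre of `EE` is
`⟨a, u⟩`.
-/

set_option autoImplicit false
set_option linter.unusedSectionVars false
set_option linter.unusedVariables false
set_option linter.style.longLine false
set_option linter.unusedSimpArgs false
set_option linter.unnecessarySimpa false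
set_option linter.style.haveILetI false

namespace Cfsg.Agent.Lib.ThreeT.M22

open Cfsg Cfsg.Agent.Lib.ThreeT.Basic Cfsg.Agent.Lib.ThreeT.Class Cfsg.Agent.Lib.ThreeT.Relations
open Cfsg.Agent.Lib.ThreeT.Rank3 Cfsg.Agent.Lib.ThreeT.Descent Cfsg.Agent.Lib.ThreeT.NoSix
open Cfsg.Agent.Lib.ThreeT.U6Lift Cfsg.Agent.Lib.ThreeT.U6Geo
open Matrix

variable {G : Type*} [Group G] {D : Set G}
variable {K : Type*} [Field K] [Fintype K] [hK : Fact (Fintype.card K = 4)]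

/-- The form. -/
local notation "B" => hermForm 6 K 2
/-- The form in dimension four. -/
local notation "B₄" => hermForm 4 K 2

namespace Pt

variable {a u : G} (P : Pt D a u K) [Fintype G]

include P

omit [Fintype G] in
theorem Fb.comm {w : Fin 4 → K} {l m : K} {v v' : G} (hw : B₄ w w = 0) (F : P.Fb w l v) (F' : P.Fb w m v') : Commute v v' := by
  obtain ⟨h1, c, hc, e⟩ := F
  obtain ⟨h2, c', hc', e'⟩ := F'
  apply (P.U.comm v h1 v' h2).2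
  rw [e, e', B_smul_left, B_smul_right, B_low (B_fb w l) (B_fb w m), low_fb, low_fb, hw, mul_zero, mul_zero]

omit [Fintype G] in
theorem Fb.ne_u {w : Fin 4 → K} {l : K} {v : G} (hw0 : w ≠ 0) (F : P.Fb w l v) : v ≠ u := by
  rintro rfl
  obtain ⟨h1, c, hc, e⟩ := F
  have h2 := congrArg low (e.symm.trans P.hb)
  rw [low_smul, low_fb, low_b₀] at h2
  exact (smul_ne_zero hc hw0) h2

/-- Four members of a fibre, together with the two members, form a relation. -/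
theorem Fb.rel {w : Fin 4 → K} (hw0 : w ≠ 0) {l₁ l₂ l₃ l₄ : K} {v₁ v₂ v₃ v₄ : G}
    (F₁ : P.Fb w l₁ v₁) (F₂ : P.Fb w l₂ v₂) (F₃ : P.Fb w l₃ v₃) (F₄ : P.Fb w l₄ v₄)
    (n₁₂ : l₁ ≠ l₂) (n₁₃ : l₁ ≠ l₃) (n₁₄ : l₁ ≠ l₄) (n₂₃ : l₂ ≠ l₃) (n₂₄ : l₂ ≠ l₄) (n₃₄ : l₃ ≠ l₄) :
    IsRel D [a, v₁, u, v₂, v₃, v₄] := by
  have h2z := two_zero (K := K)
  obtain ⟨ω, hω⟩ := exists_root (K := K)
  have hω0 := root_ne_zero hω
  have hω3 := root_cube hω
  have hm1 := F₁.1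
  obtain ⟨c₀, hc₀, e₀⟩ := id F₁.2
  have hv₁u := Fb.ne_u P hw0 F₁
  have hcv : Commute v₁ u := (mem_Kt.1 (Fb.mem_K P F₁)).2
  obtain ⟨u₃, u₄, u₅, hL⟩ := P.U.exists_linePts hm1 P.hu hv₁u hcv hω
  have hR := exists_hexad P.hG P.hp P.h22.1 P.data P.ha hm1 P.hu hv₁u hcv hω P.U hL
  have fbl : ∀ {y : G} {ρ e : K}, y ∈ Da D a → e ≠ 0 → P.U.vec y = e • (P.U.vec v₁ + ρ • P.U.vec u) → P.Fb w (l₁ + ρ * c₀⁻¹) y := by
    intro y ρ e hy he hv
    refine ⟨hy, e * c₀, mul_ne_zero he hc₀, ?_⟩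
    rw [hv, e₀, P.hb]
    funext i
    simp only [Pi.add_apply, Pi.smul_apply, smul_eq_mul]
    field_simp
    ring
  obtain ⟨e₃, he₃, v₃'⟩ := hL.v₃
  obtain ⟨e₄, he₄, v₄'⟩ := hL.v₄
  obtain ⟨e₅, he₅, v₅'⟩ := hL.v₅
  have G₃ : P.Fb w (l₁ + 1 * c₀⁻¹) u₃ := fbl hL.m₃ he₃ (by rw [one_smul]; exact v₃')
  have G₄ : P.Fb w (l₁ + ω * c₀⁻¹) u₄ := fbl hL.m₄ he₄ v₄'
  have G₅ : P.Fb w (l₁ + ω ^ 2 * c₀⁻¹) u₅ := fbl hL.m₅ he₅ v₅'
  have conv' : ∀ {l : K} {y : G}, l₁ ≠ l → P.Fb w l y → y = u₃ ∨ y = u₄ ∨ y = u₅ := by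
    intro l y hl hy
    have hl0 : l + l₁ ≠ 0 := fun h => hl (eq_of_add_zero h).symm
    have hr0 : (l + l₁) * c₀ ≠ 0 := mul_ne_zero hl0 hc₀
    have hr3 := cube _ hr0
    have hf : ((l + l₁) * c₀ + 1) * ((l + l₁) * c₀ + ω) * ((l + l₁) * c₀ + ω ^ 2) = 0 := by
      linear_combination hr3 + (((l + l₁) * c₀) ^ 2 + ω * ((l + l₁) * c₀)) * hω + hω3 + h2z
    have el : ∀ ρ : K, (l + l₁) * c₀ = ρ → l = l₁ + ρ * c₀⁻¹ := by
      intro ρ h
      rw [← h]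
      field_simp
      linear_combination (-l₁) * h2z
    rcases mul_eq_zero.1 hf with hf | hf
    · rcases mul_eq_zero.1 hf with hf | hf
      · have h5 := el 1 (eq_of_add_zero hf)
        rw [h5] at hy
        exact Or.inl (Fb.unique P hy G₃)
      · have h5 := el ω (eq_of_add_zero hf)
        rw [h5] at hy
        exact Or.inr (Or.inl (Fb.unique P hy G₄))
    · have h5 := el (ω ^ 2) (eq_of_add_zero hf)
      rw [h5] at hy
      exact Or.inr (Or.inr (Fb.unique P hy G₅))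
  have m₂ := conv' n₁₂ F₂
  have m₃ := conv' n₁₃ F₃
  have m₄ := conv' n₁₄ F₄
  have ne₂₃ : v₂ ≠ v₃ := fun h => n₂₃ (Fb.eq_l P hw0 F₂ (h ▸ F₃))
  have ne₂₄ : v₂ ≠ v₄ := fun h => n₂₄ (Fb.eq_l P hw0 F₂ (h ▸ F₄))
  have ne₃₄ : v₃ ≠ v₄ := fun h => n₃₄ (Fb.eq_l P hw0 F₃ (h ▸ F₄))
  have hperm := line_perm hL hω hm1 P.hu hv₁u hcv m₂ m₃ m₄ ne₂₃ ne₂₄ ne₃₄
  exact IsRel.perm hR (List.Perm.cons _ (List.Perm.cons _ (List.Perm.cons _ hperm.symm)))

/-- Four members of a fibre have product `a u`. -/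
theorem Fb.prod_four {w : Fin 4 → K} (hw0 : w ≠ 0) {l₁ l₂ l₃ l₄ : K} {v₁ v₂ v₃ v₄ : G}
    (F₁ : P.Fb w l₁ v₁) (F₂ : P.Fb w l₂ v₂) (F₃ : P.Fb w l₃ v₃) (F₄ : P.Fb w l₄ v₄)
    (n₁₂ : l₁ ≠ l₂) (n₁₃ : l₁ ≠ l₃) (n₁₄ : l₁ ≠ l₄) (n₂₃ : l₂ ≠ l₃) (n₂₄ : l₂ ≠ l₄) (n₃₄ : l₃ ≠ l₄) :
    v₁ * v₂ * v₃ * v₄ = a * u := by
  have hR := Fb.rel P hw0 F₁ F₂ F₃ F₄ n₁₂ n₁₃ n₁₄ n₂₃ n₂₄ n₃₄
  have h1 := hR.prod
  simp only [List.prod_cons, List.prod_nil, mul_one] at h1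
  have hcv : Commute v₁ u := (mem_Kt.1 (Fb.mem_K P F₁)).2
  have h2 : a * u * (v₁ * v₂ * v₃ * v₄) = 1 := by
    calc a * u * (v₁ * v₂ * v₃ * v₄) = a * (u * v₁) * (v₂ * v₃ * v₄) := by group
      _ = a * (v₁ * u) * (v₂ * v₃ * v₄) := by rw [hcv.eq]
      _ = a * (v₁ * (u * (v₂ * (v₃ * v₄)))) := by group
      _ = 1 := h1
  have h3 : v₁ * v₂ * v₃ * v₄ = (a * u)⁻¹ := eq_inv_of_mul_eq_one_right h2
  rw [h3, _root_.mul_inv_rev, inv_of_mem P.hG.1 P.hu.1, inv_of_mem P.hG.1 P.ha]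
  exact P.comm_au.symm.eq

omit [Fintype G] in
theorem mem_of_pair {w : Fin 4 → K} {l m : K} {v v' : G} (F : P.Fb w l v) (F' : P.Fb w m v') : v * v' ∈ Kt a u :=
  Subgroup.mul_mem _ (Fb.mem_K P F) (Fb.mem_K P F')

/-- Conjugates of a pair. -/
theorem pair_conj {w : Fin 4 → K} (hw : B₄ w w = 0) (hw0 : w ≠ 0) {l m : K} {v v' y : G} {f : (Fin 6 → K) → K}
    (F : P.Fb w l v) (F' : P.Fb w m v') (hy : P.HasF y f) :
    y * (v * v') * y⁻¹ = v * v' ∨ y * (v * v') * y⁻¹ = v * v' * (a * u) := by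
  have h2z := two_zero (K := K)
  have hvv := mul_self_of_mem P.hG.1 F.1.1
  have hvv' := mul_self_of_mem P.hG.1 F'.1.1
  have hc := Fb.comm P hw F F'
  have hexp : y * (v * v') * y⁻¹ = (y * v * y⁻¹) * (y * v' * y⁻¹) := by group
  have C₁ := Fb.conj P F hy
  have C₂ := Fb.conj P F' hy
  set τ := f (hat w) with hτ
  by_cases hlm : l = m
  · subst hlm
    have : v = v' := Fb.unique P F F'
    subst this
    left
    rw [hvv]
    group
  by_cases h0 : τ = 0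
  · left
    rw [h0, add_zero] at C₁ C₂
    rw [hexp, Fb.unique P C₁ F, Fb.unique P C₂ F']
  by_cases h1 : τ = l + m
  · left
    have e1 : l + τ = m := by rw [h1]; linear_combination l * h2z
    have e2 : m + τ = l := by rw [h1]; linear_combination m * h2z
    rw [e1] at C₁
    rw [e2] at C₂
    rw [hexp, Fb.unique P C₁ F', Fb.unique P C₂ F, hc.symm.eq]
  right
  have n₁ : l ≠ l + τ := fun h => h0 (by linear_combination (-1 : K) * h)
  have n₂ : l ≠ m + τ := fun h => h1 (by linear_combination (-1 : K) * h - m * h2z)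
  have n₃ : m ≠ l + τ := fun h => h1 (by linear_combination (-1 : K) * h - l * h2z)
  have n₄ : m ≠ m + τ := fun h => h0 (by linear_combination (-1 : K) * h)
  have n₅ : l + τ ≠ m + τ := fun h => hlm (add_right_cancel h)
  have h4 := Fb.prod_four P hw0 F F' C₁ C₂ hlm n₁ n₂ n₃ n₄ n₅
  rw [hexp]
  calc (y * v * y⁻¹) * (y * v' * y⁻¹) = (v * v') * (v * v') * ((y * v * y⁻¹) * (y * v' * y⁻¹)) := by
        have : (v * v') * (v * v') = 1 := by
          calc (v * v') * (v * v') = v * (v' * v) * v' := by group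
            _ = v * (v * v') * v' := by rw [hc.symm.eq]
            _ = (v * v) * (v' * v') := by group
            _ = 1 := by rw [hvv, hvv', one_mul]
        rw [this, one_mul]
    _ = v * v' * (v * v' * (y * v * y⁻¹) * (y * v' * y⁻¹)) := by group
    _ = v * v' * (a * u) := by rw [h4]

omit P [Fintype G] in
theorem B₄_single_sum (y : Fin 4 → K) (i j : Fin 4) (hij : i ≠ j) (c : K) :
    B₄ y (Pi.single j 1 + c • Pi.single i 1) = y j + c ^ 2 * y i := by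
  rw [B₄_eq]
  fin_cases i <;> fin_cases j <;> simp at hij <;> simp [Pi.single_apply] <;> ring

omit P [Fintype G] in
theorem single_sum_ne (i j : Fin 4) (hij : i ≠ j) (c : K) : (Pi.single j 1 + c • Pi.single i 1 : Fin 4 → K) ≠ 0 := by
  intro h0
  have := congrFun h0 j
  simp [Pi.single_apply, hij.symm] at this

/-- Elements with a translation part on a single coordinate. -/
theorem exists_coord (S : Subgroup G) (hp : ∀ {w : Fin 4 → K} {l m : K} {v v' : G}, B₄ w w = 0 → w ≠ 0 → P.Fb w l v → P.Fb w m v' → v * v' ∈ S)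
    (j : Fin 4) (φ : K) : ∃ p ∈ S, p ∈ Kt a u ∧ P.HasF p (fun y => low y j * φ) := by
  have h2z := two_zero (K := K)
  obtain ⟨ω, hω⟩ := exists_root (K := K)
  have hω0 := root_ne_zero hω
  have hω3 := root_cube hω
  obtain ⟨i, hij⟩ : ∃ i : Fin 4, i ≠ j := ⟨j + 1, by fin_cases j <;> decide⟩
  have hw₁ : B₄ (Pi.single j 1 + (1 : K) • Pi.single i 1 : Fin 4 → K) (Pi.single j 1 + (1 : K) • Pi.single i 1) = 0 := isotropic_sum j i hij.symm one_ne_zero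
  have hw₂ : B₄ (Pi.single j 1 + ω • Pi.single i 1 : Fin 4 → K) (Pi.single j 1 + ω • Pi.single i 1) = 0 := isotropic_sum j i hij.symm hω0
  have n₁ := single_sum_ne (K := K) i j hij 1
  have n₂ := single_sum_ne (K := K) i j hij ω
  obtain ⟨v₁, F₁⟩ := P.exists_fb hw₁ n₁ (φ * ω)
  obtain ⟨v₁', F₁'⟩ := P.exists_fb hw₁ n₁ 0
  obtain ⟨v₂, F₂⟩ := P.exists_fb hw₂ n₂ (φ * ω ^ 2)
  obtain ⟨v₂', F₂'⟩ := P.exists_fb hw₂ n₂ 0
  refine ⟨v₁ * v₁' * (v₂ * v₂'), Subgroup.mul_mem _ (hp hw₁ n₁ F₁ F₁') (hp hw₂ n₂ F₂ F₂'),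
    Subgroup.mul_mem _ (mem_of_pair P F₁ F₁') (mem_of_pair P F₂ F₂'), ?_⟩
  have h1 := HasF.mul P (Fb.hasF P hw₁ F₁ F₁') (Fb.hasF P hw₂ F₂ F₂')
  obtain ⟨s, s1, s2, s3⟩ := h1
  refine ⟨s, s1, s2, fun y hy => ?_⟩
  rw [s3 y hy]
  beta_reduce
  rw [B₄_single_sum _ i j hij, B₄_single_sum _ i j hij]
  linear_combination (low y j * φ) * hω + (low y i * φ * ω) * hω3 + (low y i * φ * ω - low y j * φ) * h2z

/-- **`EE` is generated by `a`, `u` and the pairs in fibres.** -/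
theorem EE_le_of (S : Subgroup G) (h1 : a ∈ S) (h2 : u ∈ S)
    (hp : ∀ {w : Fin 4 → K} {l m : K} {v v' : G}, B₄ w w = 0 → w ≠ 0 → P.Fb w l v → P.Fb w m v' → v * v' ∈ S) : P.EE ≤ S := by
  have h2z := two_zero (K := K)
  intro x hx
  obtain ⟨f, hf⟩ := P.exists_HasF_of_mem hx
  have hxK := P.EE_le hx
  obtain ⟨s, s1, s2, s3⟩ := id hf
  obtain ⟨p₀, m₀, k₀, H₀⟩ := P.exists_coord S hp 0 (ff s (hat (Pi.single 0 1)))
  obtain ⟨p₁, m₁, k₁, H₁⟩ := P.exists_coord S hp 1 (ff s (hat (Pi.single 1 1)))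
  obtain ⟨p₂, m₂, k₂, H₂⟩ := P.exists_coord S hp 2 (ff s (hat (Pi.single 2 1)))
  obtain ⟨p₃, m₃, k₃, H₃⟩ := P.exists_coord S hp 3 (ff s (hat (Pi.single 3 1)))
  have hqS : p₀ * p₁ * p₂ * p₃ ∈ S := Subgroup.mul_mem _ (Subgroup.mul_mem _ (Subgroup.mul_mem _ m₀ m₁) m₂) m₃
  have hqK : p₀ * p₁ * p₂ * p₃ ∈ Kt a u := Subgroup.mul_mem _ (Subgroup.mul_mem _ (Subgroup.mul_mem _ k₀ k₁) k₂) k₃
  have Hq := HasF.mul P (HasF.mul P (HasF.mul P H₀ H₁) H₂) H₃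
  have Hqi := HasF.inv P Hq (mem_Kt.1 hqK).1
  have Hr := HasF.mul P hf Hqi
  have hrK : x * (p₀ * p₁ * p₂ * p₃)⁻¹ ∈ Kt a u := Subgroup.mul_mem _ hxK (Subgroup.inv_mem _ hqK)
  have hr := HasF.mem_V P Hr (mem_Kt.1 hrK).1 (fun y hy => by
    rw [← s3 y hy]
    have e1 : ff s y = low y 0 * ff s (hat (Pi.single 0 1)) + low y 1 * ff s (hat (Pi.single 1 1)) +
        low y 2 * ff s (hat (Pi.single 2 1)) + low y 3 * ff s (hat (Pi.single 3 1)) := by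
      conv_lhs => rw [perp_decomp hy, hat_expand (low y)]
      simp only [ff_add, ff_smul, ff_b₀ s2, mul_zero, zero_add]
    rw [e1]
    linear_combination (low y 0 * ff s (hat (Pi.single 0 1)) + low y 1 * ff s (hat (Pi.single 1 1)) +
        low y 2 * ff s (hat (Pi.single 2 1)) + low y 3 * ff s (hat (Pi.single 3 1))) * h2z)
  have hrS : x * (p₀ * p₁ * p₂ * p₃)⁻¹ ∈ S := by
    rcases hr with h | h | h | h
    · rw [h]; exact Subgroup.one_mem _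
    · rw [h]; exact h1
    · rw [h]; exact h2
    · rw [h]; exact Subgroup.mul_mem _ h1 h2
  have e : x = x * (p₀ * p₁ * p₂ * p₃)⁻¹ * (p₀ * p₁ * p₂ * p₃) := by group
  rw [e]
  exact Subgroup.mul_mem _ hrS hqS

/-- `a u` is central in `Kt`. -/
theorem comm_au_Kt {x : G} (hx : x ∈ Kt a u) : Commute x (a * u) := by
  obtain ⟨h1, h2⟩ := mem_Kt.1 hx
  exact h1.mul_right h2

omit [Fintype G] in
theorem au_sq : (a * u) * (a * u) = 1 := by
  have h1 := mul_self_of_mem P.hG.1 P.ha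
  have h2 := mul_self_of_mem P.hG.1 P.hu.1
  calc (a * u) * (a * u) = a * (u * a) * u := by group
    _ = a * (a * u) * u := by rw [P.comm_au.symm.eq]
    _ = (a * a) * (u * u) := by group
    _ = 1 := by rw [h1, h2, one_mul]

/-- **Commutators of `EE` lie in `⟨a u⟩`.** -/
theorem EE_comm {x y : G} (hx : x ∈ P.EE) (hy : y ∈ P.EE) : y * x * y⁻¹ = x ∨ y * x * y⁻¹ = x * (a * u) := by
  obtain ⟨g, hg⟩ := P.exists_HasF_of_mem hy
  have hj := P.au_sq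
  let S : Subgroup G :=
    { carrier := {x | x ∈ Kt a u ∧ (y * x * y⁻¹ = x ∨ y * x * y⁻¹ = x * (a * u))}
      mul_mem' := by
        rintro x₁ x₂ ⟨k₁, h₁⟩ ⟨k₂, h₂⟩
        refine ⟨Subgroup.mul_mem _ k₁ k₂, ?_⟩
        have hexp : y * (x₁ * x₂) * y⁻¹ = (y * x₁ * y⁻¹) * (y * x₂ * y⁻¹) := by group
        rw [hexp]
        have hc := P.comm_au_Kt k₂
        rcases h₁ with h₁ | h₁ <;> rcases h₂ with h₂ | h₂ <;> rw [h₁, h₂]
        · exact Or.inl rfl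
        · exact Or.inr (by group)
        · right
          calc x₁ * (a * u) * x₂ = x₁ * ((a * u) * x₂) := by group
            _ = x₁ * (x₂ * (a * u)) := by rw [hc.symm.eq]
            _ = _ := by group
        · left
          calc x₁ * (a * u) * (x₂ * (a * u)) = x₁ * ((a * u) * x₂) * (a * u) := by group
            _ = x₁ * (x₂ * (a * u)) * (a * u) := by rw [hc.symm.eq]
            _ = x₁ * x₂ * ((a * u) * (a * u)) := by group
            _ = x₁ * x₂ := by rw [hj, mul_one]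
      one_mem' := ⟨Subgroup.one_mem _, Or.inl (by group)⟩
      inv_mem' := by
        rintro x₁ ⟨k₁, h₁⟩
        refine ⟨Subgroup.inv_mem _ k₁, ?_⟩
        have hexp : y * x₁⁻¹ * y⁻¹ = (y * x₁ * y⁻¹)⁻¹ := by group
        rw [hexp]
        rcases h₁ with h₁ | h₁ <;> rw [h₁]
        · exact Or.inl rfl
        · right
          have hc := P.comm_au_Kt k₁
          have hinv : (a * u)⁻¹ = a * u := inv_eq_of_mul_eq_one_left hj
          rw [_root_.mul_inv_rev, hinv]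
          exact (hc.inv_left.symm).eq }
  have hle : P.EE ≤ S := by
    refine P.EE_le_of S ⟨P.a_mem, Or.inl ?_⟩ ⟨P.u_mem, Or.inl ?_⟩ ?_
    · rw [(mem_Kt.1 (P.EE_le hy)).1.eq]; group
    · rw [(mem_Kt.1 (P.EE_le hy)).2.eq]; group
    · intro w l m v v' hw hw0 F F'
      exact ⟨mem_of_pair P F F', pair_conj P hw hw0 F F' hg⟩
  exact (hle hx).2

/-- **Squares of `EE` lie in `⟨a u⟩`.** -/
theorem EE_sq {x : G} (hx : x ∈ P.EE) : x * x = 1 ∨ x * x = a * u := by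
  have hj := P.au_sq
  let S : Subgroup G :=
    { carrier := {x | x ∈ P.EE ∧ (x * x = 1 ∨ x * x = a * u)}
      mul_mem' := by
        rintro x₁ x₂ ⟨k₁, h₁⟩ ⟨k₂, h₂⟩
        refine ⟨Subgroup.mul_mem _ k₁ k₂, ?_⟩
        have hc₁ := P.comm_au_Kt (P.EE_le k₂)
        have key : x₁ * x₂ * (x₁ * x₂) = x₁ * x₁ * (x₂ * x₂) ∨ x₁ * x₂ * (x₁ * x₂) = x₁ * x₁ * (x₂ * x₂) * (a * u) := by
          have e1 : x₁ * x₂ * (x₁ * x₂) = x₁ * (x₂ * x₁ * x₂⁻¹) * (x₂ * x₂) := by group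
          rcases P.EE_comm k₁ k₂ with h | h
          · left
            rw [e1, h]
          · right
            rw [e1, h]
            calc x₁ * (x₁ * (a * u)) * (x₂ * x₂) = x₁ * x₁ * ((a * u) * (x₂ * x₂)) := by group
              _ = x₁ * x₁ * ((x₂ * x₂) * (a * u)) := by rw [(hc₁.mul_left hc₁).symm.eq]
              _ = _ := by group
        rcases key with key | key <;> rw [key] <;> rcases h₁ with h₁ | h₁ <;> rcases h₂ with h₂ | h₂ <;> rw [h₁, h₂] <;>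
          simp [hj]
      one_mem' := ⟨Subgroup.one_mem _, Or.inl (by group)⟩
      inv_mem' := by
        rintro x₁ ⟨k₁, h₁⟩
        refine ⟨Subgroup.inv_mem _ k₁, ?_⟩
        have hinv : (a * u)⁻¹ = a * u := inv_eq_of_mul_eq_one_left hj
        have e : x₁⁻¹ * x₁⁻¹ = (x₁ * x₁)⁻¹ := by group
        rw [e]
        rcases h₁ with h₁ | h₁ <;> rw [h₁]
        · exact Or.inl (by group)
        · exact Or.inr hinv }
  have hle : P.EE ≤ S := by
    refine P.EE_le_of S ⟨P.a_mem_EE, Or.inl (mul_self_of_mem P.hG.1 P.ha)⟩ ⟨P.u_mem_EE, Or.inl (mul_self_of_mem P.hG.1 P.hu.1)⟩ ?_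
    intro w l m v v' hw hw0 F F'
    refine ⟨P.mem_EE_of_HasF (mem_of_pair P F F') (Fb.hasF P hw F F'), Or.inl ?_⟩
    have hc := Fb.comm P hw F F'
    calc v * v' * (v * v') = v * (v' * v) * v' := by group
      _ = v * (v * v') * v' := by rw [hc.symm.eq]
      _ = (v * v) * (v' * v') := by group
      _ = 1 := by rw [mul_self_of_mem P.hG.1 F.1.1, mul_self_of_mem P.hG.1 F'.1.1, one_mul]
  exact (hle hx).2

omit [Fintype G] in
theorem au_ne_one : a * u ≠ 1 := by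
  intro h
  have h2 : a = u⁻¹ := eq_inv_of_mul_eq_one_left h
  rw [inv_of_mem P.hG.1 P.hu.1] at h2
  exact P.hu.2.1 h2.symm

/-- Elements central in `EE` lie in `⟨a, u⟩`. -/
theorem mem_of_center_EE {x : G} (hx : x ∈ P.EE) (hc : ∀ y ∈ P.EE, Commute y x) : x = 1 ∨ x = a ∨ x = u ∨ x = a * u := by
  have h2z := two_zero (K := K)
  obtain ⟨f, hf⟩ := P.exists_HasF_of_mem hx
  have hxK := P.EE_le hx
  obtain ⟨ω, hω⟩ := exists_root (K := K)
  have hω0 := root_ne_zero hω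
  have hω3 := root_cube hω
  refine HasF.mem_V P hf (mem_Kt.1 hxK).1 ?_
  obtain ⟨s, s1, s2, s3⟩ := id hf
  intro y hy
  rw [← s3 y hy]
  refine ff_zero_of_iso s2 (fun w hw hw0 => ?_) y hy
  rw [s3 _ (B_hat_b₀ w)]
  by_contra hτ
  -- choose the difference of a pair different from the translation
  obtain ⟨κ, hκ0, hκ⟩ : ∃ κ : K, κ ≠ 0 ∧ κ ≠ f (hat w) := by
    by_cases h : f (hat w) = 1
    · exact ⟨ω, hω0, by
        rw [h]
        intro h1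
        rw [h1] at hω
        have h5 : (1 : K) = 0 := by linear_combination hω - h2z
        exact one_ne_zero h5⟩
    · exact ⟨1, one_ne_zero, fun h1 => h h1.symm⟩
  obtain ⟨v₁, F₁⟩ := P.exists_fb hw hw0 κ
  obtain ⟨v₂, F₂⟩ := P.exists_fb hw hw0 0
  have C₁ := Fb.conj P F₁ hf
  have C₂ := Fb.conj P F₂ hf
  rw [zero_add] at C₂
  have hpE := P.mem_EE_of_HasF (mem_of_pair P F₁ F₂) (Fb.hasF P hw F₁ F₂)
  have hcp := hc _ hpE
  have hprod := Fb.prod_four P hw0 F₁ F₂ C₁ C₂ hκ0 (fun h => hτ (by linear_combination (-1 : K) * h)) hκ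
    (fun h => hκ (by linear_combination (-1 : K) * h - (f (hat w)) * h2z)) (Ne.symm hτ)
    (fun h => hκ0 (add_eq_right.1 h))
  have hvv : v₁ * v₂ * (v₁ * v₂) = 1 := by
    have hcm := Fb.comm P hw F₁ F₂
    calc v₁ * v₂ * (v₁ * v₂) = v₁ * (v₂ * v₁) * v₂ := by group
      _ = v₁ * (v₁ * v₂) * v₂ := by rw [hcm.symm.eq]
      _ = (v₁ * v₁) * (v₂ * v₂) := by group
      _ = 1 := by rw [mul_self_of_mem P.hG.1 F₁.1.1, mul_self_of_mem P.hG.1 F₂.1.1, one_mul]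
  have h3 : x * v₁ * x⁻¹ * (x * v₂ * x⁻¹) = v₁ * v₂ := by
    have : x * (v₁ * v₂) * x⁻¹ = v₁ * v₂ := by rw [hcp.symm.eq]; group
    rw [← this]
    group
  have h4 : v₁ * v₂ * (x * v₁ * x⁻¹) * (x * v₂ * x⁻¹) = v₁ * v₂ * (v₁ * v₂) := by
    rw [← h3]
    group
  rw [h4, hvv] at hprod
  exact P.au_ne_one hprod.symm

/-- Two elements of `EE` with commutator `a u`. -/
theorem exists_noncomm : ∃ x ∈ P.EE, ∃ y ∈ P.EE, y * x * y⁻¹ = x * (a * u) := by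
  have h2z := two_zero (K := K)
  obtain ⟨ω, hω⟩ := exists_root (K := K)
  have hω0 := root_ne_zero hω
  have hω1 : ω ≠ 1 := by
    intro h1
    rw [h1] at hω
    have h5 : (1 : K) = 0 := by linear_combination hω - h2z
    exact one_ne_zero h5
  obtain ⟨v₁, F₁⟩ := P.exists_fb B₄_w₀ w₀_ne 1
  obtain ⟨v₂, F₂⟩ := P.exists_fb B₄_w₀ w₀_ne 0
  obtain ⟨v₃, F₃⟩ := P.exists_fb B₄_w₁ w₁_ne ω
  obtain ⟨v₄, F₄⟩ := P.exists_fb B₄_w₁ w₁_ne 0
  have hx := P.mem_EE_of_HasF (mem_of_pair P F₁ F₂) (Fb.hasF P B₄_w₀ F₁ F₂)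
  have hyF := Fb.hasF P B₄_w₁ F₃ F₄
  have hy := P.mem_EE_of_HasF (mem_of_pair P F₃ F₄) hyF
  refine ⟨_, hx, _, hy, ?_⟩
  have C₁ := Fb.conj P F₁ hyF
  have C₂ := Fb.conj P F₂ hyF
  simp only [low_hat, B₄_w₀_w₁, add_zero, one_mul, zero_add] at C₁ C₂
  have hprod := Fb.prod_four P w₀_ne F₁ F₂ C₁ C₂ one_ne_zero (fun h => hω0 (by linear_combination (-1 : K) * h)) (Ne.symm hω1)
    (fun h => hω1 (by linear_combination (-1 : K) * h - ω * 0 - h2z)) (Ne.symm hω0)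
    (fun h => one_ne_zero (add_eq_right.1 h))
  have hvv : v₁ * v₂ * (v₁ * v₂) = 1 := by
    have hcm := Fb.comm P B₄_w₀ F₁ F₂
    calc v₁ * v₂ * (v₁ * v₂) = v₁ * (v₂ * v₁) * v₂ := by group
      _ = v₁ * (v₁ * v₂) * v₂ := by rw [hcm.symm.eq]
      _ = (v₁ * v₁) * (v₂ * v₂) := by group
      _ = 1 := by rw [mul_self_of_mem P.hG.1 F₁.1.1, mul_self_of_mem P.hG.1 F₂.1.1, one_mul]
  rw [← hprod]
  calc (v₃ * v₄) * (v₁ * v₂) * (v₃ * v₄)⁻¹ = ((v₁ * v₂) * (v₁ * v₂)) * ((v₃ * v₄) * (v₁ * v₂) * (v₃ * v₄)⁻¹) := by rw [hvv, one_mul]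
    _ = _ := by group

end Pt

end Cfsg.Agent.Lib.ThreeT.M22
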