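import Cfsg.Agent.Lib.ThreeT.M22w
import Cfsg.Agent.Lib.PGroups.Special
import Cfsg.Agent.Lib.Components.Basic

/-!
# Groups of type M(22): the generalized Fitting subgroup of the centralizer of the product of two commuting members

An abstract decomposition of a group of order `2¹⁰` as the direct product of a group of order two and an extraspecial group,
and the computation of the generalized Fitting subgroup.
-/

set_option autoImplicit false
set_option linter.unusedSectionVars false
set_option linter.unusedVariables false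
set_option linter.style.longLine false
set_option linter.unusedSimpArgs false
set_option linter.unnecessarySimpa false
set_option linter.style.haveILetI false

namespace Cfsg.Agent.Lib.ThreeT.M22

open Cfsg

section decomp

open Cfsg.Agent.Lib.PGroups.Special
open scoped commutatorElement

variable {E : Type*} [Group E] [Finite E] {a j : E}

/-- A complement to `⟨a⟩` containing `j`. -/
theorem exists_compl (hac : ∀ y, Commute y a) (hjc : ∀ y, Commute y j) (hjj : j * j = 1) (ha1 : a ≠ 1) (haj : a ≠ j)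
    (hcomm : ∀ x y : E, y * x * y⁻¹ = x ∨ y * x * y⁻¹ = x * j) (hsq : ∀ x : E, x * x = 1 ∨ x * x = j) :
    ∃ Q : Subgroup E, j ∈ Q ∧ a ∉ Q ∧ ∀ x, x ∈ Q ∨ a * x ∈ Q := by
  classical
  let T : Set (Subgroup E) := {Q | j ∈ Q ∧ a ∉ Q}
  have hne : T.Nonempty := by
    refine ⟨Subgroup.closure {j}, Subgroup.subset_closure (by simp), ?_⟩
    intro h
    have key : ∀ x ∈ Subgroup.closure ({j} : Set E), x = 1 ∨ x = j := by
      intro x hx
      induction hx using Subgroup.closure_induction with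
      | mem x hx => exact Or.inr hx
      | one => exact Or.inl rfl
      | mul x y _ _ ihx ihy =>
        rcases ihx with rfl | rfl <;> rcases ihy with rfl | rfl <;> simp [hjj]
      | inv x _ ih =>
        rcases ih with rfl | rfl
        · simp
        · right
          exact inv_eq_of_mul_eq_one_left hjj
    rcases key a h with h1 | h1
    · exact ha1 h1
    · exact haj h1
  obtain ⟨Q, hQ⟩ := (Set.toFinite T).exists_maximal hne
  refine ⟨Q, hQ.prop.1, hQ.prop.2, fun x => ?_⟩
  by_cases hx : x ∈ Q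
  · exact Or.inl hx
  right
  have hjQ : j ∈ Q := hQ.prop.1
  have hconj : ∀ q ∈ Q, ∀ g : E, g * q * g⁻¹ ∈ Q := by
    intro q hq g
    rcases hcomm q g with h | h
    · rw [h]; exact hq
    · rw [h]; exact Subgroup.mul_mem _ hq hjQ
  have hxx : x * x ∈ Q := by
    rcases hsq x with h | h
    · rw [h]; exact Subgroup.one_mem _
    · rw [h]; exact hjQ
  let Q' : Subgroup E :=
    { carrier := {y | y ∈ Q ∨ x * y ∈ Q}
      mul_mem' := by
        rintro y y' (h | h) (h' | h')
        · exact Or.inl (Subgroup.mul_mem _ h h')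
        · right
          have e : x * (y * y') = (x * y * x⁻¹) * (x * y') := by group
          rw [e]
          exact Subgroup.mul_mem _ (hconj y h x) h'
        · right
          have e : x * (y * y') = (x * y) * y' := by group
          rw [e]
          exact Subgroup.mul_mem _ h h'
        · left
          have e : y * y' = (x⁻¹ * (x * y) * x⁻¹⁻¹) * (x * x)⁻¹ * (x * y') := by group
          rw [e]
          exact Subgroup.mul_mem _ (Subgroup.mul_mem _ (hconj _ h _) (Subgroup.inv_mem _ hxx)) h'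
      one_mem' := Or.inl (Subgroup.one_mem _)
      inv_mem' := by
        rintro y (h | h)
        · exact Or.inl (Subgroup.inv_mem _ h)
        · right
          have e : x * y⁻¹ = (x * (x * y)⁻¹ * x⁻¹) * (x * x) := by group
          rw [e]
          exact Subgroup.mul_mem _ (hconj _ (Subgroup.inv_mem _ h) _) hxx }
  have hle : Q ≤ Q' := fun y hy => Or.inl hy
  have hxQ' : x ∈ Q' := Or.inr hxx
  have haQ' : a ∈ Q' := by
    by_contra h
    have h1 : Q' ≤ Q := hQ.2 ⟨hle hjQ, h⟩ hle
    exact hx (h1 hxQ')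
  rcases haQ' with h | h
  · exact absurd h hQ.prop.2
  · rw [← (hac x).eq]
    exact h

/-- The map `ε ↦ a^ε`. -/
noncomputable def alphaHom (hac : ∀ y, Commute y a) (haa : a * a = 1) : Multiplicative (ZMod 2) →* E :=
  MonoidHom.mk' (fun ε => if Multiplicative.toAdd ε = 0 then 1 else a) (by
    have hz : ∀ z : ZMod 2, z = 0 ∨ z = 1 := by decide
    have h11 : (1 : ZMod 2) + 1 = 0 := by decide
    intro ε ε'
    have e : Multiplicative.toAdd (ε * ε') = Multiplicative.toAdd ε + Multiplicative.toAdd ε' := rfl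
    rw [e]
    rcases hz (Multiplicative.toAdd ε) with h | h <;> rcases hz (Multiplicative.toAdd ε') with h' | h' <;> rw [h, h'] <;> simp [h11, haa])

/-- The decomposition as a direct product. -/
theorem exists_prod_equiv (hac : ∀ y, Commute y a) (haa : a * a = 1) {Q : Subgroup E} (ha : a ∉ Q) (hQ : ∀ x, x ∈ Q ∨ a * x ∈ Q) :
    Nonempty (Multiplicative (ZMod 2) × Q ≃* E) := by
  have hz : ∀ z : ZMod 2, z = 0 ∨ z = 1 := by decide
  have h1z : (1 : ZMod 2) ≠ 0 := by decide
  let α := alphaHom hac haa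
  have hα0 : α (Multiplicative.ofAdd 0) = 1 := by
    show (if Multiplicative.toAdd (Multiplicative.ofAdd (0 : ZMod 2)) = 0 then 1 else a) = 1
    simp
  have hα1 : α (Multiplicative.ofAdd 1) = a := by
    show (if Multiplicative.toAdd (Multiplicative.ofAdd (1 : ZMod 2)) = 0 then 1 else a) = a
    simp [h1z]
  have hcases : ∀ ε : Multiplicative (ZMod 2), ε = Multiplicative.ofAdd 0 ∨ ε = Multiplicative.ofAdd 1 := by
    intro ε
    rcases hz (Multiplicative.toAdd ε) with h | h
    · left; exact h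
    · right; exact h
  let f : Multiplicative (ZMod 2) × Q →* E := MonoidHom.noncommCoprod α Q.subtype (by
    intro ε q
    rcases hcases ε with rfl | rfl
    · rw [hα0]; exact Commute.one_left _
    · rw [hα1]; exact (hac _).symm)
  have hf : ∀ ε (q : Q), f (ε, q) = α ε * q.1 := fun _ _ => rfl
  refine ⟨MulEquiv.ofBijective f ⟨?_, ?_⟩⟩
  · rw [← MonoidHom.ker_eq_bot_iff, eq_bot_iff]
    rintro ⟨ε, q⟩ h
    have h1 : α ε * q.1 = 1 := h
    rcases hcases ε with rfl | rfl
    · rw [hα0, one_mul] at h1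
      have : q = 1 := Subtype.ext h1
      rw [this]
      exact Subgroup.one_mem _
    · rw [hα1] at h1
      exfalso
      apply ha
      have h2 : a = q.1⁻¹ := eq_inv_of_mul_eq_one_left h1
      rw [h2]
      exact Subgroup.inv_mem _ q.2
  · intro x
    rcases hQ x with h | h
    · refine ⟨(Multiplicative.ofAdd 0, ⟨x, h⟩), ?_⟩
      rw [hf, hα0, one_mul]
    · refine ⟨(Multiplicative.ofAdd 1, ⟨a * x, h⟩), ?_⟩
      rw [hf, hα1]
      show a * (a * x) = x
      rw [← mul_assoc, haa, one_mul]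

/-- The complement is extraspecial. -/
theorem compl_extraspecial (hac : ∀ y, Commute y a) (hjc : ∀ y, Commute y j) (haa : a * a = 1) (hjj : j * j = 1) (hj1 : j ≠ 1)
    (hcomm : ∀ x y : E, y * x * y⁻¹ = x ∨ y * x * y⁻¹ = x * j) (hsq : ∀ x : E, x * x = 1 ∨ x * x = j)
    (hcen : ∀ x, (∀ y, Commute y x) → x = 1 ∨ x = a ∨ x = j ∨ x = a * j)
    (hnc : ∃ x y : E, y * x * y⁻¹ = x * j)
    {Q : Subgroup E} (hjQ : j ∈ Q) (ha : a ∉ Q) (hQ : ∀ x, x ∈ Q ∨ a * x ∈ Q) (hcard : Nat.card Q = 2 ^ 9) :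
    IsExtraspecial 2 Q := by
  haveI := Fact.mk Nat.prime_two
  have hjcenter : (⟨j, hjQ⟩ : Q) ∈ Subgroup.center Q := by
    rw [Subgroup.mem_center_iff]
    intro g
    apply Subtype.ext
    exact hjc g.1
  have hcQ : ∀ z : Q, z ∈ Subgroup.center Q → z.1 = 1 ∨ z.1 = j := by
    intro z hz
    have h1 : ∀ y, Commute y z.1 := by
      intro y
      have hzq : ∀ q : Q, Commute q.1 z.1 := by
        intro q
        have := Subgroup.mem_center_iff.1 hz q
        exact congrArg Subtype.val this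
      rcases hQ y with h | h
      · exact hzq ⟨y, h⟩
      · have h2 : y = a * (a * y) := by rw [← mul_assoc, haa, one_mul]
        rw [h2]
        exact (hac _).symm.mul_left (hzq ⟨_, h⟩)
    rcases hcen z.1 h1 with h | h | h | h
    · exact Or.inl h
    · exact absurd (h ▸ z.2) ha
    · exact Or.inr h
    · exfalso
      apply ha
      have h2 : a = z.1 * j⁻¹ := by rw [h]; group
      rw [h2]
      exact Subgroup.mul_mem _ z.2 (Subgroup.inv_mem _ hjQ)
  have hL : ExtraLike 2 Q := by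
    refine ⟨IsPGroup.of_card hcard, ?_, ?_, ?_⟩
    · rw [Nat.card_eq_two_iff]
      refine ⟨1, ⟨⟨j, hjQ⟩, hjcenter⟩, ?_, ?_⟩
      · intro h
        exact hj1 (congrArg (fun w : Subgroup.center Q => (w.1 : E)) h).symm
      · ext z
        simp only [Set.mem_insert_iff, Set.mem_singleton_iff, Set.mem_univ, iff_true]
        rcases hcQ z.1 z.2 with h | h
        · left
          apply Subtype.ext
          apply Subtype.ext
          exact h
        · right
          apply Subtype.ext
          apply Subtype.ext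
          exact h
    · intro x y
      rw [commutatorElement_def]
      rcases hcomm y.1 x.1 with h | h
      · have : x * y * x⁻¹ * y⁻¹ = 1 := by
          apply Subtype.ext
          show x.1 * y.1 * x.1⁻¹ * y.1⁻¹ = 1
          rw [h]
          group
        rw [this]
        exact Subgroup.one_mem _
      · have : x * y * x⁻¹ * y⁻¹ = ⟨j, hjQ⟩ := by
          apply Subtype.ext
          show x.1 * y.1 * x.1⁻¹ * y.1⁻¹ = j
          rw [h, ((hjc y.1).eq)]
          group
        rw [this]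
        exact hjcenter
    · intro x
      rw [pow_two]
      rcases hsq x.1 with h | h
      · have : x * x = 1 := Subtype.ext h
        rw [this]
        exact Subgroup.one_mem _
      · have : x * x = ⟨j, hjQ⟩ := Subtype.ext h
        rw [this]
        exact hjcenter
  apply hL.isExtraspecial
  intro hc
  obtain ⟨x, y, h⟩ := hnc
  have hadj : ∀ w : E, ∃ w' : Q, w'.1 = w ∨ w'.1 = a * w := by
    intro w
    rcases hQ w with h1 | h1
    · exact ⟨⟨w, h1⟩, Or.inl rfl⟩
    · exact ⟨⟨a * w, h1⟩, Or.inr rfl⟩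
  obtain ⟨x', hx'⟩ := hadj x
  obtain ⟨y', hy'⟩ := hadj y
  have hcc : y' * x' = x' * y' := hc.is_comm.comm _ _
  have h2 : Commute y'.1 x'.1 := congrArg Subtype.val hcc
  have red : ∀ w v : E, Commute (a * w) v → Commute w v := by
    intro w v h
    have := ((hac v).symm.inv_left).mul_left h
    rwa [inv_mul_cancel_left] at this
  have h3 : Commute y x := by
    have h4 : Commute y x'.1 := by
      rcases hy' with e | e
      · rw [e] at h2; exact h2
      · rw [e] at h2; exact red _ _ h2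
    have h5 : Commute x y := by
      rcases hx' with e | e
      · rw [e] at h4; exact h4.symm
      · rw [e] at h4; exact red _ _ h4.symm
    exact h5.symm
  have h4 : y * x * y⁻¹ = x := by
    rw [h3.eq]
    group
  rw [h4] at h
  have h5 : x * j = x * 1 := by rw [mul_one]; exact h.symm
  exact hj1 (mul_left_cancel h5)

theorem map_center_mem {P P' : Type*} [Group P] [Group P'] (f : P ≃* P') {z : P} (hz : z ∈ Subgroup.center P) : f z ∈ Subgroup.center P' := by
  rw [Subgroup.mem_center_iff]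
  intro g
  obtain ⟨g', rfl⟩ := f.surjective g
  rw [← map_mul, ← map_mul, Subgroup.mem_center_iff.1 hz g']

/-- Transfer of extraspecial groups. -/
theorem isExtraspecial_of_mulEquiv {P P' : Type*} [Group P] [Group P'] [Finite P] (f : P ≃* P') (h : IsExtraspecial 2 P) : IsExtraspecial 2 P' := by
  have : Finite P' := Finite.of_equiv P f.toEquiv
  have := Fact.mk Nat.prime_two
  have hL := extraLike_of_isExtraspecial h
  have hL' : ExtraLike 2 P' := by
    refine ⟨hL.isPGroup.of_equiv f, ?_, ?_, ?_⟩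
    · rw [← hL.card_center]
      exact Nat.card_congr (Subgroup.centerCongr f).symm.toEquiv
    · intro x y
      have h1 := map_center_mem f (hL.comm_mem (f.symm x) (f.symm y))
      simpa [commutatorElement_def] using h1
    · intro x
      have h1 := map_center_mem f (hL.pow_mem (f.symm x))
      simpa using h1
  apply hL'.isExtraspecial
  intro hc
  apply not_isMulCommutative_of_isExtraspecial h
  refine ⟨⟨fun a b => ?_⟩⟩
  apply f.injective
  rw [map_mul, map_mul]
  exact hc.is_comm.comm _ _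

end decomp

section fit

open Cfsg.Agent.Lib.Components.Basic
open scoped commutatorElement

/-- A criterion for the generalized Fitting subgroup. -/
theorem gFit_eq {X : Type*} [Group X] [Finite X] (E : Subgroup X) (hE : E.Normal) (hnil : Group.IsNilpotent E)
    (h1 : ∀ N : Subgroup X, N.Normal → Group.IsNilpotent N → N ≤ E) (h2 : ∀ x : X, (∀ y ∈ E, Commute x y) → x ∈ E) :
    generalizedFittingSubgroup X = E := by
  have hF : fittingSubgroup X = E := le_antisymm (sSup_le fun N hN => h1 N hN.1 hN.2) (le_sSup ⟨hE, hnil⟩)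
  have hc := commutator_layer_fitting (G := X)
  rw [hF] at hc
  unfold generalizedFittingSubgroup
  rw [hF]
  refine sup_eq_right.2 fun x hx => h2 x fun y hy => ?_
  have h3 : ⁅x, y⁆ ∈ ⁅layer X, E⁆ := Subgroup.commutator_mem_commutator hx hy
  rw [hc] at h3
  exact commutatorElement_eq_one_iff_commute.1 (Subgroup.mem_bot.1 h3)

end fit

section main

open Cfsg.Agent.Lib.ThreeT.Basic Cfsg.Agent.Lib.ThreeT.Class Cfsg.Agent.Lib.ThreeT.Relations
open Cfsg.Agent.Lib.ThreeT.Rank3 Cfsg.Agent.Lib.ThreeT.Descent Cfsg.Agent.Lib.ThreeT.NoSix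
open Cfsg.Agent.Lib.ThreeT.U6Lift Cfsg.Agent.Lib.ThreeT.U6Geo
open Matrix

variable {G : Type*} [Group G] {D : Set G}
variable {K : Type*} [Field K] [Fintype K] [hK : Fact (Fintype.card K = 4)]

/-- The form. -/
local notation "B" => hermForm 6 K 2
/-- The form in dimension four. -/
local notation "B₄" => hermForm 4 K 2

/-- A copy of `Fin n` without a multiplication. -/
def BoxT (n : ℕ) : Type := Fin n

theorem B₄_w₁_w₀ : B₄ (w₁ : Fin 4 → K) w₀ = 1 := by
  rw [B₄_eq]
  simp [w₀, w₁]

namespace Pt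

variable {a u : G} (P : Pt D a u K) [Fintype G]

include P

/-- Nilpotent normal subgroups of the centralizer of the product lie in `EE`. -/
theorem le_EE_of_nilpotent (N : Subgroup ↥(Cc a u)) (hN : N.Normal) (hnil : Group.IsNilpotent N) :
    N ≤ P.EE.subgroupOf (Cc a u) := by
  haveI := simple_SU₄ (K := K)
  let incl : Kt a u →* ↥(Cc a u) := Subgroup.inclusion P.Kt_le
  let M : Subgroup (Kt a u) := N.comap incl
  have hM : M.Normal := hN.comap incl
  have hMnil : Group.IsNilpotent M := by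
    let f : M →* N := incl.subgroupComap N
    have hf : f.ker ≤ Subgroup.center M := by
      intro x hx
      have h1 : f x = 1 := hx
      have h2 : incl x.1 = 1 := congrArg Subtype.val h1
      have h3 : x = 1 := by
        apply Subtype.ext
        apply Subtype.ext
        show (x.1.1 : G) = 1
        exact congrArg (fun w : ↥(Cc a u) => (w : G)) h2
      rw [h3]
      exact Subgroup.one_mem _
    exact Subgroup.isNilpotent_of_ker_le_center f hf
  have hMv : (M.map P.vt).Normal := Subgroup.Normal.map hM _ P.vt_surj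
  have hbot : M.map P.vt = ⊥ := by
    rcases hMv.eq_bot_or_eq_top with h | h
    · exact h
    · exfalso
      have h1 : Group.IsNilpotent ↥(M.map P.vt) := Group.nilpotent_of_surjective (P.vt.subgroupMap M) (P.vt.subgroupMap_surjective M)
      have h2 : Group.IsNilpotent ↥(SU 4 K 2) := by
        rw [h] at h1
        exact Group.nilpotent_of_surjective (Subgroup.topEquiv (G := ↥(SU 4 K 2))).toMonoidHom (Subgroup.topEquiv (G := ↥(SU 4 K 2))).surjective
      haveI := h2
      exact Group.IsNilpotent.center_ne_bot ↥(SU 4 K 2) center_SU₄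
  have hker : ∀ k : Kt a u, incl k ∈ N → P.vt k = 1 := by
    intro k hk
    have h1 : P.vt k ∈ M.map P.vt := ⟨k, hk, rfl⟩
    rw [hbot] at h1
    exact Subgroup.mem_bot.1 h1
  intro n hn
  rw [Subgroup.mem_subgroupOf]
  rcases P.fix_or_swap n.2 with ⟨e1, e2⟩ | ⟨e1, e2⟩
  · have hk := P.mem_Kt_of_fix e1 e2
    exact P.mem_EE.2 ⟨hk, hker ⟨n.1, hk⟩ hn⟩
  · exfalso
    refine P.no_central_swap n.2 e1 e2 fun x => ?_
    have h1 : incl (P.cj n.2 x * x⁻¹) ∈ N := by
      have e3 : incl (P.cj n.2 x * x⁻¹) = n * (incl x * n⁻¹ * (incl x)⁻¹) := by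
        apply Subtype.ext
        show n.1 * x.1 * n.1⁻¹ * x.1⁻¹ = n.1 * (x.1 * n.1⁻¹ * x.1⁻¹)
        group
      rw [e3]
      exact N.mul_mem hn (hN.conj_mem _ (N.inv_mem hn) _)
    have h2 := hker _ h1
    rw [map_mul, map_inv] at h2
    exact mul_inv_eq_one.1 h2

/-- The centralizer of `EE` in the centralizer of the product lies in `EE`. -/
theorem mem_EE_of_comm {x : G} (hxC : x ∈ Cc a u) (h : ∀ y ∈ P.EE, Commute x y) : x ∈ P.EE := by
  haveI := simple_SU₄ (K := K)
  have h2z := two_zero (K := K)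
  have hk : x ∈ Kt a u := by
    rcases P.fix_or_swap hxC with ⟨e1, e2⟩ | ⟨e1, e2⟩
    · exact P.mem_Kt_of_fix e1 e2
    · exfalso
      have h1 := h a P.a_mem_EE
      rw [h1.eq] at e1
      have h2 : a = u := by simpa using e1
      exact P.hu.2.1 h2.symm
  let N₀ : Subgroup (Kt a u) :=
    { carrier := {k | ∀ y ∈ P.EE, Commute k.1 y}
      mul_mem' := fun {k k'} h₁ h₂ y hy => (h₁ y hy).mul_left (h₂ y hy)
      one_mem' := fun y _ => Commute.one_left y
      inv_mem' := fun {k} h₁ y hy => (h₁ y hy).inv_left }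
  have hN₀ : N₀.Normal := by
    refine ⟨fun k hk' g y hy => ?_⟩
    have hg : g.1⁻¹ ∈ Cc a u := Subgroup.inv_mem _ (P.Kt_le g.2)
    have h1 := hk' _ (P.conj_EE hg hy)
    show (g.1 * k.1 * g.1⁻¹) * y = y * (g.1 * k.1 * g.1⁻¹)
    have h2 : k.1 * (g.1⁻¹ * y * g.1⁻¹⁻¹) = (g.1⁻¹ * y * g.1⁻¹⁻¹) * k.1 := h1
    calc (g.1 * k.1 * g.1⁻¹) * y = g.1 * (k.1 * (g.1⁻¹ * y * g.1⁻¹⁻¹)) * g.1⁻¹ := by group
      _ = g.1 * ((g.1⁻¹ * y * g.1⁻¹⁻¹) * k.1) * g.1⁻¹ := by rw [h2]
      _ = _ := by group
  rcases (Subgroup.Normal.map hN₀ _ P.vt_surj).eq_bot_or_eq_top with hb | ht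
  · have h1 : P.vt ⟨x, hk⟩ ∈ N₀.map P.vt := ⟨⟨x, hk⟩, h, rfl⟩
    rw [hb] at h1
    exact P.mem_EE.2 ⟨hk, Subgroup.mem_bot.1 h1⟩
  · exfalso
    obtain ⟨ω, hω⟩ := exists_root (K := K)
    have hω0 := root_ne_zero hω
    obtain ⟨m, hmK, hm⟩ := P.exists_m hω
    have h1 : P.vt ⟨m, hmK⟩ ∈ N₀.map P.vt := by
      rw [ht]
      exact Subgroup.mem_top _
    obtain ⟨n₀, hn₀, e⟩ := h1
    obtain ⟨e₀, he₀d⟩ : ∃ e₀ : Kt a u, e₀ = n₀⁻¹ * ⟨m, hmK⟩ := ⟨_, rfl⟩
    have he₀ : P.vt e₀ = 1 := by
      rw [he₀d, map_mul, map_inv]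
      have e' : P.vt n₀ = P.vt ⟨m, hmK⟩ := e
      rw [e', inv_mul_cancel]
    have he₀E : e₀.1 ∈ P.EE := P.mem_EE.2 ⟨e₀.2, he₀⟩
    obtain ⟨f, hf⟩ := P.exists_HasF_of_mem he₀E
    obtain ⟨v₁, F₁⟩ := P.exists_fb B₄_w₀ w₀_ne 1
    obtain ⟨v₂, F₂⟩ := P.exists_fb B₄_w₀ w₀_ne 0
    have hzF := Fb.hasF P B₄_w₀ F₁ F₂
    have hzK := mem_of_pair P F₁ F₂
    have hzE := P.mem_EE_of_HasF hzK hzF
    have hm' : m = n₀.1 * e₀.1 := by
      rw [he₀d]
      show m = n₀.1 * (n₀.1⁻¹ * m)
      group
    have hconj : m * (v₁ * v₂) * m⁻¹ = e₀.1 * (v₁ * v₂) * e₀.1⁻¹ := by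
      have h2 : e₀.1 * (v₁ * v₂) * e₀.1⁻¹ ∈ P.EE := P.conj_EE (P.Kt_le e₀.2) hzE
      have hc := hn₀ _ h2
      rw [hm']
      calc (n₀.1 * e₀.1) * (v₁ * v₂) * (n₀.1 * e₀.1)⁻¹ = n₀.1 * (e₀.1 * (v₁ * v₂) * e₀.1⁻¹) * n₀.1⁻¹ := by group
        _ = _ := by rw [hc.eq]; group
    have C₁ := Fb.of_m P hω hm F₁
    have C₂ := Fb.of_m P hω hm F₂
    have hmF := Fb.hasF P B₄_w₀ C₁ C₂
    have hexp : m * (v₁ * v₂) * m⁻¹ = (m * v₁ * m⁻¹) * (m * v₂ * m⁻¹) := by group
    rw [← hexp] at hmF
    have hmK' : Commute (m * (v₁ * v₂) * m⁻¹) a := by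
      have h5 : m * (v₁ * v₂) * m⁻¹ ∈ Kt a u := Subgroup.mul_mem _ (Subgroup.mul_mem _ hmK hzK) (Subgroup.inv_mem _ hmK)
      exact (mem_Kt.1 h5).1
    have hfin : ∀ g : (Fin 6 → K) → K, P.HasF (m * (v₁ * v₂) * m⁻¹) g → (∀ y, B y b₀ = 0 → g y = B₄ (low y) w₀ * (1 + 0)) → False := by
      intro g hg hg'
      have h5 := HasF.unique P hmK' hmF hg (hat w₁) (B_hat_b₀ _)
      rw [hg' _ (B_hat_b₀ _)] at h5
      simp only [low_hat, B₄_w₁_w₀, one_mul, add_zero, mul_zero] at h5
      have h6 : ω = 0 := by linear_combination hω - h5 - h2z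
      exact hω0 h6
    rcases pair_conj P B₄_w₀ w₀_ne F₁ F₂ hf with h₁ | h₁
    · rw [hconj, h₁] at hmF
      rw [hconj, h₁] at hmK'
      exact hfin _ (by rw [hconj, h₁]; exact hzF) (fun y hy => rfl)
    · refine hfin _ (by rw [hconj, h₁]; exact HasF.mul P hzF (HasF.mul P (HasF.of_a P) (HasF.of_u P))) (fun y hy => ?_)
      simp

/-- **The generalized Fitting subgroup of the centralizer of the product is `EE`.** -/
theorem gFit : generalizedFittingSubgroup ↥(Cc a u) = P.EE.subgroupOf (Cc a u) := by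
  refine gFit_eq _ P.normal_EE ?_ (fun N hN hn => P.le_EE_of_nilpotent N hN hn) ?_
  · haveI := Fact.mk Nat.prime_two
    have hc : Nat.card ↥(P.EE.subgroupOf (Cc a u)) = 2 ^ 10 := by
      rw [Nat.card_congr (Subgroup.subgroupOfEquivOfLe (P.EE_le.trans P.Kt_le)).toEquiv, P.card_EE]
      norm_num
    exact (IsPGroup.of_card hc).isNilpotent
  · intro x hx
    rw [Subgroup.mem_subgroupOf]
    apply P.mem_EE_of_comm x.2
    intro y hy
    have hyC : y ∈ Cc a u := P.Kt_le (P.EE_le hy)
    have := hx ⟨y, hyC⟩ (Subgroup.mem_subgroupOf.2 hy)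
    exact congrArg Subtype.val this

/-- **The structure of `EE`.** -/
theorem EE_struct : ∃ (E₀ : Type) (_ : Group E₀) (_ : Finite E₀), IsExtraspecial 2 E₀ ∧ Nat.card E₀ = 2 ^ 9 ∧
    Nonempty (↥P.EE ≃* Multiplicative (ZMod 2) × E₀) := by
  have hj := P.au_sq
  have haa := mul_self_of_mem P.hG.1 P.ha
  have hau : a ≠ u := P.hu.2.1.symm
  let a' : P.EE := ⟨a, P.a_mem_EE⟩
  let j' : P.EE := ⟨a * u, Subgroup.mul_mem _ P.a_mem_EE P.u_mem_EE⟩
  have hac : ∀ y : P.EE, Commute y a' := fun y => Subtype.ext (mem_Kt.1 (P.EE_le y.2)).1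
  have hjc : ∀ y : P.EE, Commute y j' := fun y => Subtype.ext (P.comm_au_Kt (P.EE_le y.2))
  have haa' : a' * a' = 1 := Subtype.ext haa
  have hjj' : j' * j' = 1 := Subtype.ext hj
  have hu1 : u ≠ 1 := ne_one_of_mem P.hG P.hu.1
  have ha1 : a ≠ 1 := ne_one_of_mem P.hG P.ha
  have ha1' : a' ≠ 1 := fun h => ha1 (congrArg Subtype.val h)
  have haj' : a' ≠ j' := by
    intro h
    have h1 : a = a * u := congrArg Subtype.val h
    apply hu1
    have h2 : a * u = a * 1 := by rw [mul_one]; exact h1.symm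
    exact mul_left_cancel h2
  have hcomm : ∀ x y : P.EE, y * x * y⁻¹ = x ∨ y * x * y⁻¹ = x * j' := by
    intro x y
    rcases P.EE_comm x.2 y.2 with h | h
    · exact Or.inl (Subtype.ext h)
    · exact Or.inr (Subtype.ext h)
  have hsq : ∀ x : P.EE, x * x = 1 ∨ x * x = j' := by
    intro x
    rcases P.EE_sq x.2 with h | h
    · exact Or.inl (Subtype.ext h)
    · exact Or.inr (Subtype.ext h)
  have hcen : ∀ x : P.EE, (∀ y, Commute y x) → x = 1 ∨ x = a' ∨ x = j' ∨ x = a' * j' := by
    intro x hx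
    have h1 : ∀ y ∈ P.EE, Commute y x.1 := fun y hy => congrArg Subtype.val (hx ⟨y, hy⟩)
    rcases P.mem_of_center_EE x.2 h1 with h | h | h | h
    · exact Or.inl (Subtype.ext h)
    · exact Or.inr (Or.inl (Subtype.ext h))
    · refine Or.inr (Or.inr (Or.inr (Subtype.ext ?_)))
      show x.1 = a * (a * u)
      rw [h, ← mul_assoc, haa, one_mul]
    · exact Or.inr (Or.inr (Or.inl (Subtype.ext h)))
  have hnc : ∃ x y : P.EE, y * x * y⁻¹ = x * j' := by
    obtain ⟨x, hx, y, hy, h⟩ := P.exists_noncomm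
    exact ⟨⟨x, hx⟩, ⟨y, hy⟩, Subtype.ext h⟩
  obtain ⟨Q, hjQ, haQ, hQ⟩ := exists_compl hac hjc hjj' ha1' haj' hcomm hsq
  obtain ⟨e⟩ := exists_prod_equiv hac haa' haQ hQ
  have hcard : Nat.card Q = 2 ^ 9 := by
    have h1 := Nat.card_congr e.toEquiv
    rw [Nat.card_prod, P.card_EE, Nat.card_eq_fintype_card (α := Multiplicative (ZMod 2))] at h1
    have h2 : Fintype.card (Multiplicative (ZMod 2)) = 2 := by simp [ZMod.card]
    rw [h2] at h1
    omega
  have hex := compl_extraspecial hac hjc haa' hjj' (fun h => P.au_ne_one (congrArg Subtype.val h)) hcomm hsq hcen hnc hjQ haQ hQ hcard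
  let e' : BoxT (Nat.card Q) ≃ Q := (Finite.equivFin Q).symm
  letI : Group (BoxT (Nat.card Q)) := e'.group
  refine ⟨BoxT (Nat.card Q), e'.group, inferInstanceAs (Finite (Fin (Nat.card Q))), isExtraspecial_of_mulEquiv e'.mulEquiv.symm hex, ?_,
    ⟨e.symm.trans (MulEquiv.prodCongr (MulEquiv.refl _) e'.mulEquiv.symm)⟩⟩
  show Nat.card (Fin (Nat.card Q)) = 2 ^ 9
  rw [Nat.card_eq_fintype_card, Fintype.card_fin, hcard]

end Pt

end main

end Cfsg.Agent.Lib.ThreeT.M22
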