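import Cfsg.Agent.Lib.ThreeT.M22x
import Cfsg.Agent.Lib.ThreeT.M23c
import Cfsg.Agent.Lib.LargeExtra.FStar
import Cfsg.Prelude.Def_MonsterType

/-!
# Groups of type M(22): the centralizer of the inner automorphism of a product in the automorphism group
-/

set_option autoImplicit false
set_option linter.unusedSectionVars false
set_option linter.unusedVariables false
set_option linter.style.longLine false
set_option linter.unusedSimpArgs false
set_option linter.unnecessarySimpa false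
set_option linter.style.haveILetI false

namespace Cfsg.Agent.Lib.ThreeT.M22

open Cfsg Cfsg.Agent.Lib.ThreeT.Basic Cfsg.Agent.Lib.ThreeT.Class Cfsg.Agent.Lib.ThreeT.Relations
open Cfsg.Agent.Lib.ThreeT.Rank3 Cfsg.Agent.Lib.ThreeT.Descent Cfsg.Agent.Lib.ThreeT.NoSix
open Cfsg.Agent.Lib.ThreeT.U6Lift Cfsg.Agent.Lib.ThreeT.U6Geo
open Matrix

variable {G : Type*} [Group G] {D : Set G}
variable {K : Type*} [Field K] [Fintype K] [hK : Fact (Fintype.card K = 4)]

/-- The form. -/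
local notation "B" => hermForm 6 K 2
/-- The form in dimension four. -/
local notation "B₄" => hermForm 4 K 2

/-- The centralizer of the inner automorphism of the product. -/
def XA (a u : G) : Subgroup (MulAut G) := Subgroup.centralizer ({MulAut.conj (a * u)} : Set (MulAut G))

omit [Fintype K] hK in
theorem conj_eq_conj (φ : MulAut G) (g : G) : φ * MulAut.conj g * φ⁻¹ = MulAut.conj (φ g) := by
  refine MulEquiv.ext fun x => ?_
  show φ (g * (φ⁻¹ x) * g⁻¹) = φ g * x * (φ g)⁻¹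
  rw [map_mul, map_mul, map_inv, MulAut.apply_inv_self]

omit [Fintype K] hK in
theorem conj_inj (hZ : Subgroup.center G = ⊥) : Function.Injective (MulAut.conj : G →* MulAut G) := by
  intro g h e
  have h1 : ∀ x, g * x * g⁻¹ = h * x * h⁻¹ := fun x => congrArg (fun f : MulAut G => f x) e
  have h2 : h⁻¹ * g ∈ Subgroup.center G := by
    rw [Subgroup.mem_center_iff]
    intro x
    have := h1 x
    have h3 : x * (h⁻¹ * g) = h⁻¹ * (h * x * h⁻¹) * g := by group
    rw [h3, ← this]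
    group
  rw [hZ, Subgroup.mem_bot] at h2
  have := mul_left_cancel (a := h⁻¹) (h2.trans (inv_mul_cancel h).symm)
  exact this

omit [Fintype K] hK in
theorem mem_XA (hZ : Subgroup.center G = ⊥) {a u : G} {φ : MulAut G} : φ ∈ XA a u ↔ φ (a * u) = a * u := by
  constructor
  · intro h
    have h1 : MulAut.conj (a * u) * φ = φ * MulAut.conj (a * u) :=
      Subgroup.mem_centralizer_iff.1 h _ (by simp)
    apply conj_inj hZ
    rw [← conj_eq_conj, ← h1]
    group
  · intro h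
    refine Subgroup.mem_centralizer_iff.2 ?_
    intro g hg
    rw [Set.mem_singleton_iff.1 hg]
    have h1 := conj_eq_conj φ (a * u)
    rw [h] at h1
    calc MulAut.conj (a * u) * φ = (φ * MulAut.conj (a * u) * φ⁻¹) * φ := by rw [h1]
      _ = _ := by group

namespace Pt

variable {a u : G} (P : Pt D a u K) [Fintype G]

include P

/-- Automorphisms preserve `D`. -/
theorem aut_mem (φ : MulAut G) {x : G} (hx : x ∈ D) : φ x ∈ D := by
  have hD' : IsThreeTranspositionClass ((fun y => φ y) '' D) := by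
    refine ⟨⟨?_, ?_⟩, ⟨φ x, ⟨x, hx, rfl⟩, ?_⟩, ?_⟩
    · rintro _ ⟨d, hd, rfl⟩
      rw [MulEquiv.orderOf_eq]
      exact P.hG.1.1 d hd
    · rintro _ ⟨d, hd, rfl⟩ _ ⟨e, he, rfl⟩
      rcases P.hG.1.2 d hd e he with h | h
      · left
        show (φ d * φ e) ^ 2 = 1
        rw [← map_mul, ← map_pow, h, map_one]
      · right
        show (φ d * φ e) ^ 3 = 1
        rw [← map_mul, ← map_pow, h, map_one]
    · ext y
      show y ∈ (fun y => φ y) '' D ↔ IsConj (φ x) y
      constructor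
      · rintro ⟨d, hd, rfl⟩
        obtain ⟨g, hg⟩ := P.hp.1 x hx d hd
        refine isConj_iff.2 ⟨φ g, ?_⟩
        rw [← hg]
        simp
      · intro h
        obtain ⟨g, hg⟩ := isConj_iff.1 h
        refine ⟨φ⁻¹ g * x * (φ⁻¹ g)⁻¹, P.hG.2.1 _ x hx, ?_⟩
        rw [← hg]
        show φ (φ⁻¹ g * x * (φ⁻¹ g)⁻¹) = g * φ x * g⁻¹
        rw [map_mul, map_mul, map_inv, MulAut.apply_inv_self]
    · have h1 : Subgroup.closure D = ⊤ := P.hG.2.2
      have h2 := MonoidHom.map_closure (φ : G →* G) D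
      rw [h1] at h2
      have h3 : ((φ : G →* G) '' D) = ((fun y => φ y) '' D) := rfl
      rw [← h3, ← h2]
      exact Subgroup.map_top_of_surjective _ φ.surjective
  have h1 := unique_class P.h22 P.hG P.hp hD'
  rw [← h1]
  exact ⟨x, hx, rfl⟩

theorem mem_XA' {φ : MulAut G} : φ ∈ XA a u ↔ φ (a * u) = a * u := mem_XA P.h22.1

/-- An automorphism centralizing the product fixes or swaps the two members. -/
theorem fix_or_swapA {φ : MulAut G} (hφ : φ ∈ XA a u) : (φ a = a ∧ φ u = u) ∨ (φ a = u ∧ φ u = a) := by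
  have h1 : φ a ∈ D := P.aut_mem φ P.ha
  have h2 : φ u ∈ D := P.aut_mem φ P.hu.1
  have hne : a ≠ u := P.hu.2.1.symm
  have hne' : φ a ≠ φ u := fun h => hne (φ.injective h)
  have hcomm' : Commute (φ a) (φ u) := by
    show φ a * φ u = φ u * φ a
    rw [← map_mul, ← map_mul, P.comm_au.eq]
  have e : a * u = φ a * φ u := by
    rw [← map_mul]
    exact ((P.mem_XA').1 hφ).symm
  rcases two_unique P.hG P.hp P.ha P.hu.1 h1 h2 hne P.comm_au hne' hcomm' e with ⟨h3, h4⟩ | ⟨h3, h4⟩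
  · exact Or.inl ⟨h3.symm, h4.symm⟩
  · exact Or.inr ⟨h4.symm, h3.symm⟩

/-- `XA` normalizes `Kt`. -/
theorem conjA_mem_Kt {φ : MulAut G} {x : G} (hφ : φ ∈ XA a u) (hx : x ∈ Kt a u) : φ x ∈ Kt a u := by
  obtain ⟨h1, h2⟩ := mem_Kt.1 hx
  have key : ∀ y : G, Commute x y → Commute (φ x) (φ y) := by
    intro y hy
    show φ x * φ y = φ y * φ x
    rw [← map_mul, ← map_mul, hy.eq]
  have k1 := key a h1
  have k2 := key u h2
  rcases P.fix_or_swapA hφ with ⟨e1, e2⟩ | ⟨e1, e2⟩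
  · rw [e1] at k1
    rw [e2] at k2
    exact mem_Kt.2 ⟨k1, k2⟩
  · rw [e1] at k1
    rw [e2] at k2
    exact mem_Kt.2 ⟨k2, k1⟩

omit P in
/-- The action on `Kt`. -/
noncomputable def cjA (P : Pt D a u K) {φ : MulAut G} (hφ : φ ∈ XA a u) : Kt a u →* Kt a u where
  toFun x := ⟨φ x.1, P.conjA_mem_Kt hφ x.2⟩
  map_one' := by
    apply Subtype.ext
    simp
  map_mul' := by
    intro x y
    apply Subtype.ext
    show φ (x.1 * y.1) = φ x.1 * φ y.1
    rw [map_mul]

theorem cjA_coe {φ : MulAut G} (hφ : φ ∈ XA a u) (x : Kt a u) : (P.cjA hφ x).1 = φ x.1 := rfl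

theorem cjA_surj {φ : MulAut G} (hφ : φ ∈ XA a u) : Function.Surjective (P.cjA hφ) := by
  intro y
  have hφ' : φ⁻¹ ∈ XA a u := Subgroup.inv_mem _ hφ
  refine ⟨⟨φ⁻¹ y.1, P.conjA_mem_Kt hφ' y.2⟩, ?_⟩
  apply Subtype.ext
  show φ (φ⁻¹ y.1) = y.1
  rw [MulAut.apply_inv_self]

/-- **The kernel is invariant.** -/
theorem conjA_ker {φ : MulAut G} (hφ : φ ∈ XA a u) {x : Kt a u} (hx : P.vt x = 1) : P.vt (P.cjA hφ x) = 1 := by
  haveI := simple_SU₄ (K := K)
  have hN : ((P.vt.ker).map (P.cjA hφ)).Normal := Subgroup.Normal.map inferInstance _ (P.cjA_surj hφ)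
  have hM : (((P.vt.ker).map (P.cjA hφ)).map P.vt).Normal := Subgroup.Normal.map hN _ P.vt_surj
  rcases hM.eq_bot_or_eq_top with h | h
  · have : P.vt (P.cjA hφ x) ∈ ((P.vt.ker).map (P.cjA hφ)).map P.vt := ⟨_, ⟨x, hx, rfl⟩, rfl⟩
    rw [h] at this
    exact Subgroup.mem_bot.1 this
  · exfalso
    have h1 : Nat.card ↥(((P.vt.ker).map (P.cjA hφ)).map P.vt) ∣ Nat.card ↥((P.vt.ker).map (P.cjA hφ)) := Subgroup.card_map_dvd _ _
    have h2 : Nat.card ↥((P.vt.ker).map (P.cjA hφ)) ∣ Nat.card P.vt.ker := Subgroup.card_map_dvd _ _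
    have h3 := h1.trans h2
    rw [h, P.card_ker, Subgroup.card_top, card_SU₄] at h3
    omega

theorem conjA_EE {φ : MulAut G} {x : G} (hφ : φ ∈ XA a u) (hx : x ∈ P.EE) : φ x ∈ P.EE := by
  obtain ⟨h, e⟩ := P.mem_EE.1 hx
  have h1 := P.conjA_ker hφ (x := ⟨x, h⟩) e
  exact P.mem_EE.2 ⟨P.conjA_mem_Kt hφ h, h1⟩

theorem vt_cjA_eq {φ : MulAut G} (hφ : φ ∈ XA a u) {x y : Kt a u} (h : P.vt x = P.vt y) : P.vt (P.cjA hφ x) = P.vt (P.cjA hφ y) := by
  have h1 : P.vt (x⁻¹ * y) = 1 := by rw [map_mul, map_inv, h, inv_mul_cancel]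
  have h2 := P.conjA_ker hφ h1
  rw [map_mul, map_mul, map_inv, map_inv] at h2
  exact (inv_mul_eq_one.1 h2)

omit P in
/-- The action on `SU₄(2)`, as a function. -/
noncomputable def thFunA (P : Pt D a u K) (c : ↥(XA a u)) (s : ↥(SU 4 K 2)) : ↥(SU 4 K 2) :=
  P.vt (P.cjA c.2 (Function.surjInv P.vt_surj s))

theorem thFunA_vt (c : ↥(XA a u)) (x : Kt a u) : P.thFunA c (P.vt x) = P.vt (P.cjA c.2 x) :=
  P.vt_cjA_eq c.2 (Function.surjInv_eq P.vt_surj _)

omit P in
/-- The action on `SU₄(2)`. -/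
noncomputable def thAutA (P : Pt D a u K) (c : ↥(XA a u)) : MulAut ↥(SU 4 K 2) where
  toFun := P.thFunA c
  invFun := P.thFunA c⁻¹
  left_inv := by
    intro s
    obtain ⟨x, rfl⟩ := P.vt_surj s
    rw [P.thFunA_vt, P.thFunA_vt]
    congr 1
    apply Subtype.ext
    show c.1⁻¹ (c.1 x.1) = x.1
    rw [MulAut.inv_apply_self]
  right_inv := by
    intro s
    obtain ⟨x, rfl⟩ := P.vt_surj s
    rw [P.thFunA_vt, P.thFunA_vt]
    congr 1
    apply Subtype.ext
    show c.1 (c.1⁻¹ x.1) = x.1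
    rw [MulAut.apply_inv_self]
  map_mul' := by
    intro s t
    obtain ⟨x, rfl⟩ := P.vt_surj s
    obtain ⟨y, rfl⟩ := P.vt_surj t
    rw [← map_mul, P.thFunA_vt, P.thFunA_vt, P.thFunA_vt, map_mul, map_mul]

theorem thAutA_vt (c : ↥(XA a u)) (x : Kt a u) : P.thAutA c (P.vt x) = P.vt (P.cjA c.2 x) := P.thFunA_vt c x

omit P in
/-- The action on `SU₄(2)`, as a homomorphism. -/
noncomputable def thHomA (P : Pt D a u K) : ↥(XA a u) →* MulAut ↥(SU 4 K 2) :=
  MonoidHom.mk' P.thAutA (by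
    intro c c'
    refine MulEquiv.ext fun s => ?_
    obtain ⟨x, rfl⟩ := P.vt_surj s
    show P.thAutA (c * c') (P.vt x) = P.thAutA c (P.thAutA c' (P.vt x))
    rw [P.thAutA_vt, P.thAutA_vt, P.thAutA_vt]
    rfl)

theorem mem_ker_thHomA {c : ↥(XA a u)} : c ∈ P.thHomA.ker ↔ ∀ x : Kt a u, P.vt (P.cjA c.2 x) = P.vt x := by
  rw [MonoidHom.mem_ker]
  constructor
  · intro h x
    rw [← P.thAutA_vt]
    have : P.thAutA c = 1 := h
    rw [this]
    rfl
  · intro h
    show P.thAutA c = 1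
    refine MulEquiv.ext fun s => ?_
    obtain ⟨x, rfl⟩ := P.vt_surj s
    show P.thAutA c (P.vt x) = P.vt x
    rw [P.thAutA_vt, h]

theorem conj_mem_XA {c : G} (hc : c ∈ Cc a u) : MulAut.conj c ∈ XA a u := by
  rw [P.mem_XA']
  show c * (a * u) * c⁻¹ = a * u
  rw [(mem_Cc.1 hc).eq]
  group

theorem mem_Cc_of_conj_mem {c : G} (hc : MulAut.conj c ∈ XA a u) : c ∈ Cc a u := by
  have h := (P.mem_XA').1 hc
  exact mem_Cc.2 (commute_of_conj h)

/-- The comparison with the action of the centralizer. -/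
theorem thHomA_conj (c : ↥(Cc a u)) : P.thHomA ⟨MulAut.conj c.1, P.conj_mem_XA c.2⟩ = P.thHom c := by
  refine MulEquiv.ext fun s => ?_
  obtain ⟨x, rfl⟩ := P.vt_surj s
  show P.thAutA _ (P.vt x) = P.thAut c (P.vt x)
  rw [P.thAutA_vt, P.thAut_vt]
  rfl

/-- The action of the centralizer is onto. -/
theorem thHom_surj : Function.Surjective P.thHom := by
  have hker := P.ker_thHom
  haveI : Finite (MulAut ↥(SU 4 K 2)) := Nat.finite_of_card_ne_zero (by rw [card_mulAut_SU₄]; norm_num)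
  have hinj := QuotientGroup.kerLift_injective P.thHom
  have hcard : Nat.card (↥(Cc a u) ⧸ P.thHom.ker) = Nat.card (MulAut ↥(SU 4 K 2)) := by
    rw [card_mulAut_SU₄]
    have h1 := Subgroup.card_mul_index P.thHom.ker
    rw [hker, Nat.card_congr (Subgroup.subgroupOfEquivOfLe (P.EE_le.trans P.Kt_le)).toEquiv, P.card_EE, P.card_Cc] at h1
    have h2 : (P.EE.subgroupOf (Cc a u)).index = 51840 := by omega
    rw [hker]
    exact h2
  have hbij := (Nat.bijective_iff_injective_and_card (QuotientGroup.kerLift P.thHom)).2 ⟨hinj, hcard⟩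
  intro s
  obtain ⟨q, hq⟩ := hbij.2 s
  obtain ⟨c, rfl⟩ := QuotientGroup.mk_surjective q
  exact ⟨c, hq⟩

theorem thHomA_surj : Function.Surjective P.thHomA := by
  intro s
  obtain ⟨c, hc⟩ := P.thHom_surj s
  exact ⟨_, (P.thHomA_conj c).trans hc⟩

/-- The product of two members of the pair of a fibre. -/
theorem conj_ker_iff {c : G} (hc : c ∈ Cc a u) : (⟨MulAut.conj c, P.conj_mem_XA hc⟩ : ↥(XA a u)) ∈ P.thHomA.ker ↔ c ∈ P.EE := by
  rw [MonoidHom.mem_ker, P.thHomA_conj ⟨c, hc⟩, ← MonoidHom.mem_ker, P.ker_thHom, Subgroup.mem_subgroupOf]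

/-- **An automorphism fixing `a` and every member commuting with `a` is trivial or inner by `a`.** -/
theorem aut_fix {ψ : MulAut G} (h1 : ψ a = a) (h2 : ∀ v ∈ Da D a, ψ v = v) : ψ = 1 ∨ ψ = MulAut.conj a := by
  have hfix : ∀ y : G, Commute y a → ψ y = y := by
    intro y hy
    refine Subgroup.closure_induction (p := fun y _ => ψ y = y) (fun v hv => h2 v hv) (map_one ψ)
      (fun x y _ _ hx hy => by rw [map_mul, hx, hy]) (fun x _ hx => by rw [map_inv, hx]) (P.mem_closure hy)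
  obtain ⟨g, hg1, hg2⟩ := P.exists_swap
  have hψu : ψ u = u := h2 u P.hu
  obtain ⟨e, he⟩ : ∃ e, e = ψ g * g⁻¹ := ⟨_, rfl⟩
  have key : ∀ y, Commute y u → ψ y = e * y * e⁻¹ := by
    intro y hy
    have hy1 : Commute (g⁻¹ * y * g) a := by
      show (g⁻¹ * y * g) * a = a * (g⁻¹ * y * g)
      have h3 : y * (g * a * g⁻¹) = (g * a * g⁻¹) * y := by rw [hg1]; exact hy.eq
      calc (g⁻¹ * y * g) * a = g⁻¹ * (y * (g * a * g⁻¹)) * g := by group
        _ = g⁻¹ * ((g * a * g⁻¹) * y) * g := by rw [h3]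
        _ = _ := by group
    have h3 := hfix _ hy1
    have e1 : y = g * (g⁻¹ * y * g) * g⁻¹ := by group
    calc ψ y = ψ (g * (g⁻¹ * y * g) * g⁻¹) := by rw [← e1]
      _ = ψ g * (g⁻¹ * y * g) * (ψ g)⁻¹ := by rw [map_mul, map_mul, map_inv, h3]
      _ = e * y * e⁻¹ := by rw [he]; group
  have hea : e * a * e⁻¹ = a := by rw [← key a P.comm_au, h1]
  have heu : e * u * e⁻¹ = u := by rw [← key u (Commute.refl u), hψu]
  have hek : e ∈ Kt a u := P.mem_Kt_of_fix hea heu
  have hec : (⟨e, hek⟩ : Kt a u) ∈ Subgroup.center (Kt a u) := by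
    rw [Subgroup.mem_center_iff]
    intro y
    apply Subtype.ext
    obtain ⟨y1, y2⟩ := mem_Kt.1 y.2
    have h3 := key y.1 y2
    rw [hfix y.1 y1] at h3
    show y.1 * e = e * y.1
    calc y.1 * e = (e * y.1 * e⁻¹) * e := by rw [← h3]
      _ = e * y.1 := by group
  have hecases := P.mem_of_center hec
  -- a member commuting with `u` but not with `a`
  obtain ⟨U'⟩ := P.data u P.hu.1
  have haU : a ∈ Da D u := swap_Da P.hu P.ha
  obtain ⟨p, hpp, hp0, hpa⟩ := exists_nonperp_iso (U'.iso a haU) (U'.ne0 a haU)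
  obtain ⟨b, hb, c, hc, hbv⟩ := U'.ex p hpp hp0
  have hnc : ¬ Commute a b := by
    intro h
    have h3 := (U'.comm a haU b hb).1 h
    have h4 : hermForm 6 K 2 (U'.vec b) (U'.vec a) = 0 := B_zero_symm h3
    rw [hbv, B_smul_left] at h4
    exact hpa ((mul_eq_zero.1 h4).resolve_left hc)
  have hbu : Commute b u := hb.2.2.symm
  have hψb := key b hbu
  have hw : ∃ a ∈ D, ∃ b ∈ D, a ≠ b ∧ Commute a b := ⟨a, P.ha, u, P.hu.1, P.hu.2.1.symm, P.hu.2.2⟩
  have haa := mul_self_of_mem P.hG.1 P.ha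
  have huu := mul_self_of_mem P.hG.1 P.hu.1
  have cases : ψ b = b ∨ ψ b = a * b * a⁻¹ := by
    have e3 : u * b * u⁻¹ = b := by rw [hbu.symm.eq]; group
    simp only at hecases
    rcases hecases with h | h | h | h
    · left
      rw [hψb, h]
      group
    · right
      rw [hψb, h]
    · left
      rw [hψb, h, e3]
    · right
      rw [hψb, h]
      calc a * u * b * (a * u)⁻¹ = a * (u * b * u⁻¹) * a⁻¹ := by group
        _ = a * b * a⁻¹ := by rw [e3]
  rcases cases with hb1 | hb1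
  · left
    refine MulEquiv.ext fun y => ?_
    exact Cfsg.Agent.Lib.ThreeT.M23.fix_all P.hG P.hp hw ψ P.ha hb.1 hnc h1 hb1 h2 y
  · right
    have h3 : ∀ y, ((MulAut.conj a)⁻¹ * ψ) y = y → ψ y = a * y * a⁻¹ := by
      intro y h4
      have h5 : a⁻¹ * ψ y * a = y := by
        have : ((MulAut.conj a)⁻¹ * ψ) y = a⁻¹ * ψ y * a := by
          show (MulAut.conj a)⁻¹ (ψ y) = _
          rw [MulAut.conj_inv_apply]
        rw [this] at h4
        exact h4
      calc ψ y = a * (a⁻¹ * ψ y * a) * a⁻¹ := by group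
        _ = a * y * a⁻¹ := by rw [h5]
    have h4 : ∀ y, ψ y = a * y * a⁻¹ → ((MulAut.conj a)⁻¹ * ψ) y = y := by
      intro y h5
      show (MulAut.conj a)⁻¹ (ψ y) = y
      rw [h5, MulAut.conj_inv_apply]
      group
    refine MulEquiv.ext fun y => ?_
    refine h3 y (Cfsg.Agent.Lib.ThreeT.M23.fix_all P.hG P.hp hw ((MulAut.conj a)⁻¹ * ψ) P.ha hb.1 hnc ?_ ?_ ?_ y)
    · apply h4
      rw [h1]
      group
    · exact h4 b hb1
    · intro w hw'
      apply h4
      rw [h2 w hw', hw'.2.2.eq]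
      group

end Pt

section semi

open Cfsg.Agent.Lib.AutCl.PSUAut Cfsg.Agent.Lib.ThreeT.M23

/-- The automorphism of `⟨D_a⟩` induced. -/
noncomputable def autGdB {a : G} (φ : G ≃* G) (hD : ∀ y ∈ Da D a, φ y ∈ Da D a) (hD' : ∀ y ∈ Da D a, φ.symm y ∈ Da D a) : Gd D a ≃* Gd D a :=
  (φ.subgroupMap (Subgroup.closure (Da D a))).trans (MulEquiv.subgroupCongr (by
    rw [MonoidHom.map_closure]
    congr 1
    ext y
    constructor
    · rintro ⟨x, hx, rfl⟩
      exact hD x hx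
    · intro hy
      exact ⟨φ.symm y, hD' y hy, φ.apply_symm_apply y⟩))

theorem autGdB_coe {a : G} (φ : G ≃* G) (hD : ∀ y ∈ Da D a, φ y ∈ Da D a) (hD' : ∀ y ∈ Da D a, φ.symm y ∈ Da D a) (y : Gd D a) :
    ((autGdB φ hD hD' y : Gd D a) : G) = φ y := rfl

/-- The automorphism of the quotient induced. -/
noncomputable def autQuotB {a : G} (φ : G ≃* G) (hD : ∀ y ∈ Da D a, φ y ∈ Da D a) (hD' : ∀ y ∈ Da D a, φ.symm y ∈ Da D a) :
    Gd D a ⧸ Subgroup.center (Gd D a) ≃* Gd D a ⧸ Subgroup.center (Gd D a) :=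
  Cfsg.Agent.Lib.Classical.SympSimple.quotientCenterEquiv (autGdB φ hD hD')

theorem autQuotB_mk {a : G} (φ : G ≃* G) (hD : ∀ y ∈ Da D a, φ y ∈ Da D a) (hD' : ∀ y ∈ Da D a, φ.symm y ∈ Da D a) (y : Gd D a) :
    autQuotB φ hD hD' (QuotientGroup.mk y) = QuotientGroup.mk (autGdB φ hD hD' y) := rfl

/-- The action of an automorphism on the coordinates. -/
theorem exists_semi_g {a : G} (U : U6Data D a K) (φ : G ≃* G) (hD : ∀ y ∈ Da D a, φ y ∈ Da D a) (hD' : ∀ y ∈ Da D a, φ.symm y ∈ Da D a) :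
    ∃ (g : GL (Fin 6) K) (_ : g ∈ GU 6 K 2) (τ : K ≃+* K),
      ∀ u ∈ Da D a, ∃ c : K, c ≠ 0 ∧
        U.vec (φ u) = c • ((g : Matrix (Fin 6) (Fin 6) K) *ᵥ tauHat 6 τ (U.vec u)) := by
  have hF : Fintype.card K = 2 ^ 2 := by rw [hK.out]; norm_num
  haveI : Fact (Nat.Prime 2) := ⟨Nat.prime_two⟩
  set qe := autQuotB φ hD hD' with hqe
  set β : MulAut (PSU 6 K 2) := U.e.symm.trans (qe.trans U.e) with hβ
  obtain ⟨g, hg, τ, hth⟩ := exists_Th hF 6 (p := 2) (f := 1) (by norm_num) (by norm_num) (by norm_num) β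
  refine ⟨g, hg, τ, ?_⟩
  intro u hu
  have hm : φ u ∈ Da D a := hD u hu
  have hp := U.iso u hu
  obtain ⟨hqq, hs⟩ := tv_semi hF hg τ hp
  have h1 : β (QuotientGroup.mk (tv (U.vec u))) = QuotientGroup.mk (tv (U.vec (φ u))) := by
    rw [← U.he u hu, ← U.he _ hm]
    show U.e (qe (U.e.symm (U.e (phi D a u)))) = _
    rw [MulEquiv.symm_apply_apply]
    congr 1
    show qe (QuotientGroup.mk (up D a u)) = _
    rw [hqe, autQuotB_mk]
    symm
    apply phi_eq_of_coe
    rw [autGdB_coe, up_coe (Subgroup.subset_closure hu)]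
  have h2 := Th_mk hF 6 hg τ (tv (U.vec u)) (tv _) hs
  rw [← hth, h1] at h2
  have h3 := mk_tv_eq (U.iso _ hm) hqq h2
  exact tv_inj hqq (U.iso _ hm) (by
    intro h0
    have h4 : tv ((g : Matrix (Fin 6) (Fin 6) K) *ᵥ tauHat 6 τ (U.vec u)) = 1 := by
      rw [h0, tv_zero]
    have h8 : tv (U.vec (φ u)) = 1 := by
      rw [h3, h4]
    have h9 := U.ne0 _ hm
    obtain ⟨y, hy⟩ := exists_nonperp_vec h9
    have h10 : act (tv (U.vec (φ u))) y = y := by rw [h8, act_one]
    rw [act_tv (U.iso _ hm)] at h10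
    have h11 : hermForm 6 K 2 y (U.vec (φ u)) • U.vec (φ u) = 0 := add_eq_left.1 h10
    exact h9 ((smul_eq_zero.1 h11).resolve_left hy)) h3.symm

/-- **Matrices with all isotropic vectors as eigenvectors are scalars.** -/
theorem scal_of_points_mat {h : Matrix (Fin 6) (Fin 6) K}
    (hpt : ∀ p : Fin 6 → K, B p p = 0 → p ≠ 0 → ∃ c : K, h *ᵥ p = c • p) : ∃ l : K, h = l • 1 := by
  obtain ⟨ω, hω⟩ := exists_root (K := K)
  have hω0 := root_ne_zero hω
  have h2z := two_zero (K := K)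
  have hcoord : ∀ (i j k : Fin 6) (c : K), (h *ᵥ pv i j c) k = h k i + c * h k j := by
    intro i j k c
    simp only [pv, Matrix.mulVec_add, Matrix.mulVec_smul, Pi.add_apply, Pi.smul_apply, smul_eq_mul]
    congr 1
    · have : (ee i : Fin 6 → K) = Pi.single i 1 := by
        funext t
        rw [ee_apply]
        simp [Pi.single_apply]
      rw [this, Matrix.mulVec_single_one]
      rfl
    · have : (ee j : Fin 6 → K) = Pi.single j 1 := by
        funext t
        rw [ee_apply]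
        simp [Pi.single_apply]
      rw [this, Matrix.mulVec_single_one]
      rfl
  have hpvc : ∀ (i j k : Fin 6) (c : K), pv i j c k = (if k = i then 1 else 0) + c * (if k = j then 1 else 0) := by
    intro i j k c
    simp only [pv, Pi.add_apply, Pi.smul_apply, smul_eq_mul, ee_apply]
  have hne : ∀ (i j : Fin 6) (c : K), i ≠ j → pv i j c ≠ 0 := by
    intro i j c hij h0
    have := congrFun h0 i
    rw [hpvc] at this
    simp [hij.symm, hij] at this
  have hoff : ∀ k j : Fin 6, k ≠ j → h k j = 0 := by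
    intro k j hkj
    obtain ⟨i, hik, hij⟩ : ∃ i : Fin 6, i ≠ k ∧ i ≠ j := by
      revert k j
      decide
    obtain ⟨c₁, e₁⟩ := hpt (pv i j 1) (pv_iso hij one_ne_zero) (hne i j 1 hij)
    obtain ⟨c₂, e₂⟩ := hpt (pv i j ω) (pv_iso hij hω0) (hne i j ω hij)
    have h1 := congrFun e₁ k
    have h2 := congrFun e₂ k
    rw [hcoord, Pi.smul_apply, hpvc, smul_eq_mul] at h1 h2
    simp only [hik.symm, hkj, if_false, add_zero, mul_zero] at h1 h2
    have h3 : (1 + ω) * h k j = 0 := by linear_combination h1 + h2 - h k i * h2z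
    have h4 : (1 + ω) ≠ 0 := by
      intro h5
      have : ω ^ 2 = 0 := by linear_combination hω - h5
      exact hω0 (pow_eq_zero_iff two_ne_zero |>.1 this)
    exact (mul_eq_zero.1 h3).resolve_left h4
  have hdiag : ∀ i j : Fin 6, i ≠ j → h i i = h j j := by
    intro i j hij
    obtain ⟨c₁, e₁⟩ := hpt (pv i j 1) (pv_iso hij one_ne_zero) (hne i j 1 hij)
    have h1 := congrFun e₁ i
    have h2 := congrFun e₁ j
    rw [hcoord, Pi.smul_apply, hpvc, smul_eq_mul, hoff i j hij] at h1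
    rw [hcoord, Pi.smul_apply, hpvc, smul_eq_mul, hoff j i hij.symm] at h2
    simp [hij, hij.symm] at h1 h2
    rw [h1, h2]
  refine ⟨h 0 0, ?_⟩
  ext i j
  by_cases hij : i = j
  · subst hij
    by_cases h0 : i = 0
    · subst h0
      simp
    · simp [hdiag i 0 h0]
  · simp [Matrix.one_apply, hij, hoff i j hij]

end semi

namespace Pt

open Cfsg.Agent.Lib.AutCl.PSUAut

section s1

variable {a u : G}

/-- The iterates of an automorphism acting linearly. -/
theorem iter_vec {U : U6Data D a K} {φ : MulAut G} (hD : ∀ y ∈ Da D a, φ y ∈ Da D a) {g : GL (Fin 6) K}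
    (h1 : ∀ u ∈ Da D a, ∃ c : K, c ≠ 0 ∧ U.vec (φ u) = c • ((g : Matrix (Fin 6) (Fin 6) K) *ᵥ U.vec u)) (n : ℕ) :
    ∀ u ∈ Da D a, (φ ^ n) u ∈ Da D a ∧ ∃ c : K, c ≠ 0 ∧ U.vec ((φ ^ n) u) = c • (((g ^ n : GL (Fin 6) K) : Matrix (Fin 6) (Fin 6) K) *ᵥ U.vec u) := by
  induction n with
  | zero =>
    intro u hu
    refine ⟨hu, 1, one_ne_zero, ?_⟩
    simp
  | succ n ih =>
    intro u hu
    obtain ⟨h2, c, hc, e⟩ := ih u hu
    have e1 : (φ ^ (n + 1)) u = φ ((φ ^ n) u) := by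
      rw [pow_succ']
      rfl
    rw [e1]
    refine ⟨hD _ h2, ?_⟩
    obtain ⟨d, hd, e'⟩ := h1 _ h2
    refine ⟨d * c, mul_ne_zero hd hc, ?_⟩
    rw [e', e, Matrix.mulVec_smul, smul_smul, Matrix.mulVec_mulVec, pow_succ' g n, Units.val_mul]

/-- A linear automorphism of two-power order is induced by a special unitary matrix. -/
theorem exists_su_of_pow (U : U6Data D a K) {φ : MulAut G} (hD : ∀ y ∈ Da D a, φ y ∈ Da D a) {g : GL (Fin 6) K} (hg : g ∈ GU 6 K 2)
    (h1 : ∀ u ∈ Da D a, ∃ c : K, c ≠ 0 ∧ U.vec (φ u) = c • ((g : Matrix (Fin 6) (Fin 6) K) *ᵥ U.vec u)) {k : ℕ} (hk : φ ^ 2 ^ k = 1) :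
    ∃ s : ↥(SU 6 K 2), ∀ u ∈ Da D a, ∃ c : K, c ≠ 0 ∧ U.vec (φ u) = c • act s (U.vec u) := by
  have hit := iter_vec hD h1 (2 ^ k)
  rw [hk] at hit
  set h : Matrix (Fin 6) (Fin 6) K := ((g ^ 2 ^ k : GL (Fin 6) K) : Matrix (Fin 6) (Fin 6) K) with hh
  have hpt : ∀ p : Fin 6 → K, B p p = 0 → p ≠ 0 → ∃ c : K, h *ᵥ p = c • p := by
    intro p hp hp0
    obtain ⟨u, hu, c, hc, e⟩ := U.ex p hp hp0
    obtain ⟨-, d, hd, e'⟩ := hit u hu
    have e2 : U.vec u = d • (h *ᵥ U.vec u) := e'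
    rw [e, Matrix.mulVec_smul, smul_smul] at e2
    refine ⟨(d * c)⁻¹ * c, ?_⟩
    rw [mul_smul, e2, smul_smul, inv_mul_cancel₀ (mul_ne_zero hd hc), one_smul]
  obtain ⟨l, hl⟩ := scal_of_points_mat hpt
  have hdet1 : (g : Matrix (Fin 6) (Fin 6) K).det ^ 2 ^ k = l ^ 6 := by
    have h2 : h.det = l ^ 6 := by
      rw [hl, Matrix.det_smul, Matrix.det_one, mul_one, Fintype.card_fin]
    rw [← h2, hh, Units.val_pow_eq_pow_val, Matrix.det_pow]
  have hdetne : (g : Matrix (Fin 6) (Fin 6) K).det ≠ 0 := by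
    intro h0
    have := (Matrix.isUnit_iff_isUnit_det _).1 g.isUnit
    rw [h0] at this
    exact not_isUnit_zero this
  have hl0 : l ≠ 0 := by
    rintro rfl
    rw [zero_pow (by norm_num)] at hdet1
    exact hdetne (pow_eq_zero_iff (by positivity) |>.1 hdet1)
  have hl6 : l ^ 6 = 1 := by
    have := cube l hl0
    calc l ^ 6 = (l ^ 3) ^ 2 := by ring
      _ = 1 := by rw [this, one_pow]
  rw [hl6] at hdet1
  have hd3 := cube _ hdetne
  have hd1 : (g : Matrix (Fin 6) (Fin 6) K).det = 1 := by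
    have h3 := pow_gcd_eq_one.2 ⟨hdet1, hd3⟩
    have h4 : Nat.gcd (2 ^ k) 3 = 1 := Nat.Coprime.pow_left k (by norm_num)
    rw [h4, pow_one] at h3
    exact h3
  let s : ↥(SU 6 K 2) := ⟨⟨(g : Matrix (Fin 6) (Fin 6) K), hd1⟩, fun x y => hg x y⟩
  refine ⟨s, fun u hu => h1 u hu⟩

end s1

section s2

variable {a u : G} (P : Pt D a u K) [Fintype G]

include P

/-- Equal images under `vt` have proportional coordinates. -/
theorem low_prop_of_vt {v v' : G} (hv : v ∈ Da D a) (hk : v ∈ Kt a u) (hv' : v' ∈ Da D a) (hk' : v' ∈ Kt a u)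
    (h : P.vt ⟨v, hk⟩ = P.vt ⟨v', hk'⟩) (h0 : low (P.U.vec v) ≠ 0) :
    ∃ c : K, c ≠ 0 ∧ low (P.U.vec v') = c • low (P.U.vec v) := by
  have h1 := P.vt_gen hv hk
  have h2 := P.vt_gen hv' hk'
  rw [h, h2] at h1
  obtain ⟨i, hi⟩ := Function.ne_iff.1 h0
  have hi' : low (P.U.vec v) i ≠ 0 := hi
  set p := low (P.U.vec v) with hp
  set q := low (P.U.vec v') with hq
  have hB : ∀ x : Fin 4 → K, B₄ (Pi.single i 1) x = x i ^ 2 := by
    intro x
    simp [hermForm, Pi.single_apply]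
  have h3 := congrArg (fun M : Matrix (Fin 4) (Fin 4) K => M *ᵥ (Pi.single i 1 : Fin 4 → K)) h1
  simp only [Cfsg.Agent.Lib.Classical.HermTransv.transv_mulVec, one_mul, hB] at h3
  have h4 : q i ^ 2 • q = p i ^ 2 • p := add_left_cancel h3
  have hpi : p i ^ 2 ≠ 0 := pow_ne_zero 2 hi'
  have hqi : q i ≠ 0 := by
    intro h5
    rw [h5] at h4
    have h6 : p i ^ 2 • p = 0 := by
      rw [← h4]
      simp
    have := congrFun h6 i
    simp at this
    exact hi' this
  refine ⟨(q i ^ 2)⁻¹ * p i ^ 2, mul_ne_zero (inv_ne_zero (pow_ne_zero 2 hqi)) hpi, ?_⟩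
  rw [mul_smul, ← h4, smul_smul, inv_mul_cancel₀ (pow_ne_zero 2 hqi), one_smul]

/-- **An automorphism in the kernel fixing the members, of two-power order, is inner.** -/
theorem inner_of_fix {τ : MulAut G} (hτ : τ ∈ XA a u) (hQ : ∀ x : Kt a u, P.vt (P.cjA hτ x) = P.vt x) {k : ℕ} (hk : τ ^ 2 ^ k = 1)
    (h1 : τ a = a) : τ ∈ (MulAut.conj : G →* MulAut G).range := by
  have hcases := P.fix_or_swapA hτ
  have hu : τ u = u := by
    rcases hcases with ⟨_, h⟩ | ⟨h, _⟩
    · exact h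
    · exact absurd (h1.symm.trans h) P.hu.2.1.symm
  have hDa : ∀ (φ : MulAut G), φ a = a → ∀ y ∈ Da D a, φ y ∈ Da D a := by
    intro φ hφ y hy
    refine ⟨P.aut_mem φ hy.1, ?_, ?_⟩
    · intro h
      exact hy.2.1 (φ.injective (h.trans hφ.symm))
    · have h2 := congrArg φ hy.2.2.eq
      rw [map_mul, map_mul, hφ] at h2
      exact h2
  have hτi : τ⁻¹ a = a := by
    conv_lhs => rw [← h1]
    exact MulAut.inv_apply_self _ _ _
  obtain ⟨g, hg, σ, hc⟩ := exists_semi_g P.U τ (hDa τ h1) (hDa τ⁻¹ hτi)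
  rcases ringEquiv_cases σ with hσ | hσ
  · -- the linear case
    have h2 : ∀ x : Fin 6 → K, tauHat 6 σ x = x := fun x => funext fun i => hσ _
    have h3 : ∀ v ∈ Da D a, ∃ c : K, c ≠ 0 ∧ P.U.vec (τ v) = c • ((g : Matrix (Fin 6) (Fin 6) K) *ᵥ P.U.vec v) := by
      intro v hv
      obtain ⟨c, hc', e⟩ := hc v hv
      rw [h2] at e
      exact ⟨c, hc', e⟩
    obtain ⟨s, hs⟩ := exists_su_of_pow P.U (hDa τ h1) hg h3 hk
    obtain ⟨x, hx, hl⟩ := P.U.lift s
    have hxa : Commute x a := by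
      have : x ∈ Subgroup.centralizer ({a} : Set G) := by
        refine (Subgroup.closure_le _).2 ?_ hx
        intro v hv
        refine Subgroup.mem_centralizer_iff.2 ?_
        intro w hw
        rw [Set.mem_singleton_iff.1 hw]
        exact hv.2.2
      exact (Subgroup.mem_centralizer_iff.1 this a (by simp)).symm
    have hv : ∀ v ∈ Da D a, τ v = x * v * x⁻¹ := by
      intro v hv
      obtain ⟨m, c₁, hc₁, e₁⟩ := hl v hv
      obtain ⟨c₂, hc₂, e₂⟩ := hs v hv
      apply P.U.eq_of _ m _ (hDa τ h1 v hv) (c₂ * c₁⁻¹)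
      rw [e₁, e₂, smul_smul, mul_assoc, inv_mul_cancel₀ hc₁, mul_one]
    have hψ : ∀ y, ((MulAut.conj x)⁻¹ * τ) y = x⁻¹ * τ y * x := by
      intro y
      show (MulAut.conj x)⁻¹ (τ y) = _
      rw [MulAut.conj_inv_apply]
    rcases P.aut_fix (ψ := (MulAut.conj x)⁻¹ * τ) (by rw [hψ, h1, hxa.inv_left.eq]; group) (by
      intro v hv'
      rw [hψ, hv v hv']
      group) with h4 | h4
    · refine ⟨x, ?_⟩
      have := inv_mul_eq_one.1 h4
      exact this
    · refine ⟨x * a, ?_⟩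
      rw [map_mul]
      exact (inv_mul_eq_iff_eq_mul.1 h4).symm
  · -- the semilinear case
    exfalso
    have h2z := two_zero (K := K)
    obtain ⟨ω, hω⟩ := exists_root (K := K)
    have hω0 := root_ne_zero hω
    have hgf : ∀ x y : Fin 6 → K, B ((g : Matrix (Fin 6) (Fin 6) K) *ᵥ x) ((g : Matrix (Fin 6) (Fin 6) K) *ᵥ y) = B x y := hg
    have hsemi := tauHat_semi (q := 2) 6 σ
    let T : (Fin 6 → K) → (Fin 6 → K) := fun p => (g : Matrix (Fin 6) (Fin 6) K) *ᵥ tauHat 6 σ p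
    have Tadd : ∀ x y, T (x + y) = T x + T y := by
      intro x y
      show _ *ᵥ tauHat 6 σ (x + y) = _ *ᵥ tauHat 6 σ x + _ *ᵥ tauHat 6 σ y
      rw [map_add, Matrix.mulVec_add]
    have Tsmul : ∀ (c : K) x, T (c • x) = σ c • T x := by
      intro c x
      show _ *ᵥ tauHat 6 σ (c • x) = σ c • _ *ᵥ tauHat 6 σ x
      rw [hsemi.smul, Matrix.mulVec_smul]
    have Tform : ∀ x y, B (T x) (T y) = σ (B x y) := by
      intro x y
      show B (_ *ᵥ tauHat 6 σ x) (_ *ᵥ tauHat 6 σ y) = _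
      rw [hgf, hsemi.form]
    have hc' : ∀ v ∈ Da D a, ∃ c : K, c ≠ 0 ∧ P.U.vec (τ v) = c • T (P.U.vec v) := hc
    -- the image of a point over `w`
    have key : ∀ w : Fin 4 → K, B₄ w w = 0 → w ≠ 0 → ∃ e : K, e ≠ 0 ∧ low (T (hat w)) = e • w := by
      intro w hw hw0
      obtain ⟨v, F⟩ := P.exists_fb hw hw0 0
      have hvK := Fb.mem_K P F
      obtain ⟨c₁, hc₁, e₁⟩ := F.2
      rw [zero_smul, add_zero] at e₁
      have hmD := hDa τ h1 v F.1
      have hmK := P.conjA_mem_Kt hτ hvK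
      have hl0 : low (P.U.vec v) ≠ 0 := by
        rw [e₁, low_smul, low_hat]
        exact smul_ne_zero hc₁ hw0
      obtain ⟨f, hf, e₂⟩ := P.low_prop_of_vt F.1 hvK hmD hmK (hQ ⟨v, hvK⟩).symm hl0
      obtain ⟨c₂, hc₂, e₃⟩ := hc' v F.1
      rw [e₁, Tsmul] at e₃
      have e₄ : low (P.U.vec (τ v)) = (c₂ * σ c₁) • low (T (hat w)) := by
        rw [e₃, low_smul, low_smul, smul_smul]
      rw [e₁, low_smul, low_hat, e₄] at e₂
      have hσ₁ : σ c₁ ≠ 0 := by
        rw [hσ]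
        exact pow_ne_zero 2 hc₁
      refine ⟨(c₂ * σ c₁)⁻¹ * (f * c₁), mul_ne_zero (inv_ne_zero (mul_ne_zero hc₂ hσ₁)) (mul_ne_zero hf hc₁), ?_⟩
      rw [mul_smul, ← smul_smul f, ← e₂, smul_smul, inv_mul_cancel₀ (mul_ne_zero hc₂ hσ₁), one_smul]
    let w₃ : Fin 4 → K := ![1, 1, 0, 0]
    let w₄ : Fin 4 → K := ![0, 0, 1, 1]
    have hw₃ : B₄ w₃ w₃ = 0 := by
      rw [B₄_eq]
      simp [w₃]
      linear_combination h2z
    have hw₄ : B₄ w₄ w₄ = 0 := by
      rw [B₄_eq]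
      simp [w₄]
      linear_combination h2z
    have hsum : ∀ ρ : K, ρ ≠ 0 → B₄ (w₃ + ρ • w₄) (w₃ + ρ • w₄) = 0 := by
      intro ρ hρ
      rw [B₄_eq]
      simp [w₃, w₄]
      linear_combination (1 + ρ ^ 3) * h2z
    have hw₃0 : w₃ ≠ 0 := by
      intro h
      have := congrFun h 0
      simp [w₃] at this
    have hw₄0 : w₄ ≠ 0 := by
      intro h
      have := congrFun h 2
      simp [w₄] at this
    have hsum0 : ∀ ρ : K, w₃ + ρ • w₄ ≠ 0 := by
      intro ρ h
      have := congrFun h 0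
      simp [w₃, w₄] at this
    obtain ⟨e₃, he₃, k₃⟩ := key w₃ hw₃ hw₃0
    obtain ⟨e₄, he₄, k₄⟩ := key w₄ hw₄ hw₄0
    have hL : ∀ ρ : K, low (T (hat (w₃ + ρ • w₄))) = e₃ • w₃ + σ ρ • e₄ • w₄ := by
      intro ρ
      rw [hat_add, hat_smul, Tadd, Tsmul, low_add, low_smul, k₃, k₄]
    obtain ⟨e₅, he₅, k₅⟩ := key _ (hsum 1 one_ne_zero) (hsum0 1)
    obtain ⟨e₆, he₆, k₆⟩ := key _ (hsum ω hω0) (hsum0 ω)
    rw [hL] at k₅ k₆
    have c₁ := congrFun k₅ 0
    have c₂ := congrFun k₅ 2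
    have c₃ := congrFun k₆ 0
    have c₄ := congrFun k₆ 2
    simp [w₃, w₄] at c₁ c₂ c₃ c₄
    rw [hσ, c₂.trans c₁.symm, ← c₃] at c₄
    have hq : e₃ * (ω ^ 2 + ω) = 0 := by
      linear_combination c₄ + (e₃ * ω) * h2z
    have h5 : ω ^ 2 + ω = 0 := (mul_eq_zero.1 hq).resolve_left he₃
    have h6 : (1 : K) = 0 := by linear_combination hω - h5
    exact one_ne_zero h6

omit P [Fintype G] in
theorem a₀_eq_hat : (a₀ : Fin 6 → K) = hat w₀ := by
  funext i
  fin_cases i <;> simp [a₀, hat, w₀]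

/-- **`Kt` is transitive on the non-zero isotropic vectors, up to the scale of the fibres.** -/
theorem exists_transport {w : Fin 4 → K} (hw : B₄ w w = 0) (hw0 : w ≠ 0) :
    ∃ k ∈ Kt a u, ∃ c : K, c ≠ 0 ∧ ∀ {l : K} {v : G}, P.Fb w₀ l v → P.Fb w (c * l) (k * v * k⁻¹) := by
  have hli : LinearIndependent K ![(b₀ : Fin 6 → K), hat w] := by
    rw [LinearIndependent.pair_iff]
    intro s t hst
    have h1 := congrArg low hst
    have hl0 : low (0 : Fin 6 → K) = 0 := by
      funext i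
      fin_cases i <;> rfl
    rw [low_add, low_smul, low_smul, low_hat, low_b₀, smul_zero, zero_add, hl0] at h1
    have ht : t = 0 := (smul_eq_zero.1 h1).resolve_right hw0
    rw [ht, zero_smul, add_zero] at hst
    have h2 := congrFun hst 0
    simp [b₀] at h2
    exact ⟨h2, ht⟩
  obtain ⟨g, c, hc, h1, h2⟩ := exists_pair (p₁ := (b₀ : Fin 6 → K)) (p₂ := hat w) B_b₀_b₀ (by rw [B_low (B_hat_b₀ w) (B_hat_b₀ w), low_hat]; exact hw)
    (B_zero_symm (B_hat_b₀ w)) hli
  obtain ⟨x, hx, hl⟩ := P.U.lift g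
  have hxa : Commute x a := by
    have : x ∈ Subgroup.centralizer ({a} : Set G) := by
      refine (Subgroup.closure_le _).2 ?_ hx
      intro v hv
      refine Subgroup.mem_centralizer_iff.2 ?_
      intro w hw
      rw [Set.mem_singleton_iff.1 hw]
      exact hv.2.2
    exact (Subgroup.mem_centralizer_iff.1 this a (by simp)).symm
  have hxu : Commute x u := by
    obtain ⟨m, d, hd, e⟩ := hl u P.hu
    rw [P.hb, h1, smul_smul, ← P.hb] at e
    exact commute_of_conj (P.U.eq_of u P.hu _ m _ e)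
  refine ⟨x, mem_Kt.2 ⟨hxa, hxu⟩, c, hc, ?_⟩
  intro l v F
  obtain ⟨h3, d, hd, e⟩ := F
  obtain ⟨m, d', hd', e'⟩ := hl v h3
  refine ⟨m, d' * d, mul_ne_zero hd' hd, ?_⟩
  rw [e', e, act_smul, act_add, act_smul, ← a₀_eq_hat, h2, h1, smul_smul, smul_smul]
  congr 2
  ring_nf

/-- **`EE / ⟨a, u⟩` is an irreducible module for `Kt`.** -/
theorem EE_irred (S : Subgroup G) (h1 : a ∈ S) (h2 : u ∈ S) (hn : ∀ k ∈ Kt a u, ∀ x ∈ S, k * x * k⁻¹ ∈ S) {z : G} (hzS : z ∈ S)
    (hzE : z ∈ P.EE) (hz : ¬ (z = 1 ∨ z = a ∨ z = u ∨ z = a * u)) : P.EE ≤ S := by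
  have h2z := two_zero (K := K)
  obtain ⟨ω, hω⟩ := exists_root (K := K)
  have hω0 := root_ne_zero hω
  have hω3 := root_cube hω
  have hzK := P.EE_le hzE
  obtain ⟨f, hf⟩ := P.exists_HasF_of_mem hzE
  obtain ⟨q, hq, hq0, hκ⟩ : ∃ q : Fin 4 → K, B₄ q q = 0 ∧ q ≠ 0 ∧ f (hat q) ≠ 0 := by
    by_contra hcon
    push Not at hcon
    apply hz
    refine HasF.mem_V P hf (mem_Kt.1 hzK).1 ?_
    obtain ⟨s, s1, s2, s3⟩ := id hf
    have h3 := ff_zero_of_iso s2 (fun w hw hw0 => by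
      rw [s3 _ (B_hat_b₀ w)]
      exact hcon w hw hw0)
    intro y hy
    rw [← s3 y hy]
    exact h3 y hy
  obtain ⟨κ, hκd⟩ : ∃ κ, κ = f (hat q) := ⟨_, rfl⟩
  rw [← hκd] at hκ
  obtain ⟨v, F⟩ := P.exists_fb hq hq0 0
  have F' := Fb.conj P F hf
  rw [zero_add, ← hκd] at F'
  have hvK := Fb.mem_K P F
  have hvi := inv_of_mem P.hG.1 F.1.1
  have hpair : v * (z * v * z⁻¹) ∈ S := by
    have h3 := Subgroup.mul_mem _ (hn v hvK z hzS) (Subgroup.inv_mem _ hzS)
    have e : v * z * v⁻¹ * z⁻¹ = v * (z * v * z⁻¹) := by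
      rw [hvi]
      group
    rwa [e] at h3
  -- the transport to the base fibre
  obtain ⟨k, hk, c, hc, hkF⟩ := P.exists_transport hq hq0
  obtain ⟨v₀, F₀⟩ := P.exists_fb B₄_w₀ w₀_ne 0
  obtain ⟨v₁, F₁⟩ := P.exists_fb B₄_w₀ w₀_ne (c⁻¹ * κ)
  have e₀ : k * v₀ * k⁻¹ = v := by
    have := hkF F₀
    rw [mul_zero] at this
    exact Fb.unique P this F
  have e₁ : k * v₁ * k⁻¹ = z * v * z⁻¹ := by
    have := hkF F₁
    rw [mul_inv_cancel_left₀ hc] at this
    exact Fb.unique P this F'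
  have hbase : v₀ * v₁ ∈ S := by
    have h3 := hn k⁻¹ (Subgroup.inv_mem _ hk) _ hpair
    have e : k⁻¹ * (v * (z * v * z⁻¹)) * k⁻¹⁻¹ = v₀ * v₁ := by
      rw [← e₁, ← e₀]
      group
    rwa [e] at h3
  -- all differences over the base fibre
  obtain ⟨κ₀, hκ₀d⟩ : ∃ κ₀, κ₀ = c⁻¹ * κ := ⟨_, rfl⟩
  rw [← hκ₀d] at F₁
  have hκ₀ : κ₀ ≠ 0 := by
    rw [hκ₀d]
    exact mul_ne_zero (inv_ne_zero hc) hκ
  obtain ⟨m, hmK, hm⟩ := P.exists_m hω
  have hstep : ∀ {κ' : K} {t t' : G}, P.Fb w₀ 0 t → P.Fb w₀ κ' t' → t * t' ∈ S → ∃ t₂ t₂', P.Fb w₀ 0 t₂ ∧ P.Fb w₀ (ω ^ 2 * κ') t₂' ∧ t₂ * t₂' ∈ S := by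
    intro κ' t t' h3 h4 h5
    have h6 := Fb.of_m P hω hm h3
    rw [mul_zero] at h6
    refine ⟨_, _, h6, Fb.of_m P hω hm h4, ?_⟩
    have h7 := hn m hmK _ h5
    have e : m * (t * t') * m⁻¹ = m * t * m⁻¹ * (m * t' * m⁻¹) := by group
    rwa [e] at h7
  obtain ⟨t₂, t₂', A₁, A₂, A₃⟩ := hstep F₀ F₁ hbase
  obtain ⟨t₃, t₃', B₁, B₂, B₃⟩ := hstep A₁ A₂ A₃
  -- the differences
  have hall : ∀ {κ' : K}, κ' ≠ 0 → ∃ t t', P.Fb w₀ 0 t ∧ P.Fb w₀ κ' t' ∧ t * t' ∈ S := by
    intro κ' hκ'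
    have hr3 := cube (κ' * κ₀⁻¹) (mul_ne_zero hκ' (inv_ne_zero hκ₀))
    have hf' : (κ' * κ₀⁻¹ + 1) * (κ' * κ₀⁻¹ + ω) * (κ' * κ₀⁻¹ + ω ^ 2) = 0 := by
      linear_combination hr3 + ((κ' * κ₀⁻¹) ^ 2 + ω * (κ' * κ₀⁻¹)) * hω + hω3 + h2z
    have el : ∀ ρ : K, κ' * κ₀⁻¹ = ρ → κ' = ρ * κ₀ := by
      intro ρ h
      rw [← h]
      field_simp
    rcases mul_eq_zero.1 hf' with hf' | hf'
    · rcases mul_eq_zero.1 hf' with hf' | hf'
      · have h5 := el 1 (eq_of_add_zero hf')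
        rw [one_mul] at h5
        rw [h5]
        exact ⟨_, _, F₀, F₁, hbase⟩
      · have h5 := el ω (eq_of_add_zero hf')
        have h6 : ω ^ 2 * (ω ^ 2 * κ₀) = ω * κ₀ := by
          linear_combination (ω * κ₀) * hω3
        rw [h5, ← h6]
        exact ⟨_, _, B₁, B₂, B₃⟩
    · have h5 := el (ω ^ 2) (eq_of_add_zero hf')
      rw [h5]
      exact ⟨_, _, A₁, A₂, A₃⟩
  -- all pairs over the base fibre
  have hV : a * u ∈ S := Subgroup.mul_mem _ h1 h2
  have hbasepairs : ∀ {l m : K} {t t' : G}, P.Fb w₀ l t → P.Fb w₀ m t' → t * t' ∈ S := by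
    intro l m t t' Fl Fm
    by_cases hlm : l = m
    · subst hlm
      rw [Fb.unique P Fm Fl, mul_self_of_mem P.hG.1 Fl.1.1]
      exact Subgroup.one_mem _
    · have hκ' : l + m ≠ 0 := by
        intro h3
        exact hlm (eq_of_add_zero h3)
      obtain ⟨t₀, t₁, G₀, G₁, hG⟩ := hall hκ'
      have ct : Commute t t' := Fb.comm P B₄_w₀ Fl Fm
      by_cases h0 : l = 0
      · subst h0
        rw [zero_add] at G₁
        rw [Fb.unique P Fl G₀, Fb.unique P Fm G₁]
        exact hG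
      by_cases h0' : m = 0
      · subst h0'
        rw [add_zero] at G₁
        rw [ct.eq, Fb.unique P Fm G₀, Fb.unique P Fl G₁]
        exact hG
      -- four different parameters
      have n₁ : (0 : K) ≠ l + m := fun h => hκ' h.symm
      have n₂ : (0 : K) ≠ l := fun h => h0 h.symm
      have n₃ : (0 : K) ≠ m := fun h => h0' h.symm
      have n₄ : l + m ≠ l := by
        intro h
        apply h0'
        linear_combination h - l * h2z + l * h2z
      have n₅ : l + m ≠ m := by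
        intro h
        apply h0
        linear_combination h
      have hp4 := Fb.prod_four P w₀_ne G₀ G₁ Fl Fm n₁ n₂ n₃ n₄ n₅ hlm
      have e : t * t' = (t₀ * t₁)⁻¹ * (a * u) := by
        rw [← hp4]
        group
      rw [e]
      exact Subgroup.mul_mem _ (Subgroup.inv_mem _ hG) hV
  refine P.EE_le_of S h1 h2 ?_
  intro w l m t t' hw hw0 Fl Fm
  obtain ⟨k', hk', c', hc', hF'⟩ := P.exists_transport hw hw0
  obtain ⟨t₀, G₀⟩ := P.exists_fb B₄_w₀ w₀_ne (c'⁻¹ * l)
  obtain ⟨t₁, G₁⟩ := P.exists_fb B₄_w₀ w₀_ne (c'⁻¹ * m)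
  have e₀' : k' * t₀ * k'⁻¹ = t := by
    have := hF' G₀
    rw [mul_inv_cancel_left₀ hc'] at this
    exact Fb.unique P this Fl
  have e₁' : k' * t₁ * k'⁻¹ = t' := by
    have := hF' G₁
    rw [mul_inv_cancel_left₀ hc'] at this
    exact Fb.unique P this Fm
  have h3 := hn k' hk' _ (hbasepairs G₀ G₁)
  have e : k' * (t₀ * t₁) * k'⁻¹ = t * t' := by
    rw [← e₀', ← e₁']
    group
  rwa [e] at h3

/-- Transitivity on ordered commuting pairs. -/
theorem exists_conj_pair {a' u' : G} (ha' : a' ∈ D) (hu' : u' ∈ Da D a') : ∃ g : G, g * a * g⁻¹ = a' ∧ g * u * g⁻¹ = u' := by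
  obtain ⟨t, ht⟩ := P.hp.1 a P.ha a' ha'
  have hcj := P.hG.2.1
  have h1 := mem_Da_conj hcj t P.hu
  rw [ht] at h1
  obtain ⟨g, hg, e⟩ := exists_conj_of_mem_Da P.hG P.hp ha' h1 hu'
  have hga : Commute g a' := by
    have : g ∈ Subgroup.centralizer ({a'} : Set G) := by
      refine (Subgroup.closure_le _).2 ?_ hg
      intro v hv
      refine Subgroup.mem_centralizer_iff.2 ?_
      intro w hw
      rw [Set.mem_singleton_iff.1 hw]
      exact hv.2.2
    exact (Subgroup.mem_centralizer_iff.1 this a' (by simp)).symm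
  refine ⟨g * t, ?_, ?_⟩
  · calc g * t * a * (g * t)⁻¹ = g * (t * a * t⁻¹) * g⁻¹ := by group
      _ = a' := by rw [ht, hga.eq]; group
  · calc g * t * u * (g * t)⁻¹ = g * (t * u * t⁻¹) * g⁻¹ := by group
      _ = u' := e

/-- The order of the centralizer in the automorphism group. -/
theorem card_XA (hA : Nat.card (MulAut G) = 2 * Nat.card G) : Nat.card (XA a u) = 106168320 := by
  haveI : Finite (MulAut G) := inferInstance
  have hinj := conj_inj P.h22.1
  set R : Subgroup (MulAut G) := (MulAut.conj : G →* MulAut G).range with hR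
  have hcR : Nat.card R = Nat.card G := by
    rw [hR]
    exact Nat.card_congr (MonoidHom.ofInjective hinj).toEquiv.symm
  have hG0 : Nat.card G ≠ 0 := Nat.card_pos.ne'
  have hidx : R.index = 2 := by
    have h1 := Subgroup.card_mul_index R
    rw [hcR, hA] at h1
    have h2 : Nat.card G * R.index = Nat.card G * 2 := by rw [h1, mul_comm]
    exact Nat.eq_of_mul_eq_mul_left (Nat.pos_of_ne_zero hG0) h2
  obtain ⟨σ, hσ⟩ : ∃ σ : MulAut G, σ ∉ R := by
    by_contra hcon
    push Not at hcon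
    have : R = ⊤ := eq_top_iff.2 fun x _ => hcon x
    rw [this, Subgroup.index_top] at hidx
    omega
  have hσu : σ u ∈ Da D (σ a) := by
    refine ⟨P.aut_mem σ P.hu.1, fun h => P.hu.2.1 (σ.injective h), ?_⟩
    show σ a * σ u = σ u * σ a
    rw [← map_mul, ← map_mul, P.comm_au.eq]
  obtain ⟨g, hg1, hg2⟩ := P.exists_conj_pair (P.aut_mem σ P.ha) hσu
  have hξ : ∀ y, ((MulAut.conj g)⁻¹ * σ) y = g⁻¹ * σ y * g := by
    intro y
    show (MulAut.conj g)⁻¹ (σ y) = _
    rw [MulAut.conj_inv_apply]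
  have hξX : (MulAut.conj g)⁻¹ * σ ∈ XA a u := by
    rw [P.mem_XA', map_mul, hξ, hξ, ← hg1, ← hg2]
    group
  have hξR : (MulAut.conj g)⁻¹ * σ ∉ R := by
    intro h
    apply hσ
    have e : σ = MulAut.conj g * ((MulAut.conj g)⁻¹ * σ) := by group
    rw [e]
    exact Subgroup.mul_mem _ ⟨g, rfl⟩ h
  have hH : (R.subgroupOf (XA a u)).index = 2 := by
    rw [Subgroup.index_eq_two_iff]
    refine ⟨⟨_, hξX⟩, fun b => ?_⟩
    simp only [Subgroup.mem_subgroupOf]
    have h1 : (b * ⟨_, hξX⟩ : ↥(XA a u)).1 ∈ R ↔ (b.1 ∈ R ↔ (MulAut.conj g)⁻¹ * σ ∈ R) := Subgroup.mul_mem_iff_of_index_two hidx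
    by_cases hb : b.1 ∈ R
    · right
      refine ⟨hb, fun h => ?_⟩
      exact hξR (h1.1 h |>.1 hb)
    · left
      refine ⟨h1.2 ⟨fun h => absurd h hb, fun h => absurd h hξR⟩, hb⟩
  have hcH : Nat.card (R.subgroupOf (XA a u)) = Nat.card (Cc a u) := by
    let f : ↥(Cc a u) → ↥(R.subgroupOf (XA a u)) := fun c =>
      ⟨⟨MulAut.conj c.1, P.conj_mem_XA c.2⟩, Subgroup.mem_subgroupOf.2 ⟨c.1, rfl⟩⟩
    have hf : Function.Bijective f := by
      constructor
      · intro c c' e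
        have h1 : MulAut.conj c.1 = MulAut.conj c'.1 := congrArg (fun w : ↥(R.subgroupOf (XA a u)) => (w.1 : MulAut G)) e
        exact Subtype.ext (hinj h1)
      · rintro ⟨⟨x, hx⟩, hxR⟩
        obtain ⟨c, hc⟩ := Subgroup.mem_subgroupOf.1 hxR
        change MulAut.conj c = x at hc
        subst hc
        exact ⟨⟨c, P.mem_Cc_of_conj_mem hx⟩, rfl⟩
    exact (Nat.card_congr (Equiv.ofBijective f hf)).symm
  have h1 := Subgroup.card_mul_index (R.subgroupOf (XA a u))
  rw [hH, hcH, P.card_Cc] at h1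
  omega

/-- The order of the kernel. -/
theorem card_Q (hA : Nat.card (MulAut G) = 2 * Nat.card G) : Nat.card P.thHomA.ker = 2048 := by
  have h1 := Subgroup.card_mul_index P.thHomA.ker
  rw [Subgroup.index_ker, MonoidHom.range_eq_top.2 P.thHomA_surj, Subgroup.card_top, card_mulAut_SU₄, P.card_XA hA] at h1
  omega

theorem pow_Q (hA : Nat.card (MulAut G) = 2 * Nat.card G) {c : ↥(XA a u)} (hc : c ∈ P.thHomA.ker) : c.1 ^ 2 ^ 11 = 1 := by
  have h1 : (⟨c, hc⟩ : P.thHomA.ker) ^ Nat.card P.thHomA.ker = 1 := pow_card_eq_one'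
  rw [P.card_Q hA] at h1
  have h2 : (2 : ℕ) ^ 11 = 2048 := by norm_num
  rw [h2]
  have h3 := congrArg (fun w : P.thHomA.ker => ((w : ↥(XA a u)) : MulAut G)) h1
  simp only [SubgroupClass.coe_pow, OneMemClass.coe_one] at h3
  exact h3

/-- Elements of the kernel fixing the members are inner by `EE`. -/
theorem inner_of_Q (hA : Nat.card (MulAut G) = 2 * Nat.card G) {c : ↥(XA a u)} (hc : c ∈ P.thHomA.ker) (h1 : c.1 a = a) :
    ∃ z ∈ P.EE, c.1 = MulAut.conj z := by
  obtain ⟨z, hz⟩ := P.inner_of_fix c.2 ((P.mem_ker_thHomA).1 hc) (P.pow_Q hA hc) h1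
  change MulAut.conj z = c.1 at hz
  have hzC : z ∈ Cc a u := P.mem_Cc_of_conj_mem (by rw [hz]; exact c.2)
  refine ⟨z, (P.conj_ker_iff hzC).1 ?_, hz.symm⟩
  have : (⟨MulAut.conj z, P.conj_mem_XA hzC⟩ : ↥(XA a u)) = c := Subtype.ext hz
  rw [this]
  exact hc

/-- Elements of `EE` give elements of the kernel. -/
theorem conj_mem_Q {z : G} (hz : z ∈ P.EE) : (⟨MulAut.conj z, P.conj_mem_XA (P.Kt_le (P.EE_le hz))⟩ : ↥(XA a u)) ∈ P.thHomA.ker :=
  (P.conj_ker_iff (P.Kt_le (P.EE_le hz))).2 hz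

/-- **The action of an element swapping the members on `EE`.** -/
theorem swap_EE {τ : MulAut G} (hτ : τ ∈ XA a u) (hQ : ∀ x : Kt a u, P.vt (P.cjA hτ x) = P.vt x) (h1 : τ a = u) (h2 : τ u = a)
    {e : G} (he : e ∈ P.EE) (hsq : τ * τ = MulAut.conj e) : ∀ z ∈ P.EE, τ z = z ∨ τ z = z * (a * u) := by
  have hj := P.au_sq
  have hτE : ∀ {z : G}, z ∈ P.EE → τ z ∈ P.EE := fun hz => P.conjA_EE hτ hz
  have hjc : ∀ {x : G}, x ∈ Kt a u → Commute x (a * u) := fun hx => P.comm_au_Kt hx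
  have hjE : ∀ {z : G}, z ∈ P.EE → Commute z (a * u) := fun hz => hjc (P.EE_le hz)
  have haa := mul_self_of_mem P.hG.1 P.ha
  have huu := mul_self_of_mem P.hG.1 P.hu.1
  have hjinv : (a * u)⁻¹ = a * u := inv_eq_of_mul_eq_one_left hj
  let S : Subgroup G :=
    { carrier := {z | z ∈ P.EE ∧ (τ z = z ∨ τ z = z * (a * u))}
      mul_mem' := by
        rintro x₁ x₂ ⟨k₁, h₁⟩ ⟨k₂, h₂⟩
        refine ⟨Subgroup.mul_mem _ k₁ k₂, ?_⟩
        rw [map_mul]
        have hc := hjE k₂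
        rcases h₁ with h₁ | h₁ <;> rcases h₂ with h₂ | h₂ <;> rw [h₁, h₂]
        · exact Or.inl rfl
        · exact Or.inr (by group)
        · right
          calc x₁ * (a * u) * x₂ = x₁ * ((a * u) * x₂) := by group
            _ = x₁ * (x₂ * (a * u)) := by rw [hc.symm.eq]
            _ = _ := by group
        · left
          calc x₁ * (a * u) * (x₂ * (a * u)) = x₁ * ((a * u) * x₂) * (a * u) := by group
            _ = x₁ * (x₂ * (a * u)) * (a * u) := by rw [hc.symm.eq]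
            _ = x₁ * x₂ * ((a * u) * (a * u)) := by group
            _ = x₁ * x₂ := by rw [hj, mul_one]
      one_mem' := ⟨Subgroup.one_mem _, Or.inl (map_one τ)⟩
      inv_mem' := by
        rintro x₁ ⟨k₁, h₁⟩
        refine ⟨Subgroup.inv_mem _ k₁, ?_⟩
        rw [map_inv]
        rcases h₁ with h₁ | h₁ <;> rw [h₁]
        · exact Or.inl rfl
        · right
          rw [_root_.mul_inv_rev, hjinv]
          exact (hjE k₁).inv_left.symm.eq }
  have hmemS : ∀ {z : G}, z ∈ S ↔ z ∈ P.EE ∧ (τ z = z ∨ τ z = z * (a * u)) := Iff.rfl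
  have hne := P.hu.2.1
  have hV : ∀ {x : G}, (x = 1 ∨ x = a ∨ x = u ∨ x = a * u) → x ∈ Kt a u := by
    rintro x (rfl | rfl | rfl | rfl)
    · exact Subgroup.one_mem _
    · exact P.a_mem
    · exact P.u_mem
    · exact Subgroup.mul_mem _ P.a_mem P.u_mem
  have hVcomm : ∀ {x y : G}, (x = 1 ∨ x = a ∨ x = u ∨ x = a * u) → y ∈ Kt a u → Commute x y := by
    rintro x y (rfl | rfl | rfl | rfl) hy
    · exact Commute.one_left y
    · exact (mem_Kt.1 hy).1.symm
    · exact (mem_Kt.1 hy).2.symm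
    · exact (hjc hy).symm
  have ha₁ : a ∈ S := hmemS.2 ⟨P.a_mem_EE, Or.inr (by rw [h1, ← mul_assoc, haa, one_mul])⟩
  have hu₁ : u ∈ S := hmemS.2 ⟨P.u_mem_EE, Or.inr (by
    rw [h2, P.comm_au.eq, ← mul_assoc, huu, one_mul]
    )⟩
  have hn : ∀ k ∈ Kt a u, ∀ x ∈ S, k * x * k⁻¹ ∈ S := by
    intro k hk x hx
    obtain ⟨hxE, hx'⟩ := hmemS.1 hx
    refine hmemS.2 ⟨P.conj_EE (P.Kt_le hk) hxE, ?_⟩
    have hτk := P.conjA_mem_Kt hτ hk
    obtain ⟨e₀, he₀d⟩ : ∃ e₀, e₀ = k⁻¹ * τ k := ⟨_, rfl⟩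
    have he₀K : e₀ ∈ Kt a u := by
      rw [he₀d]
      exact Subgroup.mul_mem _ (Subgroup.inv_mem _ hk) hτk
    have he₀E : e₀ ∈ P.EE := by
      refine P.mem_EE.2 ⟨he₀K, ?_⟩
      have h3 := hQ ⟨k, hk⟩
      have e3 : (⟨e₀, he₀K⟩ : Kt a u) = (⟨k, hk⟩ : Kt a u)⁻¹ * P.cjA hτ ⟨k, hk⟩ := by
        apply Subtype.ext
        exact he₀d
      rw [e3, map_mul, map_inv, h3, inv_mul_cancel]
    have hτk' : τ k = k * e₀ := by rw [he₀d]; group
    have hexp : τ (k * x * k⁻¹) = k * (e₀ * τ x * e₀⁻¹) * k⁻¹ := by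
      rw [map_mul, map_mul, map_inv, hτk']
      group
    have cj := hjc hk
    have ce := hjE he₀E
    rw [hexp]
    rcases hx' with hx' | hx' <;> rw [hx'] <;> rcases P.EE_comm hxE he₀E with h5 | h5
    · left
      rw [h5]
    · right
      rw [h5]
      calc k * (x * (a * u)) * k⁻¹ = k * x * ((a * u) * k⁻¹) := by group
        _ = k * x * (k⁻¹ * (a * u)) := by rw [cj.inv_left.symm.eq]
        _ = _ := by group
    · right
      have h6 : e₀ * (x * (a * u)) * e₀⁻¹ = (e₀ * x * e₀⁻¹) * (a * u) := by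
        calc e₀ * (x * (a * u)) * e₀⁻¹ = e₀ * x * ((a * u) * e₀⁻¹) := by group
          _ = e₀ * x * (e₀⁻¹ * (a * u)) := by rw [ce.inv_left.symm.eq]
          _ = _ := by group
      rw [h6, h5]
      calc k * (x * (a * u)) * k⁻¹ = k * x * ((a * u) * k⁻¹) := by group
        _ = k * x * (k⁻¹ * (a * u)) := by rw [cj.inv_left.symm.eq]
        _ = _ := by group
    · left
      have h6 : e₀ * (x * (a * u)) * e₀⁻¹ = (e₀ * x * e₀⁻¹) * (a * u) := by
        calc e₀ * (x * (a * u)) * e₀⁻¹ = e₀ * x * ((a * u) * e₀⁻¹) := by group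
          _ = e₀ * x * (e₀⁻¹ * (a * u)) := by rw [ce.inv_left.symm.eq]
          _ = _ := by group
      rw [h6, h5, mul_assoc x, hj, mul_one]
  -- a non-central element of the subgroup
  have hsqz : ∀ z : G, τ (τ z) = e * z * e⁻¹ := fun z => congrArg (fun f : MulAut G => f z) hsq
  have hprod : ∀ {z : G}, z ∈ P.EE → z * τ z ∈ S := by
    intro z hz
    have hτz := hτE hz
    refine hmemS.2 ⟨Subgroup.mul_mem _ hz hτz, ?_⟩
    rw [map_mul, hsqz]
    rcases P.EE_comm hz he with h5 | h5 <;> rcases P.EE_comm hz hτz with h6 | h6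
    · left
      rw [h5]
      exact (commute_of_conj h6).eq
    · right
      rw [h5]
      calc τ z * z = τ z * z * (τ z)⁻¹ * τ z := by group
        _ = z * (a * u) * τ z := by rw [h6]
        _ = z * ((a * u) * τ z) := by group
        _ = z * (τ z * (a * u)) := by rw [(hjE hτz).symm.eq]
        _ = _ := by group
    · right
      rw [h5]
      have h7 := (commute_of_conj h6).eq
      calc τ z * (z * (a * u)) = (τ z * z) * (a * u) := by group
        _ = z * τ z * (a * u) := by rw [h7]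
    · left
      rw [h5]
      calc τ z * (z * (a * u)) = (τ z * z * (τ z)⁻¹ * τ z) * (a * u) := by group
        _ = z * (a * u) * τ z * (a * u) := by rw [h6]
        _ = z * ((a * u) * τ z) * (a * u) := by group
        _ = z * (τ z * (a * u)) * (a * u) := by rw [(hjE hτz).symm.eq]
        _ = z * τ z * ((a * u) * (a * u)) := by group
        _ = z * τ z := by rw [hj, mul_one]
  have hex : ∃ z ∈ S, ¬ (z = 1 ∨ z = a ∨ z = u ∨ z = a * u) := by
    by_contra hcon
    push Not at hcon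
    have hcon' : ∀ z ∈ S, z = 1 ∨ z = a ∨ z = u ∨ z = a * u := hcon
    obtain ⟨x, hxE, y, hyE, hyx⟩ := P.exists_noncomm
    have hxy : ¬ Commute y x := by
      intro h
      rw [h.eq] at hyx
      have h3 : x = x * (a * u) := by
        calc x = x * y * y⁻¹ := by group
          _ = x * (a * u) := hyx
      have h4 : a * u = 1 := by
        have := mul_left_cancel (a := x) (b := a * u) (c := 1) (by rw [mul_one]; exact h3.symm)
        exact this
      exact P.au_ne_one h4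
    have hxK := P.EE_le hxE
    have hyK := P.EE_le hyE
    have hxV : ¬ (x = 1 ∨ x = a ∨ x = u ∨ x = a * u) := fun h => hxy (hVcomm h hyK).symm
    have hyV : ¬ (y = 1 ∨ y = a ∨ y = u ∨ y = a * u) := fun h => hxy (hVcomm h hxK)
    have hxyV : ¬ (x * y = 1 ∨ x * y = a ∨ x * y = u ∨ x * y = a * u) := by
      intro h
      have h3 := hVcomm h hyK
      apply hxy
      have h4 : (x * y) * y = y * (x * y) := h3.eq
      have h5 : x * y = y * x := by
        have h6 : x * y * y = y * x * y := by rw [h4]; group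
        exact mul_right_cancel h6
      exact h5.symm
    -- elements outside `V` are moved by `a` or `u`
    have hmove : ∀ {z : G}, z ∈ P.EE → ¬ (z = 1 ∨ z = a ∨ z = u ∨ z = a * u) → τ z = z * a ∨ τ z = z * u := by
      intro z hz hzV
      have h3 := hcon' _ (hprod hz)
      have hzz : z * z = 1 ∨ z * z = a * u := P.EE_sq hz
      have hne1 : ¬ (τ z = z ∨ τ z = z * (a * u)) := fun h => hzV (hcon' z (hmemS.2 ⟨hz, h⟩))
      push Not at hne1
      have e1 : ∀ v : G, z * τ z = v → τ z = z⁻¹ * v := by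
        intro v hv
        rw [← hv]
        group
      have zi : z⁻¹ = z ∨ z⁻¹ = z * (a * u) := by
        rcases hzz with h4 | h4
        · left
          exact inv_eq_of_mul_eq_one_left h4
        · right
          calc z⁻¹ = z⁻¹ * (z * z) * (a * u)⁻¹ := by rw [h4]; group
            _ = z * (a * u) := by rw [hjinv]; group
      rcases h3 with h3 | h3 | h3 | h3 <;> have h4 := e1 _ h3 <;> rcases zi with h5 | h5 <;> rw [h5] at h4
      · exact absurd (by rw [h4, mul_one]) hne1.1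
      · exact absurd (by rw [h4, mul_one]) hne1.2
      · exact Or.inl h4
      · right
        rw [h4]
        calc z * (a * u) * a = z * (a * (u * a)) := by group
          _ = z * (a * (a * u)) := by rw [P.comm_au.symm.eq]
          _ = z * (a * a) * u := by group
          _ = z * u := by rw [haa, mul_one]
      · exact Or.inr h4
      · left
        rw [h4]
        calc z * (a * u) * u = z * a * (u * u) := by group
          _ = z * a := by rw [huu, mul_one]
      · exact absurd h4 hne1.2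
      · exfalso
        apply hne1.1
        rw [h4]
        calc z * (a * u) * (a * u) = z * ((a * u) * (a * u)) := by group
          _ = z := by rw [hj, mul_one]
    have hxyE : x * y ∈ P.EE := Subgroup.mul_mem _ hxE hyE
    apply hxyV
    apply hcon' _
    refine hmemS.2 ⟨hxyE, ?_⟩
    rw [map_mul]
    have comm1 : ∀ v : G, (v = a ∨ v = u) → Commute v y := by
      rintro v (rfl | rfl)
      · exact (mem_Kt.1 hyK).1.symm
      · exact (mem_Kt.1 hyK).2.symm
    rcases hmove hxE hxV with h3 | h3 <;> rcases hmove hyE hyV with h4 | h4 <;> rw [h3, h4]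
    · left
      calc x * a * (y * a) = x * (a * y) * a := by group
        _ = x * (y * a) * a := by rw [(comm1 a (Or.inl rfl)).eq]
        _ = x * y * (a * a) := by group
        _ = x * y := by rw [haa, mul_one]
    · right
      calc x * a * (y * u) = x * (a * y) * u := by group
        _ = x * (y * a) * u := by rw [(comm1 a (Or.inl rfl)).eq]
        _ = _ := by group
    · right
      calc x * u * (y * a) = x * (u * y) * a := by group
        _ = x * (y * u) * a := by rw [(comm1 u (Or.inr rfl)).eq]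
        _ = x * y * (u * a) := by group
        _ = x * y * (a * u) := by rw [P.comm_au.symm.eq]
    · left
      calc x * u * (y * u) = x * (u * y) * u := by group
        _ = x * (y * u) * u := by rw [(comm1 u (Or.inr rfl)).eq]
        _ = x * y * (u * u) := by group
        _ = x * y := by rw [huu, mul_one]
  obtain ⟨z, hzS, hzV⟩ := hex
  have hle := P.EE_irred S ha₁ hu₁ hn hzS (hmemS.1 hzS).1 hzV
  intro z' hz'
  exact (hmemS.1 (hle hz')).2

/-- The square of an element swapping the members. -/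
theorem swap_sq {τ : MulAut G} (hτ : τ ∈ XA a u) (hQ : ∀ x : Kt a u, P.vt (P.cjA hτ x) = P.vt x) (h1 : τ a = u) (h2 : τ u = a)
    {e : G} (he : e ∈ P.EE) (hsq : τ * τ = MulAut.conj e) : e = 1 ∨ e = a * u := by
  have hsw := P.swap_EE hτ hQ h1 h2 he hsq
  have hj := P.au_sq
  have hne := P.hu.2.1
  have hτj : τ (a * u) = a * u := (P.mem_XA').1 hτ
  have hsqz : ∀ z : G, τ (τ z) = e * z * e⁻¹ := fun z => congrArg (fun f : MulAut G => f z) hsq
  have hc : ∀ y ∈ P.EE, Commute y e := by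
    intro y hy
    have h3 : e * y * e⁻¹ = y := by
      rw [← hsqz]
      rcases hsw y hy with h4 | h4
      · rw [h4, h4]
      · rw [h4, map_mul, hτj, h4, mul_assoc, hj, mul_one]
    exact (commute_of_conj h3).symm
  have hfix : τ e = e := by
    apply conj_inj P.h22.1
    rw [← conj_eq_conj, ← hsq]
    group
  rcases P.mem_of_center_EE he hc with h | h | h | h
  · exact Or.inl h
  · exfalso
    rw [h, h1] at hfix
    exact hne hfix
  · exfalso
    rw [h, h2] at hfix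
    exact hne hfix.symm
  · exact Or.inr h

/-- The subgroup of the automorphism group. -/
noncomputable def Qa {a u : G} (P : Pt D a u K) : Subgroup (MulAut G) := P.thHomA.ker.map (XA a u).subtype

theorem mem_Qa {q : MulAut G} : q ∈ P.Qa ↔ ∃ h : q ∈ XA a u, (⟨q, h⟩ : ↥(XA a u)) ∈ P.thHomA.ker := by
  constructor
  · rintro ⟨c, hc, rfl⟩
    exact ⟨c.2, hc⟩
  · rintro ⟨h, hc⟩
    exact ⟨⟨q, h⟩, hc, rfl⟩

theorem Qa_le : P.Qa ≤ XA a u := by
  rintro _ ⟨c, -, rfl⟩
  exact c.2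

theorem card_Qa (hA : Nat.card (MulAut G) = 2 * Nat.card G) : Nat.card P.Qa = 2048 := by
  rw [Qa, Subgroup.card_map_of_injective (XA a u).subtype_injective, P.card_Q hA]

theorem conj_mem_Qa {z : G} (hz : z ∈ P.EE) : MulAut.conj z ∈ P.Qa :=
  (P.mem_Qa).2 ⟨_, P.conj_mem_Q hz⟩

/-- Elements of the kernel are inner by `EE`, or swap the two members. -/
theorem Qa_cases (hA : Nat.card (MulAut G) = 2 * Nat.card G) {q : MulAut G} (hq : q ∈ P.Qa) :
    (∃ z ∈ P.EE, q = MulAut.conj z) ∨ (q a = u ∧ q u = a) := by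
  obtain ⟨h, hc⟩ := (P.mem_Qa).1 hq
  rcases P.fix_or_swapA h with ⟨e1, e2⟩ | h2
  · left
    exact P.inner_of_Q hA hc e1
  · exact Or.inr h2

/-- **Squares in the kernel.** -/
theorem Qa_sq (hA : Nat.card (MulAut G) = 2 * Nat.card G) {q : MulAut G} (hq : q ∈ P.Qa) :
    q * q = 1 ∨ q * q = MulAut.conj (a * u) := by
  rcases P.Qa_cases hA hq with ⟨z, hz, rfl⟩ | ⟨h1, h2⟩
  · rw [← map_mul]
    rcases P.EE_sq hz with h | h
    · left
      rw [h, map_one]
    · right
      rw [h]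
  · obtain ⟨hX, hc⟩ := (P.mem_Qa).1 hq
    have hqq := Subgroup.mul_mem _ hq hq
    have hfa : (q * q) a = a := by
      show q (q a) = a
      rw [h1, h2]
    rcases P.Qa_cases hA hqq with ⟨e, he, e'⟩ | ⟨h3, _⟩
    · rcases P.swap_sq hX ((P.mem_ker_thHomA (c := ⟨q, hX⟩)).1 hc) h1 h2 he e' with h4 | h4
      · left
        rw [e', h4, map_one]
      · right
        rw [e', h4]
    · exact absurd (hfa.symm.trans h3) P.hu.2.1.symm

/-- An element of the kernel swapping the two members. -/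
theorem exists_swap_Qa (hA : Nat.card (MulAut G) = 2 * Nat.card G) : ∃ τ ∈ P.Qa, τ a = u ∧ τ u = a := by
  by_contra hcon
  push Not at hcon
  have hall : ∀ q ∈ P.Qa, ∃ z ∈ P.EE, q = MulAut.conj z := by
    intro q hq
    rcases P.Qa_cases hA hq with h | ⟨h1, h2⟩
    · exact h
    · exact absurd h2 (hcon q hq h1)
  let f : ↥P.EE → ↥P.Qa := fun z => ⟨MulAut.conj z.1, P.conj_mem_Qa z.2⟩
  have hf : Function.Surjective f := by
    rintro ⟨q, hq⟩
    obtain ⟨z, hz, rfl⟩ := hall q hq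
    exact ⟨⟨z, hz⟩, rfl⟩
  have h1 := Nat.card_le_card_of_surjective f hf
  rw [P.card_EE, P.card_Qa hA] at h1
  omega

/-- The centre of the kernel. -/
theorem Qa_center (hA : Nat.card (MulAut G) = 2 * Nat.card G) {q : ↥P.Qa} (hq : q ∈ Subgroup.center ↥P.Qa) :
    q.1 = 1 ∨ q.1 = MulAut.conj (a * u) := by
  have hcomm : ∀ r ∈ P.Qa, r * q.1 = q.1 * r := by
    intro r hr
    have := Subgroup.mem_center_iff.1 hq ⟨r, hr⟩
    exact congrArg Subtype.val this
  have hinj := conj_inj P.h22.1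
  rcases P.Qa_cases hA q.2 with ⟨z, hz, hq'⟩ | ⟨h1, h2⟩
  · have hc : ∀ y ∈ P.EE, Commute y z := by
      intro y hy
      have h3 := hcomm _ (P.conj_mem_Qa hy)
      rw [hq', ← map_mul, ← map_mul] at h3
      exact hinj h3
    obtain ⟨τ, hτ, h1, h2⟩ := P.exists_swap_Qa hA
    have hfix : τ z = z := by
      apply hinj
      rw [← conj_eq_conj, ← hq']
      have := hcomm τ hτ
      calc τ * q.1 * τ⁻¹ = q.1 * τ * τ⁻¹ := by rw [this]
        _ = q.1 := by group
    rw [hq']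
    rcases P.mem_of_center_EE hz hc with h | h | h | h
    · left
      rw [h, map_one]
    · exfalso
      rw [h, h1] at hfix
      exact P.hu.2.1 hfix
    · exfalso
      rw [h, h2] at hfix
      exact P.hu.2.1 hfix.symm
    · right
      rw [h]
  · exfalso
    have h3 := hcomm _ (P.conj_mem_Qa P.a_mem_EE)
    have h4 : MulAut.conj (q.1 a) = MulAut.conj a := by
      rw [← conj_eq_conj, ← h3]
      group
    have h5 := hinj h4
    rw [h1] at h5
    exact P.hu.2.1 h5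

omit P [Fintype G] in
open scoped commutatorElement in
/-- A criterion for extraspecial groups. -/
theorem extraspecial_of_sq {E : Type*} [Group E] [Finite E] {j : E} (h2 : IsPGroup 2 E) (hj1 : j ≠ 1) (hjc : ∀ y, Commute y j)
    (hsq : ∀ x : E, x * x = 1 ∨ x * x = j) (hcen : ∀ z ∈ Subgroup.center E, z = 1 ∨ z = j) (hnc : ∃ x y : E, ¬ Commute x y) :
    IsExtraspecial 2 E := by
  haveI := Fact.mk Nat.prime_two
  have hjcenter : j ∈ Subgroup.center E := by
    rw [Subgroup.mem_center_iff]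
    intro g
    exact hjc g
  have hscen : ∀ x : E, x * x ∈ Subgroup.center E := by
    intro x
    rcases hsq x with h | h
    · rw [h]
      exact Subgroup.one_mem _
    · rw [h]
      exact hjcenter
  have hL : Cfsg.Agent.Lib.PGroups.Special.ExtraLike 2 E := by
    refine ⟨h2, ?_, ?_, ?_⟩
    · rw [Nat.card_eq_two_iff]
      refine ⟨1, ⟨j, hjcenter⟩, ?_, ?_⟩
      · intro h
        exact hj1 (congrArg (fun w : Subgroup.center E => (w.1 : E)) h).symm
      · ext z
        simp only [Set.mem_insert_iff, Set.mem_singleton_iff, Set.mem_univ, iff_true]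
        rcases hcen z.1 z.2 with h | h
        · left
          apply Subtype.ext
          exact h
        · right
          apply Subtype.ext
          exact h
    · intro x y
      have hA := hscen x
      have hB := hscen y
      have hC := hscen (x * y)
      have e : ⁅x, y⁆ = (x * y) * (x * y) * (x * x)⁻¹ * (y * y)⁻¹ := by
        rw [commutatorElement_def]
        have h3 : (x * x)⁻¹ * y = y * (x * x)⁻¹ := by
          have := Subgroup.mem_center_iff.1 (Subgroup.inv_mem _ hA) y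
          exact this.symm
        calc x * y * x⁻¹ * y⁻¹ = x * y * x * ((x * x)⁻¹ * y) * (y * y)⁻¹ := by group
          _ = x * y * x * (y * (x * x)⁻¹) * (y * y)⁻¹ := by rw [h3]
          _ = _ := by group
      rw [e]
      exact Subgroup.mul_mem _ (Subgroup.mul_mem _ hC (Subgroup.inv_mem _ hA)) (Subgroup.inv_mem _ hB)
    · intro x
      rw [pow_two]
      exact hscen x
  apply hL.isExtraspecial
  intro hc
  obtain ⟨x, y, h⟩ := hnc
  exact h (hc.is_comm.comm x y)

/-- **The kernel is extraspecial.** -/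
theorem Qa_extraspecial (hA : Nat.card (MulAut G) = 2 * Nat.card G) : IsExtraspecial 2 ↥P.Qa := by
  have hinj := conj_inj P.h22.1
  have hjE : a * u ∈ P.EE := Subgroup.mul_mem _ P.a_mem_EE P.u_mem_EE
  have hJ := P.conj_mem_Qa hjE
  refine extraspecial_of_sq (j := ⟨_, hJ⟩) ?_ ?_ ?_ ?_ ?_ ?_
  · have h := P.card_Qa hA
    exact IsPGroup.of_card (n := 11) (by rw [h]; norm_num)
  · intro h
    have h1 : MulAut.conj (a * u) = 1 := congrArg Subtype.val h
    rw [← map_one (MulAut.conj : G →* MulAut G)] at h1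
    exact P.au_ne_one (hinj h1)
  · intro y
    apply Subtype.ext
    have h1 : y.1 ∈ XA a u := P.Qa_le y.2
    exact (Subgroup.mem_centralizer_iff.1 h1 _ (by simp)).symm
  · intro x
    rcases P.Qa_sq hA x.2 with h | h
    · left
      exact Subtype.ext h
    · right
      exact Subtype.ext h
  · intro z hz
    rcases P.Qa_center hA hz with h | h
    · left
      exact Subtype.ext h
    · right
      exact Subtype.ext h
  · obtain ⟨x, hxE, y, hyE, hyx⟩ := P.exists_noncomm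
    refine ⟨⟨_, P.conj_mem_Qa hxE⟩, ⟨_, P.conj_mem_Qa hyE⟩, ?_⟩
    intro h
    have h1 : MulAut.conj x * MulAut.conj y = MulAut.conj y * MulAut.conj x := congrArg Subtype.val h.eq
    rw [← map_mul, ← map_mul] at h1
    have h2 := hinj h1
    have h3 : y * x * y⁻¹ = x := by rw [← h2]; group
    rw [h3] at hyx
    have h4 : a * u = 1 := by
      have := mul_left_cancel (a := x) (b := a * u) (c := 1) (by rw [mul_one]; exact hyx.symm)
      exact this
    exact P.au_ne_one h4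

/-- **The generalized Fitting subgroup of the centralizer in the automorphism group.** -/
theorem gFitA (hA : Nat.card (MulAut G) = 2 * Nat.card G) : generalizedFittingSubgroup ↥(XA a u) = P.thHomA.ker := by
  haveI := simple_SU₄ (K := K)
  have hinj := conj_inj P.h22.1
  refine gFit_eq _ (MonoidHom.normal_ker _) ?_ ?_ ?_
  · haveI := Fact.mk Nat.prime_two
    have hc : Nat.card P.thHomA.ker = 2 ^ 11 := by
      rw [P.card_Q hA]
      norm_num
    exact (IsPGroup.of_card hc).isNilpotent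
  · intro N hN hnil
    let incl : Kt a u →* ↥(XA a u) :=
      { toFun := fun k => ⟨MulAut.conj k.1, P.conj_mem_XA (P.Kt_le k.2)⟩
        map_one' := by
          apply Subtype.ext
          exact map_one _
        map_mul' := by
          intro x y
          apply Subtype.ext
          exact map_mul _ _ _ }
    let M : Subgroup (Kt a u) := N.comap incl
    have hM : M.Normal := hN.comap incl
    have hMnil : Group.IsNilpotent M := by
      let f : M →* N := incl.subgroupComap N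
      have hf : f.ker ≤ Subgroup.center M := by
        intro x hx
        have h1 : f x = 1 := hx
        have h2 : incl x.1 = 1 := congrArg Subtype.val h1
        have h3 : MulAut.conj x.1.1 = 1 := congrArg Subtype.val h2
        rw [← map_one (MulAut.conj : G →* MulAut G)] at h3
        have h4 : x = 1 := by
          apply Subtype.ext
          apply Subtype.ext
          exact hinj h3
        rw [h4]
        exact Subgroup.one_mem _
      exact Subgroup.isNilpotent_of_ker_le_center f hf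
    have hMv : (M.map P.vt).Normal := Subgroup.Normal.map hM _ P.vt_surj
    have hbot : M.map P.vt = ⊥ := by
      rcases hMv.eq_bot_or_eq_top with h | h
      · exact h
      · exfalso
        have h1 : Group.IsNilpotent ↥(M.map P.vt) := Group.nilpotent_of_surjective (P.vt.subgroupMap M) (P.vt.subgroupMap_surjective M)
        have h2 : Group.IsNilpotent ↥(SU 4 K 2) := by
          rw [h] at h1
          exact Group.nilpotent_of_surjective (Subgroup.topEquiv (G := ↥(SU 4 K 2))).toMonoidHom (Subgroup.topEquiv (G := ↥(SU 4 K 2))).surjective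
        haveI := h2
        exact Group.IsNilpotent.center_ne_bot ↥(SU 4 K 2) center_SU₄
    have hker : ∀ k : Kt a u, incl k ∈ N → P.vt k = 1 := by
      intro k hk
      have h1 : P.vt k ∈ M.map P.vt := ⟨k, hk, rfl⟩
      rw [hbot] at h1
      exact Subgroup.mem_bot.1 h1
    intro n hn
    refine (P.mem_ker_thHomA).2 fun x => ?_
    have h1 : incl (P.cjA n.2 x * x⁻¹) ∈ N := by
      have e3 : incl (P.cjA n.2 x * x⁻¹) = n * (incl x * n⁻¹ * (incl x)⁻¹) := by
        apply Subtype.ext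
        show MulAut.conj (n.1 x.1 * x.1⁻¹) = n.1 * (MulAut.conj x.1 * n.1⁻¹ * (MulAut.conj x.1)⁻¹)
        rw [map_mul, map_inv, ← conj_eq_conj]
        group
      rw [e3]
      exact N.mul_mem hn (hN.conj_mem _ (N.inv_mem hn) _)
    have h2 := hker _ h1
    rw [map_mul, map_inv] at h2
    exact mul_inv_eq_one.1 h2
  · intro x hx
    have hfix : ∀ {z : G}, z ∈ P.EE → x.1 z = z := by
      intro z hz
      have h1 := hx _ (P.conj_mem_Q hz)
      have h2 : x.1 * MulAut.conj z = MulAut.conj z * x.1 := congrArg Subtype.val h1.eq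
      apply hinj
      rw [← conj_eq_conj, h2]
      group
    refine (P.mem_ker_thHomA).2 fun k => ?_
    have hxk := P.conjA_mem_Kt x.2 k.2
    obtain ⟨r, hrd⟩ : ∃ r, r = k.1⁻¹ * x.1 k.1 := ⟨_, rfl⟩
    have hrK : r ∈ Kt a u := by
      rw [hrd]
      exact Subgroup.mul_mem _ (Subgroup.inv_mem _ k.2) hxk
    have hrE : r ∈ P.EE := by
      apply P.mem_EE_of_comm (P.Kt_le hrK)
      intro z hz
      have h1 := hfix (P.conj_EE (P.Kt_le k.2) hz)
      rw [map_mul, map_mul, map_inv, hfix hz] at h1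
      have h2 : r * z * r⁻¹ = z := by
        rw [hrd]
        calc k.1⁻¹ * x.1 k.1 * z * (k.1⁻¹ * x.1 k.1)⁻¹ = k.1⁻¹ * (x.1 k.1 * z * (x.1 k.1)⁻¹) * k.1 := by group
          _ = k.1⁻¹ * (k.1 * z * k.1⁻¹) * k.1 := by rw [h1]
          _ = z := by group
      exact commute_of_conj h2
    have h3 := (P.mem_EE.1 hrE).2
    have e : (⟨r, hrK⟩ : Kt a u) = k⁻¹ * P.cjA x.2 k := by
      apply Subtype.ext
      exact hrd
    rw [e, map_mul, map_inv] at h3
    exact (inv_mul_eq_one.1 h3).symm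

/-- **The quotient.** -/
theorem quotA_iso (hA : Nat.card (MulAut G) = 2 * Nat.card G) (hn : P.thHomA.ker.Normal) :
    Nonempty (↥(XA a u) ⧸ P.thHomA.ker ≃* MulAut (PSU 4 K 2)) := by
  have hbij := QuotientGroup.quotientKerEquivOfSurjective P.thHomA P.thHomA_surj
  exact ⟨hbij.trans (MulAut.congr (suPsu (K := K)))⟩

/-- The two members lie in one fibre of a chart for a pair of a fibre. -/
theorem au_mem_EE_of_pair {v v' : G} {l m : K} (Fl : P.Fb w₀ l v) (Fm : P.Fb w₀ m v') (hlm : l ≠ m) (P' : Pt D v v' K) : a * u ∈ P'.EE := by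
  have h2z := two_zero (K := K)
  obtain ⟨ω, hω⟩ := exists_root (K := K)
  have hω0 := root_ne_zero hω
  have hω3 := root_cube hω
  -- the other two parameters
  obtain ⟨l₃, l₄, n₁₃, n₁₄, n₂₃, n₂₄, n₃₄⟩ : ∃ l₃ l₄ : K, l ≠ l₃ ∧ l ≠ l₄ ∧ m ≠ l₃ ∧ m ≠ l₄ ∧ l₃ ≠ l₄ := by
    refine ⟨l + ω * (l + m), l + ω ^ 2 * (l + m), ?_, ?_, ?_, ?_, ?_⟩
    all_goals
      have hlm' : l + m ≠ 0 := fun h3 => hlm (eq_of_add_zero h3)
      intro h3
    · have : ω * (l + m) = 0 := by linear_combination -h3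
      exact (mul_ne_zero hω0 hlm') this
    · have : ω ^ 2 * (l + m) = 0 := by linear_combination -h3
      exact (mul_ne_zero (pow_ne_zero 2 hω0) hlm') this
    · have : (l + m) * (1 + ω) = 0 := by linear_combination -h3 + m * h2z
      have h5 : (1 + ω) ≠ 0 := by
        intro h6
        have : ω ^ 2 = 0 := by linear_combination hω - h6
        exact hω0 (pow_eq_zero_iff two_ne_zero |>.1 this)
      exact (mul_ne_zero hlm' h5) this
    · have : (l + m) * (1 + ω ^ 2) = 0 := by linear_combination -h3 + m * h2z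
      have h5 : (1 + ω ^ 2) ≠ 0 := by
        intro h6
        have : ω = 0 := by linear_combination hω - h6
        exact hω0 this
      exact (mul_ne_zero hlm' h5) this
    · have : (l + m) * ω * (1 + ω) = 0 := by linear_combination h3 + (ω ^ 2 * (l + m)) * h2z
      have h5 : (1 + ω) ≠ 0 := by
        intro h6
        have : ω ^ 2 = 0 := by linear_combination hω - h6
        exact hω0 (pow_eq_zero_iff two_ne_zero |>.1 this)
      exact (mul_ne_zero (mul_ne_zero hlm' hω0) h5) this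
  obtain ⟨v₃, F₃⟩ := P.exists_fb B₄_w₀ w₀_ne l₃
  obtain ⟨v₄, F₄⟩ := P.exists_fb B₄_w₀ w₀_ne l₄
  have hR := Fb.rel P w₀_ne Fl Fm F₃ F₄ hlm n₁₃ n₁₄ n₂₃ n₂₄ n₃₄
  have hR' : IsRel D [v, v', a, u, v₃, v₄] := by
    refine IsRel.perm hR ?_
    have h1 : [a, v, u, v', v₃, v₄].Perm [v, a, u, v', v₃, v₄] := List.Perm.swap v a _
    have h2 : [a, u, v', v₃, v₄].Perm [a, v', u, v₃, v₄] := (List.Perm.swap v' u _).cons a
    have h3 : [a, v', u, v₃, v₄].Perm [v', a, u, v₃, v₄] := List.Perm.swap v' a _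
    exact h1.trans ((h2.trans h3).cons v)
  have hnd := hR'.nodup
  simp only [List.nodup_cons, List.mem_cons, List.not_mem_nil, or_false, not_or, List.nodup_nil,
    not_false_eq_true, and_true] at hnd
  obtain ⟨⟨n1, n2, n3, n4, n5⟩, ⟨n6, n7, n8, n9⟩, ⟨n10, n11, n12⟩, ⟨n13, n14⟩, n15⟩ := hnd
  have hm : ∀ {x : G}, x ∈ [v, v', a, u, v₃, v₄] → x ≠ v → x ∈ Da D v := fun hx hne =>
    ⟨hR'.mem _ hx, hne, hR'.comm v (by simp) _ hx⟩
  have hv'D : v' ∈ Da D v := hm (by simp) (Ne.symm n1)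
  have haD : a ∈ Da D v := hm (by simp) (Ne.symm n2)
  have huD : u ∈ Da D v := hm (by simp) (Ne.symm n3)
  have cv'a : Commute v' a := hR'.comm v' (by simp) a (by simp)
  obtain ⟨x₃, x₄, x₅, hL⟩ := P'.U.exists_linePts hv'D haD n6 cv'a hω
  have hperm := rel_on_line P'.U hω hR' hL P.hG.1
  have hum : u ∈ [x₃, x₄, x₅] := hperm.mem_iff.1 (by simp)
  have cau : Commute a u := P.comm_au
  have hav' : a ∈ Kt v v' := mem_Kt.2 ⟨haD.2.2.symm, cv'a.symm⟩
  have huv' : u ∈ Kt v v' := mem_Kt.2 ⟨huD.2.2.symm, hR'.comm u (by simp) v' (by simp)⟩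
  -- the coordinates
  obtain ⟨c, ρ, hc, hρ, hv⟩ : ∃ c ρ : K, c ≠ 0 ∧ ρ ≠ 0 ∧ P'.U.vec u = c • (P'.U.vec v' + ρ • P'.U.vec a) := by
    simp only [List.mem_cons, List.not_mem_nil, or_false] at hum
    rcases hum with rfl | rfl | rfl
    · obtain ⟨c, hc, e⟩ := hL.v₃
      exact ⟨c, 1, hc, one_ne_zero, by rw [e, one_smul]⟩
    · obtain ⟨c, hc, e⟩ := hL.v₄
      exact ⟨c, ω, hc, hω0, e⟩
    · obtain ⟨c, hc, e⟩ := hL.v₅
      exact ⟨c, ω ^ 2, hc, pow_ne_zero 2 hω0, e⟩
  have hlow : low (P'.U.vec u) = (c * ρ) • low (P'.U.vec a) := by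
    rw [hv, P'.hb, low_smul, low_add, low_b₀, zero_add, low_smul, smul_smul]
  have ht1 := P'.vt_gen haD hav'
  have ht2 := P'.vt_gen huD huv'
  rw [hlow, transv_smul (mul_ne_zero hc hρ)] at ht2
  have hvt : P'.vt ⟨u, huv'⟩ = P'.vt ⟨a, hav'⟩ := by
    apply Subtype.ext
    apply Subtype.ext
    exact ht2.trans ht1.symm
  refine P'.mem_EE.2 ⟨Subgroup.mul_mem _ hav' huv', ?_⟩
  have e : (⟨a * u, Subgroup.mul_mem _ hav' huv'⟩ : Kt v v') = ⟨a, hav'⟩ * ⟨u, huv'⟩ := rfl
  rw [e, map_mul, hvt, ← map_mul]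
  have e2 : (⟨a, hav'⟩ * ⟨a, hav'⟩ : Kt v v') = 1 := Subtype.ext (mul_self_of_mem P.hG.1 P.ha)
  rw [e2, map_one]

/-- **The kernel is a large extraspecial subgroup.** -/
theorem Qa_large (hA : Nat.card (MulAut G) = 2 * Nat.card G) : IsLargeExtraspecial P.Qa := by
  have hinj := conj_inj P.h22.1
  have hex := P.Qa_extraspecial hA
  have hjne : MulAut.conj (a * u) ≠ 1 := by
    intro h1
    rw [← map_one (MulAut.conj : G →* MulAut G)] at h1
    exact P.au_ne_one (hinj h1)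
  have hz : orderOf (MulAut.conj (a * u)) = 2 := by
    apply orderOf_eq_prime (p := 2)
    · rw [pow_two, ← map_mul, P.au_sq, map_one]
    · exact hjne
  have hF : (Cfsg.generalizedFittingSubgroup ↥(Subgroup.centralizer ({MulAut.conj (a * u)} : Set (MulAut G)))).map (Subgroup.centralizer ({MulAut.conj (a * u)} : Set (MulAut G))).subtype = P.Qa := by
    have := P.gFitA hA
    show (Cfsg.generalizedFittingSubgroup ↥(XA a u)).map (XA a u).subtype = P.thHomA.ker.map (XA a u).subtype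
    rw [this]
  obtain ⟨h1, h2, h3⟩ := Cfsg.Agent.Lib.LargeExtra.FStar.fstar_facts hz hF hex
  have hL := Cfsg.Agent.Lib.LargeExtra.FStar.lx_of_fstar hz hF hex
  refine ⟨hex, h2, h3, ?_⟩
  intro K₀ hK₀ hn
  -- the pair
  obtain ⟨v, Fl⟩ := P.exists_fb B₄_w₀ w₀_ne 0
  obtain ⟨v', Fm⟩ := P.exists_fb B₄_w₀ w₀_ne 1
  have h01 : (0 : K) ≠ 1 := zero_ne_one
  have hvv' : v ≠ v' := by
    rintro rfl
    exact h01 (Fb.eq_l P w₀_ne Fl Fm)
  have cvv' : Commute v v' := Fb.comm P B₄_w₀ Fl Fm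
  have hpair : v * v' ∈ P.EE := P.mem_EE_of_HasF (mem_of_pair P Fl Fm) (Fb.hasF P B₄_w₀ Fl Fm)
  have hv'D : v' ∈ Da D v := ⟨Fm.1.1, hvv'.symm, cvv'⟩
  obtain ⟨U₁⟩ := P.data v Fl.1.1
  obtain ⟨U₂, hb₂⟩ := exists_chart U₁ hv'D
  let P' : Pt D v v' K := ⟨P.hG, P.hp, P.h22, P.data, Fl.1.1, U₂, hv'D, hb₂⟩
  have hjT := P.au_mem_EE_of_pair Fl Fm h01 P'
  have hvv : v * v = 1 := mul_self_of_mem P.hG.1 Fl.1.1
  have hv'v' : v' * v' = 1 := mul_self_of_mem P.hG.1 Fm.1.1
  have hsq : (v * v') * (v * v') = 1 := P'.au_sq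
  refine Cfsg.Agent.Lib.LargeExtra.FStar.no_odd (z := MulAut.conj (a * u)) (y := MulAut.conj (v * v')) hL (P.conj_mem_Qa hpair) ?_ ?_ ?_
    (T := P'.EE.map (MulAut.conj : G →* MulAut G)) ?_ ⟨a * u, hjT, rfl⟩ ?_ hK₀ hn
  · rw [← map_mul, hsq, map_one]
  · intro h4
    rw [← map_one (MulAut.conj : G →* MulAut G)] at h4
    exact P'.au_ne_one (hinj h4)
  · intro h4
    have h5 := hinj h4
    rcases two_unique P.hG P.hp Fl.1.1 Fm.1.1 P.ha P.hu.1 hvv' cvv' P.hu.2.1.symm P.comm_au h5 with ⟨h6, h7⟩ | ⟨h6, h7⟩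
    · exact Fl.1.2.1 h6
    · exact Fb.ne_u P w₀_ne Fl h6
  · apply IsPGroup.of_card (n := 10)
    rw [Subgroup.card_map_of_injective hinj, P'.card_EE]
    norm_num
  · rintro x hx _ ⟨e, he, rfl⟩
    have hxX : x ∈ XA v v' := by
      refine Subgroup.mem_centralizer_iff.2 ?_
      intro g hg
      rw [Set.mem_singleton_iff.1 hg]
      exact hx.symm
    refine ⟨x e, P'.conjA_EE hxX he, ?_⟩
    exact (conj_eq_conj x e).symm

end s2

end Pt

end Cfsg.Agent.Lib.ThreeT.M22
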