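import Cfsg.Agent.Lib.ThreeT.M24d
import Cfsg.Agent.Lib.PermComp.OutP.M23T.Main
import Cfsg.Agent.Lib.AutCl.PSUCount

/-!
# Type M(24): the centralizer of a product of three commuting members

The joint centralizer of three commuting members is the next level of the centralizer of two commuting members of a group
of type M(23); its intersection with a subgroup of index two missing `D` is a quasisimple group `2².U₆(2)`.
-/

set_option autoImplicit false
set_option linter.unusedSectionVars false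
set_option linter.unusedVariables false
set_option linter.style.longLine false
set_option linter.unusedSimpArgs false
set_option linter.unnecessarySimpa false
set_option linter.style.haveILetI false
set_option maxRecDepth 100000

namespace Cfsg.Agent.Lib.ThreeT.M24e

open Cfsg Cfsg.Agent.Lib.ThreeT.Basic Cfsg.Agent.Lib.ThreeT.Class Cfsg.Agent.Lib.ThreeT.Relations
open Cfsg.Agent.Lib.ThreeT.Rank3 Cfsg.Agent.Lib.ThreeT.Descent Cfsg.Agent.Lib.ThreeT.NoSix
open Cfsg.Agent.Lib.ThreeT.M23 Cfsg.Agent.Lib.ThreeT.M22 Cfsg.Agent.Lib.ThreeT.M23d Cfsg.Agent.Lib.ThreeT.M24d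
open Cfsg.Agent.Lib.Classical.SympSimple (quotientCenterEquiv)

section generic

open Cfsg.Agent.Lib.Components.Basic
open scoped commutatorElement

/-- A quasisimple normal subgroup containing its centralizer is the generalized Fitting subgroup. -/
theorem gFit_quasi {X : Type*} [Group X] [Finite X] (N : Subgroup X) (hN : N.Normal) (hq : IsQuasisimple N)
    (hC : ∀ x : X, (∀ y ∈ N, Commute x y) → x ∈ N) : generalizedFittingSubgroup X = N := by
  have hcomp : IsComponent N := ⟨hN.isSubnormal, hq⟩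
  have hlay : layer X = N := by
    apply le_antisymm _ (le_layer_of_isComponent hcomp)
    refine sSup_le fun W hW => ?_
    rcases component_eq_or_commutator_eq_bot hW hcomp with h | h
    · rw [h]
    · intro k hk
      exact hC k fun y hy => by
        have h2 : ⁅k, y⁆ ∈ ⁅W, N⁆ := Subgroup.commutator_mem_commutator hk hy
        rw [h, Subgroup.mem_bot] at h2
        exact commutatorElement_eq_one_iff_commute.1 h2
  have hfit : fittingSubgroup X ≤ N := by
    have hc := commutator_layer_fitting (G := X)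
    rw [hlay] at hc
    intro z hz
    exact hC z fun y hy => by
      have h2 : ⁅y, z⁆ ∈ ⁅N, fittingSubgroup X⁆ := Subgroup.commutator_mem_commutator hy hz
      rw [hc, Subgroup.mem_bot] at h2
      exact (commutatorElement_eq_one_iff_commute.1 h2).symm
  unfold generalizedFittingSubgroup
  rw [hlay]
  exact sup_eq_left.2 hfit

/-- Quasisimplicity is invariant under isomorphisms. -/
theorem isQuasisimple_congr {X Y : Type*} [Group X] [Group Y] (e : X ≃* Y) (h : IsQuasisimple Y) : IsQuasisimple X := by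
  haveI := h.1
  refine ⟨Group.IsPerfect.ofSurjective (f := e.symm.toMonoidHom) e.symm.surjective, ?_⟩
  haveI := h.2
  exact (quotientCenterEquiv e).isSimpleGroup

/-- The action on the central quotient. -/
noncomputable def qcHom (N : Type*) [Group N] : MulAut N →* MulAut (N ⧸ Subgroup.center N) where
  toFun α := quotientCenterEquiv α
  map_one' := by
    ext x
    obtain ⟨y, rfl⟩ := QuotientGroup.mk_surjective x
    rfl
  map_mul' α β := by
    ext x
    obtain ⟨y, rfl⟩ := QuotientGroup.mk_surjective x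
    rfl

/-- **The quotient is the automorphism group, if the orders agree.** -/
theorem quot_aut {X S : Type*} [Group X] [Finite X] [Group S] [Finite S] (N : Subgroup X) [hN : N.Normal]
    (e : N ⧸ Subgroup.center N ≃* S) (Z : Subgroup X) [hZn : Z.Normal]
    (hZ : ∀ x, x ∈ Z ↔ x ∈ N ∧ ∀ y ∈ N, Commute x y)
    (hker : ∀ c : X, (∀ n ∈ N, c * n * c⁻¹ * n⁻¹ ∈ Z) → c ∈ Z)
    (hcard : Nat.card (MulAut S) = Nat.card (X ⧸ Z)) : Nonempty (X ⧸ Z ≃* MulAut S) := by
  let Φ : X →* MulAut S := (MulAut.congr e).toMonoidHom.comp ((qcHom N).comp MulAut.conjNormal)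
  have hkerΦ : Φ.ker = Z := by
    ext c
    rw [MonoidHom.mem_ker]
    constructor
    · intro h
      apply hker
      intro n hn
      have h1 : (qcHom N).comp MulAut.conjNormal c = 1 := by
        have h2 := (MulAut.congr e).injective (a₁ := (qcHom N).comp MulAut.conjNormal c) (a₂ := 1) (by
          show Φ c = _
          rw [h, map_one])
        exact h2
      have h3 : ((qcHom N).comp MulAut.conjNormal c) (QuotientGroup.mk (⟨n, hn⟩ : N)) = QuotientGroup.mk (⟨n, hn⟩ : N) := by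
        rw [h1]
        rfl
      have h4 : (QuotientGroup.mk (MulAut.conjNormal c (⟨n, hn⟩ : N)) : N ⧸ Subgroup.center N) = QuotientGroup.mk (⟨n, hn⟩ : N) := h3
      have h5 := QuotientGroup.eq.1 h4.symm
      rw [Subgroup.mem_center_iff] at h5
      have hcoe : ((MulAut.conjNormal c (⟨n, hn⟩ : N) : N) : X) = c * n * c⁻¹ := rfl
      set m : N := MulAut.conjNormal c (⟨n, hn⟩ : N) with hm
      have h6 : c * n * c⁻¹ * n⁻¹ ∈ N := Subgroup.mul_mem _ (hN.conj_mem n hn c) (Subgroup.inv_mem _ hn)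
      rw [hZ]
      refine ⟨h6, fun y hy => ?_⟩
      -- the commutator is central in `N`
      have hz : ∀ g ∈ N, g * (n⁻¹ * (c * n * c⁻¹)) = (n⁻¹ * (c * n * c⁻¹)) * g := by
        intro g hg
        have := congrArg Subtype.val (h5 ⟨g, hg⟩)
        simpa [hcoe] using this
      have hzn := hz n hn
      have e1 : c * n * c⁻¹ * n⁻¹ = n⁻¹ * (c * n * c⁻¹) := by
        calc c * n * c⁻¹ * n⁻¹ = (n * (n⁻¹ * (c * n * c⁻¹))) * n⁻¹ := by group
          _ = ((n⁻¹ * (c * n * c⁻¹)) * n) * n⁻¹ := by rw [hzn]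
          _ = _ := by group
      rw [e1]
      exact (hz y hy).symm
    · intro hc
      obtain ⟨-, hc2⟩ := (hZ c).1 hc
      have h1 : (MulAut.conjNormal c : MulAut N) = 1 := by
        ext n
        show c * (n : X) * c⁻¹ = (n : X)
        rw [(hc2 n n.2).eq]
        group
      show (MulAut.congr e) ((qcHom N) (MulAut.conjNormal c)) = 1
      rw [h1, map_one, map_one]
  have hinj : Function.Injective (QuotientGroup.kerLift Φ) := QuotientGroup.kerLift_injective Φ
  have e1 : X ⧸ Z ≃* X ⧸ Φ.ker := QuotientGroup.quotientMulEquivOfEq hkerΦ.symm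
  have hc2 : Nat.card (X ⧸ Φ.ker) = Nat.card (MulAut S) := by
    rw [hcard]
    exact (Nat.card_congr e1.toEquiv).symm
  have hbij : Function.Bijective (QuotientGroup.kerLift Φ) :=
    Function.Injective.bijective_of_nat_card_le hinj hc2.ge
  exact ⟨e1.trans (MulEquiv.ofBijective _ hbij)⟩

/-- The commutator subgroup, when the layer has index two. -/
theorem comm_facts {G : Type*} [Group G] {D : Set G} (hG : IsThreeTranspositionGroup D) (hp : IsPrimitiveUnderConj D)
    (hlay : (layer G).index = 2) : (commutator G).index = 2 ∧ ∀ d ∈ D, d ∉ commutator G := by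
  have hle : commutator G ≤ layer G := by
    rw [commutator_def, Subgroup.commutator_le]
    intro g _ h _
    rw [commutatorElement_def, Subgroup.mul_mem_iff_of_index_two hlay, Subgroup.mul_mem_iff_of_index_two hlay,
      Subgroup.mul_mem_iff_of_index_two hlay, Subgroup.inv_mem_iff, Subgroup.inv_mem_iff]
    tauto
  have hge : layer G ≤ commutator G := by
    refine sSup_le fun W hW => ?_
    have h1 : ⁅W, W⁆ = W := commutator_self_of_quasisimple hW.2
    rw [← h1, commutator_def]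
    exact Subgroup.commutator_mono le_top le_top
  have heq : commutator G = layer G := le_antisymm hle hge
  rw [heq]
  refine ⟨hlay, fun d hd hm => ?_⟩
  have hall : D ⊆ layer G := by
    intro x hx
    obtain ⟨g, rfl⟩ := hp.1 d hd x hx
    haveI : (layer G).Normal := Subgroup.normal_of_index_eq_two hlay
    exact Subgroup.Normal.conj_mem inferInstance d hm g
  have htop : layer G = ⊤ := by
    rw [eq_top_iff, ← hG.2.2, Subgroup.closure_le]
    exact hall
  rw [htop, Subgroup.index_top] at hlay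
  omega

end generic

section main

open Cfsg.Agent.Lib.ThreeT.M24
open scoped commutatorElement

variable {G : Type*} [Group G] [Finite G] {D : Set G}

/-- The data of a commuting triple, and what we need about a subgroup of index two. -/
structure Tri (D : Set G) (L : Subgroup G) (a b c : G) : Prop where
  hcl : ∀ d ∈ D, Subgroup.closure (Da D d) = Subgroup.centralizer ({d} : Set G)
  hL2 : L.index = 2
  hLd : ∀ d ∈ D, d ∉ L
  ha : a ∈ D
  hb : b ∈ D
  hc : c ∈ D
  ab : a ≠ b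
  ac : a ≠ c
  bc : b ≠ c
  cab : Commute a b
  cac : Commute a c
  cbc : Commute b c

/-- The joint centralizer. -/
abbrev TT (a b c : G) : Subgroup G := Subgroup.centralizer ({a, b, c} : Set G)

/-- Its part in the subgroup of index two. -/
abbrev KK (L : Subgroup G) (a b c : G) : Subgroup G := L ⊓ TT a b c

/-- The centralizer of the product in the subgroup of index two. -/
abbrev CC (L : Subgroup G) (a b c : G) : Subgroup G := L ⊓ Subgroup.centralizer ({a * b * c} : Set G)

/-- The four-group. -/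
abbrev EE (a b c : G) : Subgroup G := Subgroup.closure ({a * b, a * c} : Set G)

omit [Finite G] in
theorem mem_TT {a b c g : G} : g ∈ TT a b c ↔ Commute g a ∧ Commute g b ∧ Commute g c := by
  rw [Subgroup.mem_centralizer_iff]
  constructor
  · intro h
    exact ⟨(h a (by simp)).symm, (h b (by simp)).symm, (h c (by simp)).symm⟩
  · rintro ⟨h1, h2, h3⟩ u (rfl | rfl | rfl)
    · exact h1.symm.eq
    · exact h2.symm.eq
    · exact h3.symm.eq

omit [Finite G] in
theorem comm_central {z₁ z₂ n₁ n₂ : G} (c11 : Commute z₁ n₁) (c12 : Commute z₁ n₂) (c1z : Commute z₁ z₂) (c21 : Commute z₂ n₁)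
    (c22 : Commute z₂ n₂) : ⁅z₁ * n₁, z₂ * n₂⁆ = ⁅n₁, n₂⁆ := by
  rw [commutatorElement_def, commutatorElement_def]
  have e1 : (z₁ * n₁) * (z₂ * n₂) = (z₂ * n₂) * (z₁ * n₁) * (n₁⁻¹ * n₂⁻¹ * n₁ * n₂) := by
    calc (z₁ * n₁) * (z₂ * n₂) = z₁ * z₂ * (n₁ * n₂) := by
          rw [mul_assoc z₁ n₁, ← mul_assoc n₁ z₂, ← c21.eq]
          group
      _ = z₂ * z₁ * (n₁ * n₂) := by rw [c1z.eq]
      _ = z₂ * z₁ * (n₂ * n₁ * (n₁⁻¹ * n₂⁻¹ * n₁ * n₂)) := by group
      _ = z₂ * (z₁ * n₂) * n₁ * (n₁⁻¹ * n₂⁻¹ * n₁ * n₂) := by group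
      _ = z₂ * (n₂ * z₁) * n₁ * (n₁⁻¹ * n₂⁻¹ * n₁ * n₂) := by rw [c12.eq]
      _ = _ := by group
  -- a direct computation with the central elements
  have h1 : z₁ * n₁ * (z₂ * n₂) * (z₁ * n₁)⁻¹ * (z₂ * n₂)⁻¹ = (z₁ * z₂) * (n₁ * n₂ * n₁⁻¹ * n₂⁻¹) * (z₁ * z₂)⁻¹ := by
    have e2 : z₁ * n₁ * (z₂ * n₂) = (z₁ * z₂) * (n₁ * n₂) := by
      rw [mul_assoc z₁ n₁, ← mul_assoc n₁ z₂, ← c21.eq]
      group
    have e3 : (z₁ * n₁)⁻¹ = n₁⁻¹ * z₁⁻¹ := by group
    have e4 : (z₂ * n₂)⁻¹ = n₂⁻¹ * z₂⁻¹ := by group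
    have e5 : z₁⁻¹ * n₂⁻¹ = n₂⁻¹ * z₁⁻¹ := ((c12.inv_left).inv_right).eq
    rw [e2, e3, e4]
    calc z₁ * z₂ * (n₁ * n₂) * (n₁⁻¹ * z₁⁻¹) * (n₂⁻¹ * z₂⁻¹) = z₁ * z₂ * (n₁ * n₂) * n₁⁻¹ * (z₁⁻¹ * n₂⁻¹) * z₂⁻¹ := by group
      _ = z₁ * z₂ * (n₁ * n₂) * n₁⁻¹ * (n₂⁻¹ * z₁⁻¹) * z₂⁻¹ := by rw [e5]
      _ = (z₁ * z₂) * (n₁ * n₂ * n₁⁻¹ * n₂⁻¹) * (z₂⁻¹ * z₁⁻¹)⁻¹⁻¹ := by
        have e6 : z₁⁻¹ * z₂⁻¹ = z₂⁻¹ * z₁⁻¹ := ((c1z.inv_left).inv_right).eq
        calc z₁ * z₂ * (n₁ * n₂) * n₁⁻¹ * (n₂⁻¹ * z₁⁻¹) * z₂⁻¹ = (z₁ * z₂) * (n₁ * n₂ * n₁⁻¹ * n₂⁻¹) * (z₁⁻¹ * z₂⁻¹) := by group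
          _ = (z₁ * z₂) * (n₁ * n₂ * n₁⁻¹ * n₂⁻¹) * (z₂⁻¹ * z₁⁻¹) := by rw [e6]
          _ = _ := by group
      _ = _ := by group
  rw [h1]
  have h2 : Commute (z₁ * z₂) (n₁ * n₂ * n₁⁻¹ * n₂⁻¹) := by
    have a1 : Commute (z₁ * z₂) n₁ := c11.mul_left c21
    have a2 : Commute (z₁ * z₂) n₂ := c12.mul_left c22
    exact ((a1.mul_right a2).mul_right a1.inv_right).mul_right a2.inv_right
  rw [h2.eq]
  group

/-- The four-group, and the images. -/
theorem prod_perm {a b c : G} (cab : Commute a b) (cac : Commute a c) (cbc : Commute b c) (i j k : Fin 3) (hij : i ≠ j) (hik : i ≠ k) (hjk : j ≠ k) :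
    (![a, b, c] : Fin 3 → G) i * (![a, b, c] : Fin 3 → G) j * (![a, b, c] : Fin 3 → G) k = a * b * c := by
  have h1 : a * c * b = a * b * c := by rw [mul_assoc, cbc.symm.eq, ← mul_assoc]
  have h2 : b * a * c = a * b * c := by rw [cab.symm.eq]
  have h3 : b * c * a = a * b * c := by rw [mul_assoc, ← cac.eq, ← mul_assoc, cab.symm.eq]
  have h4 : c * a * b = a * b * c := by rw [cac.symm.eq, mul_assoc, cbc.symm.eq, ← mul_assoc]
  have h5 : c * b * a = a * b * c := by rw [cbc.symm.eq, mul_assoc, ← cac.eq, ← mul_assoc, cab.symm.eq]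
  fin_cases i <;> fin_cases j <;> fin_cases k <;> first | exact absurd rfl hij | exact absurd rfl hik | exact absurd rfl hjk | rfl | exact h1 | exact h2 | exact h3 | exact h4 | exact h5

variable {K : Type*} [Field K] [Fintype K] [hK : Fact (Fintype.card K = 4)] {d₁ : G}
  {d₂ : Gd D d₁ ⧸ Subgroup.center (Gd D d₁)} (P : Pk4 D d₁ d₂ K)

include P

/-- **Transitivity on ordered commuting triples.** -/
theorem triple_trans {a b c a' b' c' : G} (ha : a ∈ D) (hb : b ∈ D) (hc : c ∈ D) (ha' : a' ∈ D) (hb' : b' ∈ D) (hc' : c' ∈ D)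
    (ab : a ≠ b) (ac : a ≠ c) (bc : b ≠ c) (ab' : a' ≠ b') (ac' : a' ≠ c') (bc' : b' ≠ c')
    (cab : Commute a b) (cac : Commute a c) (cbc : Commute b c) (cab' : Commute a' b') (cac' : Commute a' c') (cbc' : Commute b' c') :
    ∃ g, g * a * g⁻¹ = a' ∧ g * b * g⁻¹ = b' ∧ g * c * g⁻¹ = c' := by
  have hG := P.hG
  have hp := P.hp
  have hD := hG.1
  have hcj := hG.2.1
  obtain ⟨g₀, h₀⟩ := hp.1 a ha a' ha'
  have m1 : g₀ * b * g₀⁻¹ ∈ Da D a' := by
    have := mem_Da_conj hcj g₀ (show b ∈ Da D a from ⟨hb, ab.symm, cab⟩)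
    rwa [h₀] at this
  have m2 : g₀ * c * g₀⁻¹ ∈ Da D a' := by
    have := mem_Da_conj hcj g₀ (show c ∈ Da D a from ⟨hc, ac.symm, cac⟩)
    rwa [h₀] at this
  have mb : b' ∈ Da D a' := ⟨hb', ab'.symm, cab'⟩
  have mc : c' ∈ Da D a' := ⟨hc', ac'.symm, cac'⟩
  obtain ⟨g₁, hg₁, e₁⟩ := exists_conj_of_mem_Da hG hp ha' m1 mb
  have cg₁ : Commute g₁ a' := (commute_of_mem_closure (fun u hu => hu.2.2) hg₁).symm
  have ea₁ : g₁ * a' * g₁⁻¹ = a' := by rw [cg₁.eq]; group
  have m3 : g₁ * (g₀ * c * g₀⁻¹) * g₁⁻¹ ∈ Da D a' := by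
    have := mem_Da_conj hcj g₁ m2
    rwa [ea₁] at this
  have cc : Commute b' (g₁ * (g₀ * c * g₀⁻¹) * g₁⁻¹) := by
    rw [← e₁]
    exact (Relations.commute_conj_iff g₁ _ _).2 ((Relations.commute_conj_iff g₀ _ _).2 cbc)
  have L := lw P ha'
  have m4 : phi D a' (g₁ * (g₀ * c * g₀⁻¹) * g₁⁻¹) ∈ Da (Dq D a') (phi D a' b') := by
    refine ⟨phi_mem m3, ?_, (phi_comm hD mb m3).2 cc⟩
    intro e
    have h1 := phi_inj hD L.hNC m3 mb e
    rw [← e₁] at h1
    have h2 := mul_left_cancel (mul_right_cancel h1)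
    have h3 := mul_left_cancel (mul_right_cancel h2)
    exact bc h3.symm
  have m5 : phi D a' c' ∈ Da (Dq D a') (phi D a' b') :=
    ⟨phi_mem mc, fun e => bc' (phi_inj hD L.hNC mc mb e).symm, (phi_comm hD mb mc).2 cbc'⟩
  obtain ⟨q, hq, e₂⟩ := exists_conj_of_mem_Da L.hG L.hp (phi_mem mb) m4 m5
  have cq : Commute q (phi D a' b') := (commute_of_mem_closure (fun u hu => hu.2.2) hq).symm
  obtain ⟨h0, rfl⟩ := QuotientGroup.mk_surjective q
  have hh : (h0 : G) ∈ Subgroup.closure (Da D a') := h0.2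
  have hph : phi D a' (h0 : G) = QuotientGroup.mk h0 := phi_eq_of_coe rfl
  have ch : Commute (h0 : G) a' := (commute_of_mem_closure (fun u hu => hu.2.2) hh).symm
  have ea : (h0 : G) * a' * (h0 : G)⁻¹ = a' := by rw [ch.eq]; group
  have m6 : (h0 : G) * b' * (h0 : G)⁻¹ ∈ Da D a' := by
    have := mem_Da_conj hcj (h0 : G) mb
    rwa [ea] at this
  have m7 : (h0 : G) * (g₁ * (g₀ * c * g₀⁻¹) * g₁⁻¹) * (h0 : G)⁻¹ ∈ Da D a' := by
    have := mem_Da_conj hcj (h0 : G) m3
    rwa [ea] at this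
  have e3 : (h0 : G) * b' * (h0 : G)⁻¹ = b' := by
    apply phi_inj hD L.hNC m6 mb
    rw [phi_conj' hh (Subgroup.subset_closure mb), hph, cq.eq]
    group
  have e4 : (h0 : G) * (g₁ * (g₀ * c * g₀⁻¹) * g₁⁻¹) * (h0 : G)⁻¹ = c' := by
    apply phi_inj hD L.hNC m7 mc
    rw [phi_conj' hh (Subgroup.subset_closure m3), hph]
    exact e₂
  refine ⟨(h0 : G) * g₁ * g₀, ?_, ?_, ?_⟩
  · calc (h0 : G) * g₁ * g₀ * a * ((h0 : G) * g₁ * g₀)⁻¹ = (h0 : G) * (g₁ * (g₀ * a * g₀⁻¹) * g₁⁻¹) * (h0 : G)⁻¹ := by group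
      _ = a' := by rw [h₀, ea₁, ea]
  · calc (h0 : G) * g₁ * g₀ * b * ((h0 : G) * g₁ * g₀)⁻¹ = (h0 : G) * (g₁ * (g₀ * b * g₀⁻¹) * g₁⁻¹) * (h0 : G)⁻¹ := by group
      _ = b' := by rw [e₁, e3]
  · calc (h0 : G) * g₁ * g₀ * c * ((h0 : G) * g₁ * g₀)⁻¹ = (h0 : G) * (g₁ * (g₀ * c * g₀⁻¹) * g₁⁻¹) * (h0 : G)⁻¹ := by group
      _ = c' := e4

/-- Four commuting members. -/
theorem exists_clique (h24 : IsOfTypeM24 G D) :
    ∃ w₁ ∈ D, ∃ w₂ ∈ D, ∃ w₃ ∈ D, ∃ w₄ ∈ D, w₁ ≠ w₂ ∧ w₁ ≠ w₃ ∧ w₁ ≠ w₄ ∧ w₂ ≠ w₃ ∧ w₂ ≠ w₄ ∧ w₃ ≠ w₄ ∧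
      Commute w₁ w₂ ∧ Commute w₁ w₃ ∧ Commute w₁ w₄ ∧ Commute w₂ w₃ ∧ Commute w₂ w₄ ∧ Commute w₃ w₄ := by
  obtain ⟨-, d', hd', c', hc', hnc', -⟩ := h24
  have hw := width_M24 P hd' hc' hnc'
  obtain ⟨E, hE, -, hcomm, hn⟩ := (width_spec (YS D d' c')).1
  rw [hw] at hn
  have step : ∀ (S : Set G) (m : ℕ), S.ncard = m + 1 → ∃ w ∈ S, (S \ {w}).ncard = m := by
    intro S m hS
    have hne : S.Nonempty := Set.nonempty_of_ncard_ne_zero (by omega)
    obtain ⟨w, hw⟩ := hne
    refine ⟨w, hw, ?_⟩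
    rw [Set.ncard_diff_singleton_of_mem hw, hS]
    rfl
  obtain ⟨w₁, h1, s1⟩ := step E 7 hn
  obtain ⟨w₂, h2, s2⟩ := step _ 6 s1
  obtain ⟨w₃, h3, s3⟩ := step _ 5 s2
  obtain ⟨w₄, h4, s4⟩ := step _ 4 s3
  have m1 : w₁ ∈ E := h1
  have m2 : w₂ ∈ E := h2.1
  have m3 : w₃ ∈ E := h3.1.1
  have m4 : w₄ ∈ E := h4.1.1.1
  refine ⟨w₁, (hE m1).1, w₂, (hE m2).1, w₃, (hE m3).1, w₄, (hE m4).1, ?_, ?_, ?_, ?_, ?_, ?_,
    hcomm _ m1 _ m2, hcomm _ m1 _ m3, hcomm _ m1 _ m4, hcomm _ m2 _ m3, hcomm _ m2 _ m4, hcomm _ m3 _ m4⟩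
  · exact fun e => h2.2 (by rw [e]; rfl)
  · exact fun e => h3.1.2 (by rw [e]; rfl)
  · exact fun e => h4.1.1.2 (by rw [e]; rfl)
  · exact fun e => h3.2 (by rw [e]; rfl)
  · exact fun e => h4.1.2 (by rw [e]; rfl)
  · exact fun e => h4.2 (by rw [e]; rfl)

variable {L : Subgroup G} {a b c : G}

/-- A member commuting with a triple. -/
theorem exists_y (h24 : IsOfTypeM24 G D) (T : Tri D L a b c) :
    ∃ y ∈ D, Commute y a ∧ Commute y b ∧ Commute y c ∧ y ≠ a ∧ y ≠ b ∧ y ≠ c := by
  obtain ⟨w₁, h1, w₂, h2, w₃, h3, w₄, h4, n12, n13, n14, n23, n24, n34, c12, c13, c14, c23, c24, c34⟩ := exists_clique P h24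
  obtain ⟨g, e1, e2, e3⟩ := triple_trans P h1 h2 h3 T.ha T.hb T.hc n12 n13 n23 T.ab T.ac T.bc c12 c13 c23 T.cab T.cac T.cbc
  refine ⟨g * w₄ * g⁻¹, P.hG.2.1 g w₄ h4, ?_, ?_, ?_, ?_, ?_, ?_⟩
  · rw [← e1]
    exact (Relations.commute_conj_iff g _ _).2 c14.symm
  · rw [← e2]
    exact (Relations.commute_conj_iff g _ _).2 c24.symm
  · rw [← e3]
    exact (Relations.commute_conj_iff g _ _).2 c34.symm
  · rw [← e1]
    exact fun e => n14 (mul_left_cancel (mul_right_cancel e)).symm
  · rw [← e2]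
    exact fun e => n24 (mul_left_cancel (mul_right_cancel e)).symm
  · rw [← e3]
    exact fun e => n34 (mul_left_cancel (mul_right_cancel e)).symm

theorem phi_self (T : Tri D L a b c) : phi D a a = 1 := by
  have h : a ∈ Subgroup.closure (Da D a) := by
    rw [T.hcl a T.ha, Subgroup.mem_centralizer_iff]
    rintro _ rfl
    rfl
  have e : phi D a a = QuotientGroup.mk (⟨a, h⟩ : Gd D a) := phi_eq_of_coe rfl
  rw [e, QuotientGroup.eq_one_iff, Subgroup.mem_center_iff]
  intro g
  exact Subtype.ext (commute_of_mem_closure (fun u hu => hu.2.2) g.2).symm.eq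

/-- **The joint centralizer, at the level `a`.** -/
theorem exists_rho (T : Tri D L a b c) :
    ∃ ρ : ↥(KK L a b c) ≃* ↥(Subgroup.centralizer ({phi D a b, phi D a c} : Set (Gd D a ⧸ Subgroup.center (Gd D a)))),
      ∀ t, ((ρ t : _) : Gd D a ⧸ Subgroup.center (Gd D a)) = phi D a (t : G) := by
  have hD := P.hG.1
  have hcj := P.hG.2.1
  have L₁ := lw P T.ha
  have hself := phi_self P T
  have mb : b ∈ Da D a := ⟨T.hb, T.ab.symm, T.cab⟩
  have mc : c ∈ Da D a := ⟨T.hc, T.ac.symm, T.cac⟩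
  have hle : KK L a b c ≤ Subgroup.closure (Da D a) := by
    intro t ht
    rw [T.hcl a T.ha, Subgroup.mem_centralizer_iff]
    rintro _ rfl
    exact (mem_TT.1 ht.2).1.symm.eq
  let π : ↥(KK L a b c) →* Gd D a ⧸ Subgroup.center (Gd D a) := (QuotientGroup.mk' (Subgroup.center (Gd D a))).comp (Subgroup.inclusion hle)
  have hπ : ∀ t : ↥(KK L a b c), π t = phi D a (t : G) := fun t => (phi_eq_of_coe (x := Subgroup.inclusion hle t) rfl).symm
  have hm : ∀ t : ↥(KK L a b c), π t ∈ Subgroup.centralizer ({phi D a b, phi D a c} : Set (Gd D a ⧸ Subgroup.center (Gd D a))) := by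
    intro t
    rw [hπ, Subgroup.mem_centralizer_iff]
    obtain ⟨-, c2, c3⟩ := mem_TT.1 t.2.2
    rintro _ (rfl | rfl)
    · exact (phi_commute (hle t.2) (Subgroup.subset_closure mb) c2).symm.eq
    · exact (phi_commute (hle t.2) (Subgroup.subset_closure mc) c3).symm.eq
  let ρ := π.codRestrict _ hm
  have hinj : Function.Injective ρ := by
    rw [injective_iff_map_eq_one]
    intro t ht
    have h1 : π t = 1 := congrArg Subtype.val ht
    rw [hπ] at h1
    rcases eq_of_phi_one' P T.ha (hle t.2) h1 with h2 | h2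
    · exact Subtype.ext h2
    · exact absurd (h2 ▸ t.2.1) (T.hLd a T.ha)
  have hsurj : Function.Surjective ρ := by
    rintro ⟨q, hq⟩
    obtain ⟨h0, rfl⟩ := QuotientGroup.mk_surjective q
    have hh : (h0 : G) ∈ Subgroup.closure (Da D a) := h0.2
    have hph : phi D a (h0 : G) = QuotientGroup.mk h0 := phi_eq_of_coe rfl
    have ch : Commute (h0 : G) a := (commute_of_mem_closure (fun u hu => hu.2.2) hh).symm
    have ea : (h0 : G) * a * (h0 : G)⁻¹ = a := by rw [ch.eq]; group
    rw [Subgroup.mem_centralizer_iff] at hq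
    have key : ∀ {u : G}, u ∈ Da D a → phi D a u * QuotientGroup.mk h0 = QuotientGroup.mk h0 * phi D a u → Commute (h0 : G) u := by
      intro u hu h1
      have m : (h0 : G) * u * (h0 : G)⁻¹ ∈ Da D a := by
        have := mem_Da_conj hcj (h0 : G) hu
        rwa [ea] at this
      have h2 : (h0 : G) * u * (h0 : G)⁻¹ = u := by
        apply phi_inj hD L₁.hNC m hu
        rw [phi_conj' hh (Subgroup.subset_closure hu), hph, ← h1]
        group
      show (h0 : G) * u = u * (h0 : G)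
      calc (h0 : G) * u = (h0 : G) * u * (h0 : G)⁻¹ * (h0 : G) := by group
        _ = u * (h0 : G) := by rw [h2]
    have c2 := key mb (hq _ (by simp))
    have c3 := key mc (hq _ (by simp))
    have hT : (h0 : G) ∈ TT a b c := mem_TT.2 ⟨ch, c2, c3⟩
    by_cases hL : (h0 : G) ∈ L
    · refine ⟨⟨h0, hL, hT⟩, Subtype.ext ?_⟩
      show π _ = _
      rw [hπ]
      exact hph
    · have hm' : (h0 : G) * a ∈ L := by
        rw [Subgroup.mul_mem_iff_of_index_two T.hL2]
        exact iff_of_false hL (T.hLd a T.ha)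
      have hT' : (h0 : G) * a ∈ TT a b c := mem_TT.2 ⟨ch.mul_left (Commute.refl a), c2.mul_left T.cab, c3.mul_left T.cac⟩
      refine ⟨⟨(h0 : G) * a, hm', hT'⟩, Subtype.ext ?_⟩
      show π _ = _
      rw [hπ]
      show phi D a ((h0 : G) * a) = _
      have ha' : a ∈ Subgroup.closure (Da D a) := by
        rw [T.hcl a T.ha, Subgroup.mem_centralizer_iff]
        rintro _ rfl
        rfl
      rw [phi_mul hh ha', hself, mul_one]
      exact hph
  exact ⟨MulEquiv.ofBijective ρ ⟨hinj, hsurj⟩, fun t => hπ t⟩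

/-- The level facts. -/
theorem level_core (T : Tri D L a b c) :
    (Subgroup.center ↥(Subgroup.centralizer ({phi D a b, phi D a c} : Set (Gd D a ⧸ Subgroup.center (Gd D a))))).map
        (Subgroup.centralizer ({phi D a b, phi D a c} : Set (Gd D a ⧸ Subgroup.center (Gd D a)))).subtype =
      Subgroup.closure ({phi D a b, phi D a c} : Set (Gd D a ⧸ Subgroup.center (Gd D a))) ∧
    IsQuasisimple ↥(Subgroup.centralizer ({phi D a b, phi D a c} : Set (Gd D a ⧸ Subgroup.center (Gd D a)))) ∧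
    ∃ (F : Type) (_ : Field F) (_ : Fintype F), Fintype.card F = 4 ∧
      Nonempty (↥(Subgroup.centralizer ({phi D a b, phi D a c} : Set (Gd D a ⧸ Subgroup.center (Gd D a)))) ⧸
        Subgroup.center ↥(Subgroup.centralizer ({phi D a b, phi D a c} : Set (Gd D a ⧸ Subgroup.center (Gd D a)))) ≃* PSU 6 F 2) := by
  have hD := P.hG.1
  have L₁ := lw P T.ha
  have mb : b ∈ Da D a := ⟨T.hb, T.ab.symm, T.cab⟩
  have mc : c ∈ Da D a := ⟨T.hc, T.ac.symm, T.cac⟩
  have hne : phi D a b ≠ phi D a c := fun e => T.bc (phi_inj hD L₁.hNC mb mc e)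
  have hcm : Commute (phi D a b) (phi D a c) := (phi_comm hD mb mc).2 T.cbc
  have hn : ((Subgroup.closure ({phi D a b, phi D a c} : Set (Gd D a ⧸ Subgroup.center (Gd D a)))).subgroupOf
      (Subgroup.centralizer ({phi D a b * phi D a c} : Set (Gd D a ⧸ Subgroup.center (Gd D a))))).Normal := by
    constructor
    intro n hn g
    rw [Subgroup.mem_subgroupOf] at hn ⊢
    have hg : Commute (g : Gd D a ⧸ Subgroup.center (Gd D a)) (phi D a b * phi D a c) := by
      have := Subgroup.mem_centralizer_iff.1 g.2 _ rfl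
      exact this.symm
    have e0 : (g : Gd D a ⧸ Subgroup.center (Gd D a)) * phi D a b * (g : Gd D a ⧸ Subgroup.center (Gd D a))⁻¹ *
        ((g : Gd D a ⧸ Subgroup.center (Gd D a)) * phi D a c * (g : Gd D a ⧸ Subgroup.center (Gd D a))⁻¹) = phi D a b * phi D a c := by
      have := hg.eq
      calc _ = (g : Gd D a ⧸ Subgroup.center (Gd D a)) * (phi D a b * phi D a c) * (g : Gd D a ⧸ Subgroup.center (Gd D a))⁻¹ := by group
        _ = (phi D a b * phi D a c) * (g : Gd D a ⧸ Subgroup.center (Gd D a)) * (g : Gd D a ⧸ Subgroup.center (Gd D a))⁻¹ := by rw [this]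
        _ = _ := by group
    have e1 := two_unique L₁.hG L₁.hp (phi_mem mb) (phi_mem mc) (L₁.hG.2.1 _ _ (phi_mem mb)) (L₁.hG.2.1 _ _ (phi_mem mc)) hne hcm
      (fun e => hne (mul_left_cancel (mul_right_cancel e))) ((Relations.commute_conj_iff _ _ _).2 hcm) e0.symm
    have key : Subgroup.closure ({phi D a b, phi D a c} : Set (Gd D a ⧸ Subgroup.center (Gd D a))) ≤
        (Subgroup.closure ({phi D a b, phi D a c} : Set (Gd D a ⧸ Subgroup.center (Gd D a)))).comap (MulAut.conj (g : Gd D a ⧸ Subgroup.center (Gd D a))).toMonoidHom := by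
      rw [Subgroup.closure_le]
      rintro s (rfl | hs)
      · rw [SetLike.mem_coe, Subgroup.mem_comap]
        show (g : Gd D a ⧸ Subgroup.center (Gd D a)) * _ * (g : Gd D a ⧸ Subgroup.center (Gd D a))⁻¹ ∈ _
        rcases e1 with ⟨h1, -⟩ | ⟨-, h1⟩
        · rw [← h1]
          exact Subgroup.subset_closure (by simp)
        · rw [← h1]
          exact Subgroup.subset_closure (by simp)
      · rw [Set.mem_singleton_iff] at hs
        rw [hs, SetLike.mem_coe, Subgroup.mem_comap]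
        show (g : Gd D a ⧸ Subgroup.center (Gd D a)) * _ * (g : Gd D a ⧸ Subgroup.center (Gd D a))⁻¹ ∈ _
        rcases e1 with ⟨-, h1⟩ | ⟨h1, -⟩
        · rw [← h1]
          exact Subgroup.subset_closure (by simp)
        · rw [← h1]
          exact Subgroup.subset_closure (by simp)
    exact key hn
  obtain ⟨-, -, h3, h4, h5, -⟩ := Cfsg.Agent.Lib.PermComp.OutP.M23T.core L₁.hG L₁.hp L₁.h23
    (Cfsg.Agent.Lib.PermComp.OutP.M23T.closure_eq_cent L₁.hG L₁.hp L₁.h23) (phi D a b) (phi D a c) (phi_mem mb) (phi_mem mc) hne hcm _ _ _ rfl rfl rfl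
  exact ⟨h3, h4, h5⟩

/-- Products of three commuting members determine the factors. -/
def TU (D : Set G) : Prop :=
  ∀ ⦃a b c r s t : G⦄, a ∈ D → b ∈ D → c ∈ D → r ∈ D → s ∈ D → t ∈ D → a ≠ b → a ≠ c → b ≠ c → r ≠ s → r ≠ t → s ≠ t →
    Commute a b → Commute a c → Commute b c → Commute r s → Commute r t → Commute s t →
    a * b * c = r * s * t → ∀ x, (x = a ∨ x = b ∨ x = c) ↔ (x = r ∨ x = s ∨ x = t)

omit P in
theorem dd_inj (T : Tri D L a b c) : Function.Injective (![a, b, c] : Fin 3 → G) := by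
  intro i j h
  have h1 := T.ab
  have h2 := T.ac
  have h3 := T.bc
  fin_cases i <;> fin_cases j <;> first | rfl | exact absurd h h1 | exact absurd h h2 | exact absurd h h3 | exact absurd h.symm h1 | exact absurd h.symm h2 | exact absurd h.symm h3

omit P in
theorem dd_mem (T : Tri D L a b c) (i : Fin 3) : (![a, b, c] : Fin 3 → G) i ∈ D := by
  fin_cases i
  · exact T.ha
  · exact T.hb
  · exact T.hc

omit P in
theorem dd_comm (T : Tri D L a b c) (i j : Fin 3) : Commute ((![a, b, c] : Fin 3 → G) i) ((![a, b, c] : Fin 3 → G) j) := by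
  have h1 := T.cab
  have h2 := T.cac
  have h3 := T.cbc
  fin_cases i <;> fin_cases j <;> first | exact Commute.refl _ | exact h1 | exact h2 | exact h3 | exact h1.symm | exact h2.symm | exact h3.symm

omit P in
/-- An element commuting with the product permutes the factors. -/
theorem perm_of (hcj : ∀ g : G, ∀ e ∈ D, g * e * g⁻¹ ∈ D) (hTU : TU D) (T : Tri D L a b c) {g : G} (hg : Commute g (a * b * c)) (i : Fin 3) :
    ∃ k : Fin 3, g * (![a, b, c] : Fin 3 → G) i * g⁻¹ = (![a, b, c] : Fin 3 → G) k := by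
  have h0 : g * a * g⁻¹ * (g * b * g⁻¹) * (g * c * g⁻¹) = a * b * c := by
    calc _ = g * (a * b * c) * g⁻¹ := by group
      _ = (a * b * c) * g * g⁻¹ := by rw [hg.eq]
      _ = _ := by group
  have hne : ∀ {u v : G}, u ≠ v → g * u * g⁻¹ ≠ g * v * g⁻¹ := fun h e => h (mul_left_cancel (mul_right_cancel e))
  have hcm : ∀ {u v : G}, Commute u v → Commute (g * u * g⁻¹) (g * v * g⁻¹) := fun h => (Relations.commute_conj_iff g _ _).2 h
  have key := hTU (hcj g a T.ha) (hcj g b T.hb) (hcj g c T.hc) T.ha T.hb T.hc (hne T.ab) (hne T.ac) (hne T.bc) T.ab T.ac T.bc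
    (hcm T.cab) (hcm T.cac) (hcm T.cbc) T.cab T.cac T.cbc h0
  have h1 : ∀ x, (x = g * a * g⁻¹ ∨ x = g * b * g⁻¹ ∨ x = g * c * g⁻¹) → ∃ k : Fin 3, x = (![a, b, c] : Fin 3 → G) k := by
    intro x hx
    rcases (key x).1 hx with h | h | h
    · exact ⟨0, h⟩
    · exact ⟨1, h⟩
    · exact ⟨2, h⟩
  fin_cases i
  · exact h1 _ (Or.inl rfl)
  · exact h1 _ (Or.inr (Or.inl rfl))
  · exact h1 _ (Or.inr (Or.inr rfl))

omit P in
/-- The permutation action. -/
theorem exists_sigma (hcj : ∀ g : G, ∀ e ∈ D, g * e * g⁻¹ ∈ D) (hTU : TU D) (T : Tri D L a b c) :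
    ∃ σ : ↥(CC L a b c) →* Equiv.Perm (Fin 3), ∀ (g : ↥(CC L a b c)) (i : Fin 3),
      (g : G) * (![a, b, c] : Fin 3 → G) i * (g : G)⁻¹ = (![a, b, c] : Fin 3 → G) (σ g i) := by
  have hC : ∀ g : ↥(CC L a b c), Commute (g : G) (a * b * c) := fun g => (Subgroup.mem_centralizer_iff.1 g.2.2 _ rfl).symm
  choose f hf using fun (g : ↥(CC L a b c)) (i : Fin 3) => perm_of hcj hTU T (hC g) i
  have hinj := dd_inj T
  let σ₀ : ↥(CC L a b c) →* Function.End (Fin 3) :=
    { toFun := f
      map_one' := by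
        funext i
        apply hinj
        rw [← hf 1 i]
        simp
        rfl
      map_mul' := by
        intro g h
        funext i
        apply hinj
        rw [← hf (g * h) i]
        show _ = (![a, b, c] : Fin 3 → G) (f g (f h i))
        rw [← hf g (f h i), ← hf h i]
        simp only [Subgroup.coe_mul]
        group }
  exact ⟨σ₀.toHomPerm, fun g i => hf g i⟩

/-- **The main theorem**, for a subgroup of index two missing `D`. -/
theorem main_tri (h24 : IsOfTypeM24 G D) (hTU : TU D) (T : Tri D L a b c) (K' : Subgroup G)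
    (hK' : K' = (generalizedFittingSubgroup ↥(CC L a b c)).map (CC L a b c).subtype) :
    IsQuasisimple ↥K' ∧ (Subgroup.center ↥K').map K'.subtype = EE a b c ∧ K' = L ⊓ Subgroup.centralizer ((EE a b c : Subgroup G) : Set G) ∧
    (∃ (_ : ((EE a b c).subgroupOf K').Normal) (F : Type) (_ : Field F) (_ : Fintype F), Fintype.card F = 4 ∧ Nonempty (↥K' ⧸ (EE a b c).subgroupOf K' ≃* PSU 6 F 2)) ∧
    ∃ _ : (K'.subgroupOf (CC L a b c)).Normal, Nonempty (↥(CC L a b c) ⧸ K'.subgroupOf (CC L a b c) ≃* Equiv.Perm (Fin 3)) ∧ EE a b c ≤ CC L a b c ∧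
      ∃ (_ : ((EE a b c).subgroupOf (CC L a b c)).Normal) (F : Type) (_ : Field F) (_ : Fintype F), Fintype.card F = 4 ∧
        Nonempty (↥(CC L a b c) ⧸ (EE a b c).subgroupOf (CC L a b c) ≃* MulAut (PSU 6 F 2)) := by
  classical
  have hG := P.hG
  have hp := P.hp
  have hD := hG.1
  have hcj := hG.2.1
  obtain ⟨ρ, hρ⟩ := exists_rho P T
  obtain ⟨hZb, hqb, F, iF, fF, hF, ⟨eb⟩⟩ := level_core P T
  have hq : IsQuasisimple ↥(KK L a b c) := isQuasisimple_congr ρ hqb
  have haa := mul_self_of_mem hD T.ha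
  have hbb := mul_self_of_mem hD T.hb
  have hcc := mul_self_of_mem hD T.hc
  have hLa := T.hLd a T.ha
  have hLb := T.hLd b T.hb
  have hLc := T.hLd c T.hc
  have hab : a * b ∈ KK L a b c := by
    refine ⟨(Subgroup.mul_mem_iff_of_index_two T.hL2).2 (iff_of_false hLa hLb), mem_TT.2 ⟨?_, ?_, ?_⟩⟩
    · exact (Commute.refl a).mul_left T.cab.symm
    · exact T.cab.mul_left (Commute.refl b)
    · exact T.cac.mul_left T.cbc
  have hac : a * c ∈ KK L a b c := by
    refine ⟨(Subgroup.mul_mem_iff_of_index_two T.hL2).2 (iff_of_false hLa hLc), mem_TT.2 ⟨?_, ?_, ?_⟩⟩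
    · exact (Commute.refl a).mul_left T.cac.symm
    · exact T.cab.mul_left T.cbc.symm
    · exact T.cac.mul_left (Commute.refl c)
  have hEK : EE a b c ≤ KK L a b c := by
    rw [Subgroup.closure_le]
    rintro u (rfl | rfl)
    · exact hab
    · exact hac
  have hTc : ∀ x ∈ EE a b c, ∀ t ∈ TT a b c, Commute x t := by
    intro x hx t ht
    obtain ⟨c1, c2, c3⟩ := mem_TT.1 ht
    have : ∀ u ∈ ({a * b, a * c} : Set G), Commute t u := by
      rintro u (rfl | hu)
      · exact c1.mul_right c2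
      · rw [Set.mem_singleton_iff] at hu
        rw [hu]
        exact c1.mul_right c3
    exact (commute_of_mem_closure this hx).symm
  have hmb : b ∈ Da D a := ⟨T.hb, T.ab.symm, T.cab⟩
  have hmc : c ∈ Da D a := ⟨T.hc, T.ac.symm, T.cac⟩
  have hcla : a ∈ Subgroup.closure (Da D a) := by
    rw [T.hcl a T.ha, Subgroup.mem_centralizer_iff]
    rintro _ rfl
    rfl
  have hleC : KK L a b c ≤ Subgroup.closure (Da D a) := by
    intro t ht
    rw [T.hcl a T.ha, Subgroup.mem_centralizer_iff]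
    rintro _ rfl
    exact (mem_TT.1 ht.2).1.symm.eq
  have hphiab : phi D a (a * b) = phi D a b := by
    rw [phi_mul hcla (Subgroup.subset_closure hmb), phi_self P T, one_mul]
  have hphiac : phi D a (a * c) = phi D a c := by
    rw [phi_mul hcla (Subgroup.subset_closure hmc), phi_self P T, one_mul]
  -- the centre
  have hcenter : ∀ z : ↥(KK L a b c), z ∈ Subgroup.center ↥(KK L a b c) ↔ (z : G) ∈ EE a b c := by
    intro z
    constructor
    · intro hz
      have h1 : ρ z ∈ Subgroup.center _ := by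
        rw [Subgroup.mem_center_iff] at hz ⊢
        intro g
        have h2 := hz (ρ.symm g)
        have h3 := congrArg ρ h2
        simpa using h3
      have h2 : ((ρ z : _) : Gd D a ⧸ Subgroup.center (Gd D a)) ∈ Subgroup.closure ({phi D a b, phi D a c} : Set (Gd D a ⧸ Subgroup.center (Gd D a))) := by
        rw [← hZb]
        exact ⟨_, h1, rfl⟩
      rw [hρ] at h2
      have lift : ∀ q ∈ Subgroup.closure ({phi D a b, phi D a c} : Set (Gd D a ⧸ Subgroup.center (Gd D a))), ∃ x ∈ EE a b c, phi D a x = q := by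
        intro q hq
        induction hq using Subgroup.closure_induction with
        | mem q hq =>
          rcases hq with rfl | hq
          · exact ⟨a * b, Subgroup.subset_closure (by simp), hphiab⟩
          · rw [Set.mem_singleton_iff] at hq
            rw [hq]
            exact ⟨a * c, Subgroup.subset_closure (by simp), hphiac⟩
        | one => exact ⟨1, Subgroup.one_mem _, Cfsg.Agent.Lib.ThreeT.F23.phi_one' a⟩
        | mul u v hu hv h1 h2 =>
          obtain ⟨x, hx, rfl⟩ := h1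
          obtain ⟨y, hy, rfl⟩ := h2
          exact ⟨x * y, Subgroup.mul_mem _ hx hy, phi_mul (hleC (hEK hx)) (hleC (hEK hy))⟩
        | inv u hu h1 =>
          obtain ⟨x, hx, rfl⟩ := h1
          refine ⟨x⁻¹, Subgroup.inv_mem _ hx, ?_⟩
          apply eq_inv_of_mul_eq_one_left
          rw [← phi_mul (Subgroup.inv_mem _ (hleC (hEK hx))) (hleC (hEK hx)), inv_mul_cancel]
          exact Cfsg.Agent.Lib.ThreeT.F23.phi_one' a
      obtain ⟨x, hx, hxz⟩ := lift _ h2
      have h3 : phi D a (x⁻¹ * (z : G)) = 1 := by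
        rw [phi_mul (Subgroup.inv_mem _ (hleC (hEK hx))) (hleC z.2), ← hxz, ← phi_mul (Subgroup.inv_mem _ (hleC (hEK hx))) (hleC (hEK hx)), inv_mul_cancel]
        exact Cfsg.Agent.Lib.ThreeT.F23.phi_one' a
      have h4 : x⁻¹ * (z : G) ∈ KK L a b c := Subgroup.mul_mem _ (Subgroup.inv_mem _ (hEK hx)) z.2
      rcases eq_of_phi_one' P T.ha (hleC h4) h3 with h5 | h5
      · rw [← inv_mul_eq_one.1 h5]
        exact hx
      · exact absurd (h5 ▸ h4.1) hLa
    · intro hz
      rw [Subgroup.mem_center_iff]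
      intro g
      exact Subtype.ext (hTc _ hz _ g.2.2).symm.eq
  have hcenter2 : (Subgroup.center ↥(KK L a b c)).map (KK L a b c).subtype = EE a b c := by
    ext x
    constructor
    · rintro ⟨z, hz, rfl⟩
      exact (hcenter z).1 hz
    · intro hx
      exact ⟨⟨x, hEK hx⟩, (hcenter _).2 hx, rfl⟩
  have hEcenter : (EE a b c).subgroupOf (KK L a b c) = Subgroup.center ↥(KK L a b c) := by
    ext z
    rw [Subgroup.mem_subgroupOf, hcenter]
  haveI hEnK : ((EE a b c).subgroupOf (KK L a b c)).Normal := by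
    rw [hEcenter]
    infer_instance
  let e1 : ↥(KK L a b c) ⧸ (EE a b c).subgroupOf (KK L a b c) ≃* PSU 6 F 2 :=
    (QuotientGroup.quotientMulEquivOfEq hEcenter).trans ((quotientCenterEquiv ρ).trans eb)
  -- the centralizer of the four-group
  have hCE : Subgroup.centralizer ((EE a b c : Subgroup G) : Set G) = TT a b c := by
    apply le_antisymm
    · intro g hg
      rw [Subgroup.mem_centralizer_iff] at hg
      have h1 : g * (a * b) = (a * b) * g := (hg _ (Subgroup.subset_closure (by simp))).symm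
      have h2 : g * (a * c) = (a * c) * g := (hg _ (Subgroup.subset_closure (by simp))).symm
      have hcm : ∀ {u v : G}, Commute u v → Commute (g * u * g⁻¹) (g * v * g⁻¹) := fun h => (Relations.commute_conj_iff g _ _).2 h
      have hne : ∀ {u v : G}, u ≠ v → g * u * g⁻¹ ≠ g * v * g⁻¹ := fun h e => h (mul_left_cancel (mul_right_cancel e))
      have e1' : a * b = g * a * g⁻¹ * (g * b * g⁻¹) := by
        calc a * b = (a * b) * g * g⁻¹ := by group
          _ = g * (a * b) * g⁻¹ := by rw [h1]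
          _ = _ := by group
      have e2' : a * c = g * a * g⁻¹ * (g * c * g⁻¹) := by
        calc a * c = (a * c) * g * g⁻¹ := by group
          _ = g * (a * c) * g⁻¹ := by rw [h2]
          _ = _ := by group
      have c1 := two_unique hG hp T.ha T.hb (hcj g a T.ha) (hcj g b T.hb) T.ab T.cab (hne T.ab) (hcm T.cab) e1'
      have c2 := two_unique hG hp T.ha T.hc (hcj g a T.ha) (hcj g c T.hc) T.ac T.cac (hne T.ac) (hcm T.cac) e2'
      have key : ∀ {u : G}, u = g * u * g⁻¹ → Commute g u := by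
        intro u hu
        show g * u = u * g
        calc g * u = g * u * g⁻¹ * g := by group
          _ = u * g := by rw [← hu]
      apply mem_TT.2
      rcases c1 with ⟨h3, h4⟩ | ⟨h3, h4⟩
      · rcases c2 with ⟨h5, h6⟩ | ⟨h5, h6⟩
        · exact ⟨key h3, key h4, key h6⟩
        · exact absurd (h3.trans h6.symm) T.ac
      · rcases c2 with ⟨h5, h6⟩ | ⟨h5, h6⟩
        · exact absurd (h5.trans h4.symm) T.ab
        · exact absurd (h4.trans h6.symm) T.bc
    · intro g hg
      rw [Subgroup.mem_centralizer_iff]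
      intro x hx
      exact (hTc x hx g hg)
  -- the subgroup `KK` in `CC`
  have hleCC : KK L a b c ≤ CC L a b c := by
    intro t ht
    refine ⟨ht.1, Subgroup.mem_centralizer_iff.2 ?_⟩
    rintro _ rfl
    obtain ⟨c1, c2, c3⟩ := mem_TT.1 ht.2
    exact (((c1.mul_right c2).mul_right c3)).symm.eq
  obtain ⟨σ, hσ⟩ := exists_sigma hcj hTU T
  have hinjd := dd_inj T
  have hkerσ : σ.ker = (KK L a b c).subgroupOf (CC L a b c) := by
    ext g
    rw [MonoidHom.mem_ker, Subgroup.mem_subgroupOf]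
    constructor
    · intro h
      have hfix : ∀ i : Fin 3, Commute (g : G) ((![a, b, c] : Fin 3 → G) i) := by
        intro i
        have h1 := hσ g i
        rw [h, Equiv.Perm.one_apply] at h1
        show (g : G) * _ = _ * (g : G)
        calc (g : G) * (![a, b, c] : Fin 3 → G) i = (g : G) * (![a, b, c] : Fin 3 → G) i * (g : G)⁻¹ * (g : G) := by group
          _ = _ := by rw [h1]
      exact ⟨g.2.1, mem_TT.2 ⟨hfix 0, hfix 1, hfix 2⟩⟩
    · intro h
      obtain ⟨c1, c2, c3⟩ := mem_TT.1 h.2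
      have hfix : ∀ i : Fin 3, Commute (g : G) ((![a, b, c] : Fin 3 → G) i) := by
        intro i
        fin_cases i
        · exact c1
        · exact c2
        · exact c3
      ext i
      have h1 := hσ g i
      have h2 : (g : G) * (![a, b, c] : Fin 3 → G) i * (g : G)⁻¹ = (![a, b, c] : Fin 3 → G) i := by
        rw [(hfix i).eq]
        group
      rw [h2] at h1
      exact congrArg Fin.val (hinjd h1).symm
  have hsurj : Function.Surjective σ := by
    intro τ
    have hne : ∀ {i j : Fin 3}, i ≠ j → (![a, b, c] : Fin 3 → G) (τ i) ≠ (![a, b, c] : Fin 3 → G) (τ j) :=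
      fun h e => h (τ.injective (hinjd e))
    obtain ⟨g₀, e0, e1', e2'⟩ := triple_trans P T.ha T.hb T.hc (dd_mem T (τ 0)) (dd_mem T (τ 1)) (dd_mem T (τ 2)) T.ab T.ac T.bc
      (hne (by decide)) (hne (by decide)) (hne (by decide)) T.cab T.cac T.cbc (dd_comm T _ _) (dd_comm T _ _) (dd_comm T _ _)
    have hact : ∃ g₁ ∈ L, g₁ * a * g₁⁻¹ = (![a, b, c] : Fin 3 → G) (τ 0) ∧ g₁ * b * g₁⁻¹ = (![a, b, c] : Fin 3 → G) (τ 1) ∧ g₁ * c * g₁⁻¹ = (![a, b, c] : Fin 3 → G) (τ 2) := by
      by_cases hg : g₀ ∈ L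
      · exact ⟨g₀, hg, e0, e1', e2'⟩
      · refine ⟨g₀ * a, (Subgroup.mul_mem_iff_of_index_two T.hL2).2 (iff_of_false hg hLa), ?_, ?_, ?_⟩
        · rw [← e0]
          group
        · rw [← e1']
          calc g₀ * a * b * (g₀ * a)⁻¹ = g₀ * (a * b) * (a⁻¹ * g₀⁻¹) := by group
            _ = g₀ * (b * a) * (a⁻¹ * g₀⁻¹) := by rw [T.cab.eq]
            _ = _ := by group
        · rw [← e2']
          calc g₀ * a * c * (g₀ * a)⁻¹ = g₀ * (a * c) * (a⁻¹ * g₀⁻¹) := by group
            _ = g₀ * (c * a) * (a⁻¹ * g₀⁻¹) := by rw [T.cac.eq]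
            _ = _ := by group
    obtain ⟨g₁, hg₁, e3, e4, e5⟩ := hact
    have hj : g₁ * (a * b * c) * g₁⁻¹ = a * b * c := by
      have := prod_perm T.cab T.cac T.cbc (τ 0) (τ 1) (τ 2) (fun h => absurd (τ.injective h) (by decide)) (fun h => absurd (τ.injective h) (by decide))
        (fun h => absurd (τ.injective h) (by decide))
      calc g₁ * (a * b * c) * g₁⁻¹ = g₁ * a * g₁⁻¹ * (g₁ * b * g₁⁻¹) * (g₁ * c * g₁⁻¹) := by group
        _ = (![a, b, c] : Fin 3 → G) (τ 0) * (![a, b, c] : Fin 3 → G) (τ 1) * (![a, b, c] : Fin 3 → G) (τ 2) := by rw [e3, e4, e5]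
        _ = _ := this
    have hg₁C : g₁ ∈ CC L a b c := by
      refine ⟨hg₁, Subgroup.mem_centralizer_iff.2 ?_⟩
      rintro _ rfl
      calc a * b * c * g₁ = g₁ * (a * b * c) * g₁⁻¹ * g₁ := by rw [hj]
        _ = _ := by group
    refine ⟨⟨g₁, hg₁C⟩, ?_⟩
    ext i
    apply congrArg Fin.val
    apply hinjd
    rw [← hσ ⟨g₁, hg₁C⟩ i]
    fin_cases i
    · exact e3
    · exact e4
    · exact e5
  have hKn : ((KK L a b c).subgroupOf (CC L a b c)).Normal := by
    rw [← hkerσ]
    infer_instance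
  let e2 : ↥(CC L a b c) ⧸ (KK L a b c).subgroupOf (CC L a b c) ≃* Equiv.Perm (Fin 3) :=
    (QuotientGroup.quotientMulEquivOfEq hkerσ.symm).trans (QuotientGroup.quotientKerEquivOfSurjective σ hsurj)
  -- the centralizer of `KK`
  obtain ⟨y, hy, cya, cyb, cyc, nya, nyb, nyc⟩ := exists_y P h24 T
  have hLy := T.hLd y hy
  have fix_aux : ∀ {x d d' : G}, d ∈ D → d' ∈ D → Commute y d → Commute y d' → Commute d d' → y ≠ d → y ≠ d' → x ∈ D →
      x * d' = y * d → d' = d := by
    intro x d d' hd hd' c1 c2 c3 n1 n2 hx h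
    by_contra hne
    have hyy := mul_self_of_mem hD hy
    have hdd := mul_self_of_mem hD hd
    have hd'd' := mul_self_of_mem hD hd'
    have e1' : x = y * d * d' := by
      calc x = x * (d' * d') := by rw [hd'd', mul_one]
        _ = (x * d') * d' := by group
        _ = _ := by rw [h]
    have e2' : y * x = d * d' := by
      rw [e1']
      calc y * (y * d * d') = (y * y) * d * d' := by group
        _ = _ := by rw [hyy, one_mul]
    have cyx : Commute y x := by
      rw [e1']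
      exact ((Commute.refl y).mul_right c1).mul_right c2
    have nyx : y ≠ x := by
      intro e
      have h1 : d * d' = 1 := by
        rw [← e2', ← e, hyy]
      have h2 : d' = d := by
        calc d' = (d * d) * d' := by rw [hdd, one_mul]
          _ = d * (d * d') := by group
          _ = d := by rw [h1, mul_one]
      exact hne h2
    rcases two_unique hG hp hy hx hd hd' nyx cyx (Ne.symm hne) c3 e2' with ⟨h1, -⟩ | ⟨h1, -⟩
    · exact n1 h1
    · exact n2 h1
  have hCK : ∀ x : ↥(CC L a b c), (∀ t ∈ (KK L a b c).subgroupOf (CC L a b c), Commute x t) → x ∈ (KK L a b c).subgroupOf (CC L a b c) := by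
    intro x hx
    rw [Subgroup.mem_subgroupOf]
    have hfix : ∀ i : Fin 3, Commute (x : G) ((![a, b, c] : Fin 3 → G) i) := by
      intro i
      have hdi := dd_mem T i
      have hnyd : y ≠ (![a, b, c] : Fin 3 → G) i := by
        fin_cases i
        · exact nya
        · exact nyb
        · exact nyc
      have hcyd : Commute y ((![a, b, c] : Fin 3 → G) i) := by
        fin_cases i
        · exact cya
        · exact cyb
        · exact cyc
      have hn : y * (![a, b, c] : Fin 3 → G) i ∈ KK L a b c := by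
        refine ⟨(Subgroup.mul_mem_iff_of_index_two T.hL2).2 (iff_of_false hLy (T.hLd _ hdi)), mem_TT.2 ⟨?_, ?_, ?_⟩⟩
        · exact cya.mul_left (dd_comm T i 0)
        · exact cyb.mul_left (dd_comm T i 1)
        · exact cyc.mul_left (dd_comm T i 2)
      have hnC := hleCC hn
      have hcomm : (x : G) * (y * (![a, b, c] : Fin 3 → G) i) = (y * (![a, b, c] : Fin 3 → G) i) * (x : G) :=
        congrArg Subtype.val (hx ⟨_, hnC⟩ (by rw [Subgroup.mem_subgroupOf]; exact hn)).eq
      have h1 := hσ x i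
      have hmem := dd_mem T (σ x i)
      have h2 : ((x : G) * y * (x : G)⁻¹) * (![a, b, c] : Fin 3 → G) (σ x i) = y * (![a, b, c] : Fin 3 → G) i := by
        rw [← h1]
        calc (x : G) * y * (x : G)⁻¹ * ((x : G) * (![a, b, c] : Fin 3 → G) i * (x : G)⁻¹) = (x : G) * (y * (![a, b, c] : Fin 3 → G) i) * (x : G)⁻¹ := by group
          _ = (y * (![a, b, c] : Fin 3 → G) i) * (x : G) * (x : G)⁻¹ := by rw [hcomm]
          _ = _ := by group
      have hnyd' : y ≠ (![a, b, c] : Fin 3 → G) (σ x i) := by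
        generalize σ x i = k
        fin_cases k
        · exact nya
        · exact nyb
        · exact nyc
      have hcyd' : Commute y ((![a, b, c] : Fin 3 → G) (σ x i)) := by
        generalize σ x i = k
        fin_cases k
        · exact cya
        · exact cyb
        · exact cyc
      have h3 := fix_aux hdi hmem hcyd hcyd' (dd_comm T _ _) hnyd hnyd' (hcj _ y hy) h2
      show (x : G) * _ = _ * (x : G)
      have h4 : (x : G) * (![a, b, c] : Fin 3 → G) i * (x : G)⁻¹ = (![a, b, c] : Fin 3 → G) i := by rw [h1, h3]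
      calc (x : G) * (![a, b, c] : Fin 3 → G) i = (x : G) * (![a, b, c] : Fin 3 → G) i * (x : G)⁻¹ * (x : G) := by group
        _ = _ := by rw [h4]
    exact ⟨x.2.1, mem_TT.2 ⟨hfix 0, hfix 1, hfix 2⟩⟩
  have hq' : IsQuasisimple ↥((KK L a b c).subgroupOf (CC L a b c)) := isQuasisimple_congr (Subgroup.subgroupOfEquivOfLe hleCC) hq
  have hgf : generalizedFittingSubgroup ↥(CC L a b c) = (KK L a b c).subgroupOf (CC L a b c) := gFit_quasi _ hKn hq' hCK
  have hKeq : K' = KK L a b c := by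
    rw [hK', hgf]
    exact Subgroup.map_subgroupOf_eq_of_le hleCC
  subst hKeq
  haveI : ((EE a b c).subgroupOf (KK L a b c)).Normal := by
    rw [hEcenter]
    infer_instance
  have hEC : EE a b c ≤ CC L a b c := hEK.trans hleCC
  have hEn : ((EE a b c).subgroupOf (CC L a b c)).Normal := by
    constructor
    intro n hn g
    rw [Subgroup.mem_subgroupOf] at hn ⊢
    -- conjugation permutes the members
    have hsub : ∀ i j : Fin 3, (g : G) * ((![a, b, c] : Fin 3 → G) i * (![a, b, c] : Fin 3 → G) j) * (g : G)⁻¹ ∈ EE a b c := by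
      intro i j
      have e : (g : G) * ((![a, b, c] : Fin 3 → G) i * (![a, b, c] : Fin 3 → G) j) * (g : G)⁻¹ =
          (![a, b, c] : Fin 3 → G) (σ g i) * (![a, b, c] : Fin 3 → G) (σ g j) := by
        rw [← hσ g i, ← hσ g j]
        group
      rw [e]
      have mE : ∀ k l : Fin 3, (![a, b, c] : Fin 3 → G) k * (![a, b, c] : Fin 3 → G) l ∈ EE a b c := by
        have m1 : a * b ∈ EE a b c := Subgroup.subset_closure (by simp)
        have m2 : a * c ∈ EE a b c := Subgroup.subset_closure (by simp)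
        have m3 : b * a ∈ EE a b c := by rw [T.cab.symm.eq]; exact m1
        have m4 : c * a ∈ EE a b c := by rw [T.cac.symm.eq]; exact m2
        have m5 : b * c ∈ EE a b c := by
          have : b * c = (b * a) * (a * c) := by
            calc b * c = b * (a * a) * c := by rw [haa, mul_one]
              _ = _ := by group
          rw [this]
          exact Subgroup.mul_mem _ m3 m2
        have m6 : c * b ∈ EE a b c := by rw [T.cbc.symm.eq]; exact m5
        have m0a : a * a ∈ EE a b c := by rw [haa]; exact Subgroup.one_mem _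
        have m0b : b * b ∈ EE a b c := by rw [hbb]; exact Subgroup.one_mem _
        have m0c : c * c ∈ EE a b c := by rw [hcc]; exact Subgroup.one_mem _
        intro k l
        fin_cases k <;> fin_cases l <;> first | exact m1 | exact m2 | exact m3 | exact m4 | exact m5 | exact m6 | exact m0a | exact m0b | exact m0c
      exact mE _ _
    have key : EE a b c ≤ (EE a b c).comap (MulAut.conj (g : G)).toMonoidHom := by
      rw [Subgroup.closure_le]
      rintro u (rfl | hu)
      · exact hsub 0 1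
      · rw [Set.mem_singleton_iff] at hu
        rw [hu]
        exact hsub 0 2
    exact key hn
  have hF2 : Fintype.card F = 2 ^ 2 := by rw [hF]; norm_num
  haveI : Fact (Nat.Prime 2) := ⟨Nat.prime_two⟩
  have hcAut : Nat.card (MulAut (PSU 6 F 2)) = 6 * Nat.card (PSU 6 F 2) := by
    rw [Cfsg.Agent.Lib.AutCl.PSUCount.card_mulAut hF2 6 (p := 2) (f := 1) (by norm_num) (by norm_num) (by norm_num) (by norm_num)]
    norm_num
  have hcQ : Nat.card (↥(CC L a b c) ⧸ (EE a b c).subgroupOf (CC L a b c)) = 6 * Nat.card (PSU 6 F 2) := by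
    have h1 : Nat.card ↥(CC L a b c) = Nat.card (↥(CC L a b c) ⧸ (KK L a b c).subgroupOf (CC L a b c)) * Nat.card ↥((KK L a b c).subgroupOf (CC L a b c)) :=
      Subgroup.card_eq_card_quotient_mul_card_subgroup _
    have h2 : Nat.card (↥(CC L a b c) ⧸ (KK L a b c).subgroupOf (CC L a b c)) = 6 := by
      rw [Nat.card_congr e2.toEquiv, Nat.card_perm]
      simp
      rfl
    have h3 : Nat.card ↥((KK L a b c).subgroupOf (CC L a b c)) = Nat.card ↥(KK L a b c) := Nat.card_congr (Subgroup.subgroupOfEquivOfLe hleCC).toEquiv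
    have h4 : Nat.card ↥(KK L a b c) = Nat.card (↥(KK L a b c) ⧸ (EE a b c).subgroupOf (KK L a b c)) * Nat.card ↥((EE a b c).subgroupOf (KK L a b c)) :=
      Subgroup.card_eq_card_quotient_mul_card_subgroup _
    have h5 : Nat.card (↥(KK L a b c) ⧸ (EE a b c).subgroupOf (KK L a b c)) = Nat.card (PSU 6 F 2) := Nat.card_congr e1.toEquiv
    have h6 : Nat.card ↥((EE a b c).subgroupOf (KK L a b c)) = Nat.card ↥(EE a b c) := Nat.card_congr (Subgroup.subgroupOfEquivOfLe hEK).toEquiv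
    have h7 : Nat.card ↥(CC L a b c) = Nat.card (↥(CC L a b c) ⧸ (EE a b c).subgroupOf (CC L a b c)) * Nat.card ↥((EE a b c).subgroupOf (CC L a b c)) :=
      Subgroup.card_eq_card_quotient_mul_card_subgroup _
    have h8 : Nat.card ↥((EE a b c).subgroupOf (CC L a b c)) = Nat.card ↥(EE a b c) := Nat.card_congr (Subgroup.subgroupOfEquivOfLe hEC).toEquiv
    have hpos : 0 < Nat.card ↥(EE a b c) := Nat.card_pos
    rw [h8] at h7
    rw [h2, h3, h4, h5, h6] at h1
    rw [h7] at h1
    have h9 : Nat.card (↥(CC L a b c) ⧸ (EE a b c).subgroupOf (CC L a b c)) * Nat.card ↥(EE a b c) = (6 * Nat.card (PSU 6 F 2)) * Nat.card ↥(EE a b c) := by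
      rw [h1]
      ring
    exact Nat.eq_of_mul_eq_mul_right hpos h9
  haveI := hKn
  haveI := hEn
  have hZchar : ∀ x : ↥(CC L a b c), x ∈ (EE a b c).subgroupOf (CC L a b c) ↔ x ∈ (KK L a b c).subgroupOf (CC L a b c) ∧ ∀ y ∈ (KK L a b c).subgroupOf (CC L a b c), Commute x y := by
    intro x
    rw [Subgroup.mem_subgroupOf, Subgroup.mem_subgroupOf]
    constructor
    · intro hx
      refine ⟨hEK hx, fun y hy => ?_⟩
      rw [Subgroup.mem_subgroupOf] at hy
      exact Subtype.ext (hTc _ hx _ hy.2).eq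
    · rintro ⟨h1, h2⟩
      have h3 : (⟨x, h1⟩ : ↥(KK L a b c)) ∈ Subgroup.center ↥(KK L a b c) := by
        rw [Subgroup.mem_center_iff]
        intro g
        apply Subtype.ext
        have := h2 ⟨g, hleCC g.2⟩ (by rw [Subgroup.mem_subgroupOf]; exact g.2)
        exact (congrArg Subtype.val this.eq).symm
      exact (hcenter _).1 h3
  have hker : ∀ c₀ : ↥(CC L a b c), (∀ n ∈ (KK L a b c).subgroupOf (CC L a b c), c₀ * n * c₀⁻¹ * n⁻¹ ∈ (EE a b c).subgroupOf (CC L a b c)) → c₀ ∈ (EE a b c).subgroupOf (CC L a b c) := by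
    intro c₀ hc₀
    rw [hZchar]
    have hperf := hq'.1
    set N := (KK L a b c).subgroupOf (CC L a b c) with hN
    have hall : ∀ u : ↥N, Commute c₀ (u : ↥(CC L a b c)) := by
      have hW : commutator ↥N ≤ (Subgroup.centralizer ({c₀} : Set ↥(CC L a b c))).subgroupOf N := by
        rw [commutator_def, Subgroup.commutator_le]
        intro n₁ _ n₂ _
        rw [Subgroup.mem_subgroupOf, Subgroup.mem_centralizer_iff]
        intro w hw
        rw [Set.mem_singleton_iff] at hw
        rw [hw]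
        have hz1 := (hZchar _).1 (hc₀ n₁ n₁.2)
        have hz2 := (hZchar _).1 (hc₀ n₂ n₂.2)
        have e1' : c₀ * (n₁ : ↥(CC L a b c)) * c₀⁻¹ = (c₀ * (n₁ : ↥(CC L a b c)) * c₀⁻¹ * (n₁ : ↥(CC L a b c))⁻¹) * (n₁ : ↥(CC L a b c)) := by group
        have e2' : c₀ * (n₂ : ↥(CC L a b c)) * c₀⁻¹ = (c₀ * (n₂ : ↥(CC L a b c)) * c₀⁻¹ * (n₂ : ↥(CC L a b c))⁻¹) * (n₂ : ↥(CC L a b c)) := by group
        have h3 := comm_central (hz1.2 _ n₁.2) (hz1.2 _ n₂.2) (hz1.2 _ hz2.1) (hz2.2 _ n₁.2) (hz2.2 _ n₂.2)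
        rw [← e1', ← e2'] at h3
        have h4' : c₀ * ⁅(n₁ : ↥(CC L a b c)), (n₂ : ↥(CC L a b c))⁆ * c₀⁻¹ = ⁅c₀ * (n₁ : ↥(CC L a b c)) * c₀⁻¹, c₀ * (n₂ : ↥(CC L a b c)) * c₀⁻¹⁆ := by
          simp only [commutatorElement_def]
          group
        have h4 := h4'.trans h3
        have h5 : ((⁅n₁, n₂⁆ : ↥N) : ↥(CC L a b c)) = ⁅(n₁ : ↥(CC L a b c)), (n₂ : ↥(CC L a b c))⁆ := rfl
        rw [h5]
        calc c₀ * ⁅(n₁ : ↥(CC L a b c)), (n₂ : ↥(CC L a b c))⁆ = c₀ * ⁅(n₁ : ↥(CC L a b c)), (n₂ : ↥(CC L a b c))⁆ * c₀⁻¹ * c₀ := by group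
          _ = _ := by rw [h4]
      rw [Group.isPerfect_def.1 hperf] at hW
      intro u
      have h1 : u ∈ (Subgroup.centralizer ({c₀} : Set ↥(CC L a b c))).subgroupOf N := hW (Subgroup.mem_top u)
      rw [Subgroup.mem_subgroupOf, Subgroup.mem_centralizer_iff] at h1
      exact h1 c₀ rfl
    exact ⟨hCK c₀ fun t ht => hall ⟨t, ht⟩, fun t ht => hall ⟨t, ht⟩⟩
  let eN : ↥((KK L a b c).subgroupOf (CC L a b c)) ⧸ Subgroup.center ↥((KK L a b c).subgroupOf (CC L a b c)) ≃* PSU 6 F 2 :=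
    (quotientCenterEquiv (Subgroup.subgroupOfEquivOfLe hleCC)).trans ((quotientCenterEquiv ρ).trans eb)
  obtain ⟨e3⟩ := quot_aut ((KK L a b c).subgroupOf (CC L a b c)) eN ((EE a b c).subgroupOf (CC L a b c)) hZchar hker (by rw [hcAut, hcQ])
  refine ⟨hq, hcenter2, ?_, ⟨inferInstance, F, iF, fF, hF, ⟨e1⟩⟩, hKn, ⟨e2⟩, hEC, hEn, F, iF, fF, hF, ⟨e3⟩⟩
  rw [hCE]

end main

end Cfsg.Agent.Lib.ThreeT.M24e
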