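import Mathlib

/-!
# Graphs of girth five and diameter two, by a determinant

A finite `k`-regular graph in which adjacent vertices have no common neighbour and different
non-adjacent vertices have exactly one has `k ^ 2 + 1` vertices; when `k` is odd, `4 k - 3` is a
square.  This is the classical restriction on Moore graphs of diameter two: for `B = 2 A + I`,
`B² = (4 k - 3) I + 4 J`, whose determinant is `(4 k - 3) ^ (k²) (2 k + 1)²`.
-/

set_option autoImplicit false
set_option linter.unusedSectionVars false

namespace Cfsg.Agent.Lib.ThreeT.MooreK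

open Matrix Finset

section Det

variable {V : Type*} [Fintype V] [DecidableEq V]

/-- The all-one matrix. -/
def allOne (V : Type*) : Matrix V V ℚ := Matrix.of fun _ _ => 1

theorem det_smul_add (c d : ℚ) (hc : c ≠ 0) :
    ((c • (1 : Matrix V V ℚ) + d • allOne V)).det
      = c ^ Fintype.card V * (1 + Fintype.card V * (d / c)) := by
  have e : c • (1 : Matrix V V ℚ) + d • allOne V
      = c • (1 + replicateCol Unit (fun _ : V => d / c) * replicateRow Unit (fun _ : V => (1 : ℚ))) := by
    ext i j
    simp only [Matrix.add_apply, Matrix.smul_apply, smul_eq_mul, allOne, Matrix.of_apply,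
      Matrix.mul_apply, replicateCol_apply, replicateRow_apply, Finset.univ_unique, Finset.sum_singleton]
    field_simp
  rw [e, Matrix.det_smul, det_one_add_replicateCol_mul_replicateRow]
  congr 1
  simp [dotProduct]

end Det

section Graph

variable {V : Type*} [Fintype V] [DecidableEq V] (adj : V → V → Prop) [DecidableRel adj]

/-- The adjacency matrix. -/
def adjM : Matrix V V ℚ := Matrix.of fun i j => if adj i j then 1 else 0

variable (hsymm : ∀ u v, adj u v → adj v u) (hirr : ∀ u, ¬ adj u u)
  (k : ℕ) (hk : ∀ u, (Finset.univ.filter (adj u)).card = k)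
  (htri : ∀ u v, adj u v → ∀ w, ¬ (adj u w ∧ adj v w))
  (hone : ∀ u v, u ≠ v → ¬ adj u v → (Finset.univ.filter (fun w => adj u w ∧ adj v w)).card = 1)

include hsymm in
theorem adjM_sq_apply (i j : V) :
    (adjM adj * adjM adj) i j = (Finset.univ.filter (fun w => adj i w ∧ adj j w)).card := by
  rw [Matrix.mul_apply, Finset.card_filter]
  push_cast
  refine Finset.sum_congr rfl fun w _ => ?_
  simp only [adjM, Matrix.of_apply]
  have e : adj w j ↔ adj j w := ⟨hsymm _ _, hsymm _ _⟩
  by_cases h1 : adj i w <;> by_cases h2 : adj j w <;> simp [h1, h2, e]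

include hsymm hirr hk htri hone in
theorem adjM_identity :
    adjM adj * adjM adj + adjM adj = ((k : ℚ) - 1) • (1 : Matrix V V ℚ) + allOne V := by
  ext i j
  simp only [Matrix.add_apply, Matrix.smul_apply, smul_eq_mul, allOne, Matrix.of_apply]
  rw [adjM_sq_apply adj hsymm]
  by_cases hij : i = j
  · subst hij
    have : (Finset.univ.filter (fun w => adj i w ∧ adj i w)).card = k := by
      rw [← hk i]; congr 1; ext w; simp
    rw [this]
    simp [adjM, hirr i]
  · rw [Matrix.one_apply_ne hij]
    by_cases ha : adj i j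
    · have : (Finset.univ.filter (fun w => adj i w ∧ adj j w)).card = 0 := by
        rw [Finset.card_eq_zero, Finset.filter_eq_empty_iff]
        intro w _
        exact htri i j ha w
      rw [this]
      simp [adjM, ha]
    · rw [hone i j hij ha]
      simp [adjM, ha]

include hk in
theorem row_sum (i : V) : ∑ j, adjM adj i j = k := by
  simp only [adjM, Matrix.of_apply]
  rw [Finset.sum_boole, hk]

include hsymm hirr hk htri hone in
/-- The number of vertices. -/
theorem card_eq [Nonempty V] : Fintype.card V = k ^ 2 + 1 := by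
  · obtain ⟨i⟩ := (inferInstance : Nonempty V)
    have h := adjM_identity adj hsymm hirr k hk htri hone
    have hsum := congrArg (fun M : Matrix V V ℚ => ∑ j, M i j) h
    simp only [Matrix.add_apply, Matrix.smul_apply, smul_eq_mul, allOne, Matrix.of_apply] at hsum
    rw [Finset.sum_add_distrib, Finset.sum_add_distrib, row_sum adj k hk] at hsum
    have h1 : ∑ j, (adjM adj * adjM adj) i j = (k : ℚ) ^ 2 := by
      simp only [Matrix.mul_apply]
      rw [Finset.sum_comm]
      have : ∀ w, ∑ j, adjM adj i w * adjM adj w j = adjM adj i w * k := by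
        intro w
        rw [← Finset.mul_sum, row_sum adj k hk]
      simp only [this]
      rw [← Finset.sum_mul, row_sum adj k hk]
      ring
    rw [h1] at hsum
    have h2 : ∑ j, ((k : ℚ) - 1) * (1 : Matrix V V ℚ) i j = (k : ℚ) - 1 := by
      rw [← Finset.mul_sum]
      simp [Matrix.one_apply]
    rw [h2] at hsum
    simp only [Finset.sum_const, Finset.card_univ, nsmul_eq_mul, mul_one] at hsum
    have : (Fintype.card V : ℚ) = ((k ^ 2 + 1 : ℕ) : ℚ) := by
      push_cast
      linarith
    exact_mod_cast this

include hsymm hirr hk htri hone in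
/-- The restriction on the valency: when `k` is odd then `4 k - 3` is a perfect square. -/
theorem isSquare_of_odd [Nonempty V] (hodd : Odd k) : IsSquare (4 * k - 3 : ℕ) := by
  have hk1 : 1 ≤ k := hodd.pos
  have hcard := card_eq adj hsymm hirr k hk htri hone
  have hid := adjM_identity adj hsymm hirr k hk htri hone
  set A := adjM adj with hA
  set c : ℚ := 4 * (k : ℚ) - 3 with hc
  have hck : ((4 * k - 3 : ℕ) : ℚ) = c := by
    rw [Nat.cast_sub (by omega)]
    push_cast
    rfl
  have hcpos : c ≠ 0 := by
    have : (1 : ℚ) ≤ k := by exact_mod_cast hk1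
    rw [hc]
    intro h0
    linarith
  set B : Matrix V V ℚ := (2 : ℚ) • A + 1 with hB
  have hBB : B * B = c • (1 : Matrix V V ℚ) + (4 : ℚ) • allOne V := by
    have h1 : B * B = (4 : ℚ) • (A * A + A) + 1 := by
      rw [hB]
      simp only [Matrix.add_mul, Matrix.mul_add, Matrix.smul_mul, Matrix.mul_smul, smul_add, smul_smul,
        Matrix.one_mul, Matrix.mul_one]
      ext i j
      simp only [Matrix.add_apply, Matrix.smul_apply, smul_eq_mul]
      ring
    rw [h1, hid, hc]
    ext i j
    simp only [Matrix.add_apply, Matrix.smul_apply, smul_eq_mul]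
    ring
  have hdet : B.det * B.det = c ^ (k ^ 2) * (2 * (k : ℚ) + 1) ^ 2 := by
    rw [← Matrix.det_mul, hBB, det_smul_add c 4 hcpos, hcard]
    push_cast
    rw [pow_succ]
    field_simp
    rw [hc]
    ring
  obtain ⟨j, hj⟩ : Odd (k ^ 2) := hodd.pow
  rw [hj, pow_succ, pow_mul] at hdet
  have h21 : (2 * (k : ℚ) + 1) ≠ 0 := by positivity
  have hq : ((c ^ j) * (2 * (k : ℚ) + 1)) ≠ 0 := mul_ne_zero (pow_ne_zero _ hcpos) h21
  rw [← Rat.isSquare_natCast_iff, hck]
  refine ⟨B.det / ((c ^ j) * (2 * (k : ℚ) + 1)), ?_⟩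
  field_simp
  rw [sq (B.det), hdet]
  ring_nf

end Graph

/-- The instance we need: a graph as above whose valency is a power of three greater than one has
valency three and ten vertices. -/
theorem valency_three {V : Type*} [Fintype V] [DecidableEq V] [Nonempty V] (adj : V → V → Prop)
    [DecidableRel adj] (hsymm : ∀ u v, adj u v → adj v u) (hirr : ∀ u, ¬ adj u u)
    (k : ℕ) (hk : ∀ u, (Finset.univ.filter (adj u)).card = k)
    (htri : ∀ u v, adj u v → ∀ w, ¬ (adj u w ∧ adj v w))
    (hone : ∀ u v, u ≠ v → ¬ adj u v → (Finset.univ.filter (fun w => adj u w ∧ adj v w)).card = 1)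
    (m : ℕ) (hm : k = 3 ^ m) (hk2 : 2 ≤ k) : k = 3 ∧ Fintype.card V = 10 := by
  have hm0 : m ≠ 0 := by
    rintro rfl
    simp at hm
    omega
  have hodd : Odd k := by rw [hm]; exact Odd.pow (by decide)
  have hsq := isSquare_of_odd adj hsymm hirr k hk htri hone hodd
  have hk3 : k = 3 := by
    obtain ⟨n, rfl⟩ : ∃ n, m = n + 1 := ⟨m - 1, by omega⟩
    by_cases hn : n = 0
    · subst hn
      simpa using hm
    · exfalso
      obtain ⟨r, rfl⟩ : ∃ r, n = r + 1 := ⟨n - 1, by omega⟩
      obtain ⟨s, hs⟩ := hsq
      have e1 : 4 * k - 3 = 3 * (4 * 3 ^ (r + 1) - 1) := by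
        have : 1 ≤ 3 ^ (r + 1) := Nat.one_le_pow _ _ (by norm_num)
        rw [hm, pow_succ 3 (r + 1)]
        omega
      have h3s : 3 ∣ s * s := by
        rw [← hs, e1]
        exact dvd_mul_right _ _
      have h3 : 3 ∣ s := by
        rcases (Nat.Prime.dvd_mul Nat.prime_three).1 h3s with h | h <;> exact h
      obtain ⟨t, rfl⟩ := h3
      have e2 : 4 * 3 ^ (r + 1) - 1 = 3 * (t * t) := by
        have : 3 * (4 * 3 ^ (r + 1) - 1) = 3 * (3 * (t * t)) := by
          rw [← e1, hs]; ring
        omega
      have h5 : 1 ≤ 3 ^ r := Nat.one_le_pow _ _ (by norm_num)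
      have e3 : 3 ^ (r + 1) = 3 * 3 ^ r := by rw [pow_succ]; ring
      omega
  refine ⟨hk3, ?_⟩
  rw [card_eq adj hsymm hirr k hk htri hone, hk3]
  norm_num

end Cfsg.Agent.Lib.ThreeT.MooreK
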