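import Cfsg.Agent.Lib.ThreeT.Fiber

/-!
# `C_D(d) = V_d` with two points: `G ≅ S₄`
-/

set_option autoImplicit false
set_option linter.unusedSectionVars false
set_option linter.unusedVariables false

namespace Cfsg.Agent.Lib.ThreeT.Perp2

open Cfsg Cfsg.Agent.Lib.ThreeT.Basic Cfsg.Agent.Lib.ThreeT.Class Cfsg.Agent.Lib.ThreeT.Fiber
open Equiv

theorem hts_key {X : Type*} [Cfsg.Agent.Lib.ThreeT.Hts.Sys X] (a b c : X) :
    (c * (b * (a * c))) * (c * (a * b)) = b := by
  grind [Cfsg.Agent.Lib.ThreeT.Hts.Sys.comm, Cfsg.Agent.Lib.ThreeT.Hts.Sys.idem,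
    Cfsg.Agent.Lib.ThreeT.Hts.Sys.invol, Cfsg.Agent.Lib.ThreeT.Hts.Sys.dist]

theorem hts_cancel {X : Type*} [Cfsg.Agent.Lib.ThreeT.Hts.Sys X] {a b c : X}
    (h : b * (a * c) = c * (a * b)) : b = c := by
  have h1 := hts_key a b c
  rw [← h] at h1
  rw [← h1]
  rw [Cfsg.Agent.Lib.ThreeT.Hts.Sys.comm _ (b * (a * c)), Cfsg.Agent.Lib.ThreeT.Hts.Sys.comm c,
    Cfsg.Agent.Lib.ThreeT.Hts.Sys.invol]

variable {G : Type*} [Group G] [Finite G] {D : Set G}

/-- In `G/O₂(G)`, width one gives: if `b a c a b` and `c a b a c` have the same image then so do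
`b` and `c`. -/
theorem image_cancel (hD : IsThreeTranspositionClass D) {d : G} (hd : d ∈ D)
    (hV : {y : G | y ∈ D ∧ Commute d y} = {v : G | v ∈ D ∧ ∀ e ∈ D, Commute v e ↔ Commute d e})
    (hD2 : ∃ a ∈ D, ∃ b ∈ D, a ≠ b)
    {a b c : G} (ha : a ∈ D) (hb : b ∈ D) (hc : c ∈ D)
    (h : b * (a * c * a) * b * (c * (a * b * a) * c)⁻¹ ∈ Cfsg.pCore 2 G) :
    c⁻¹ * b ∈ Cfsg.pCore 2 G := by
  let π := QuotientGroup.mk' (Cfsg.pCore 2 G)
  obtain ⟨hD', hD2'⟩ := image_class isPGroup_pCore_two hD hD2
  have hG' := isGroup_of_isClass hD'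
  have hno := no_commuting_image hD hd hV
  have hW := Cfsg.Agent.Lib.ThreeT.Width.widthOne_of_no_commuting hG'.1 hG'.2.1 hno
  letI := hW.sys
  let A : (π '' D) := ⟨π a, a, ha, rfl⟩
  let B : (π '' D) := ⟨π b, b, hb, rfl⟩
  let C : (π '' D) := ⟨π c, c, hc, rfl⟩
  have h1 : π (b * (a * c * a) * b * (c * (a * b * a) * c)⁻¹) = 1 := (QuotientGroup.eq_one_iff _).2 h
  have h2 : B * (A * C) = C * (A * B) := by
    apply Subtype.ext
    show π b * (π a * π c * π a) * π b = π c * (π a * π b * π a) * π c
    have h3 := mul_inv_eq_one.1 (by simpa only [map_mul, map_inv] using h1 :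
      (π b * (π a * π c * π a) * π b) * (π c * (π a * π b * π a) * π c)⁻¹ = 1)
    exact h3
  have h4 := hts_cancel h2
  have h5 : π b = π c := congrArg Subtype.val h4
  have h6 : π (c⁻¹ * b) = 1 := by
    rw [map_mul, map_inv, h5, inv_mul_cancel]
  exact (QuotientGroup.eq_one_iff _).1 h6

section Main

omit [Finite G] in
theorem conj_mul_aux {w a b : G} (h : w * w = 1) : w * (a * b) = (w * a * w) * (w * b * w) * w := by
  calc w * (a * b) = w * a * 1 * b * 1 := by group
    _ = w * a * (w * w) * b * (w * w) := by rw [h]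
    _ = (w * a * w) * (w * b * w) * w := by group

omit [Finite G] in
theorem conj_comm_inv {a x y : G} (haa : a * a = 1) (h : x * y = y * x) :
    (a * x * a) * (a * y * a) = (a * y * a) * (a * x * a) := by
  calc (a * x * a) * (a * y * a) = a * x * (a * a) * y * a := by group
    _ = a * (x * y) * a := by rw [haa]; group
    _ = a * (y * x) * a := by rw [h]
    _ = a * y * (a * a) * x * a := by rw [haa]; group
    _ = (a * y * a) * (a * x * a) := by group

theorem main (hD : IsThreeTranspositionClass D) (hD2 : ∃ a ∈ D, ∃ b ∈ D, a ≠ b) {d : G} (hd : d ∈ D)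
    (hV : {y : G | y ∈ D ∧ Commute d y} = {v : G | v ∈ D ∧ ∀ e ∈ D, Commute v e ↔ Commute d e})
    (hm : {y : G | y ∈ D ∧ Commute d y}.ncard = 2) : Nonempty (G ≃* Perm (Fin 4)) := by
  classical
  have hG := isGroup_of_isClass hD
  have hS := hD.1
  have hcj := hG.2.1
  -- the partner of `d`
  obtain ⟨v₀, hv₀, hv₀ne, hv₀c, hv₀all, hv₀rel⟩ : ∃ v, v ∈ D ∧ v ≠ d ∧ Commute d v ∧
      (∀ y ∈ D, Commute d y → y = d ∨ y = v) ∧ (∀ e ∈ D, Commute v e ↔ Commute d e) := by
    rw [Set.ncard_eq_two] at hm
    obtain ⟨x, y, hxy, hset⟩ := hm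
    have hdm : d ∈ {y : G | y ∈ D ∧ Commute d y} := ⟨hd, Commute.refl d⟩
    have hall : ∀ w, (w ∈ D ∧ Commute d w) ↔ (w = x ∨ w = y) := by
      intro w
      have : w ∈ {y : G | y ∈ D ∧ Commute d y} ↔ w ∈ ({x, y} : Set G) := by rw [hset]
      simpa using this
    have hrel : ∀ w, w ∈ D → Commute d w → ∀ e ∈ D, Commute w e ↔ Commute d e := by
      intro w hw hc
      have : w ∈ {v : G | v ∈ D ∧ ∀ e ∈ D, Commute v e ↔ Commute d e} := by
        rw [← hV]; exact ⟨hw, hc⟩
      exact this.2
    rcases (hall d).1 ⟨hd, Commute.refl d⟩ with rfl | rfl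
    · obtain ⟨h1, h2⟩ := (hall y).2 (Or.inr rfl)
      refine ⟨y, h1, hxy.symm, h2, ?_, hrel y h1 h2⟩
      intro w hw hc
      exact (hall w).1 ⟨hw, hc⟩
    · obtain ⟨h1, h2⟩ := (hall x).2 (Or.inl rfl)
      refine ⟨x, h1, hxy, h2, ?_, hrel x h1 h2⟩
      intro w hw hc
      rcases (hall w).1 ⟨hw, hc⟩ with h | h
      · exact Or.inr h
      · exact Or.inl h
  -- partners exist for all
  have hpex : ∀ e : G, ∃ e', e ∈ D → (e' ∈ D ∧ e' ≠ e ∧ Commute e e' ∧
      (∀ y ∈ D, Commute e y → y = e ∨ y = e') ∧ (∀ f ∈ D, Commute e' f ↔ Commute e f)) := by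
    intro e
    by_cases he : e ∈ D
    · obtain ⟨g, rfl⟩ := exists_conj_of_isClass hD hd he
      have key : ∀ x y : G, Commute (g * x * g⁻¹) (g * y * g⁻¹) ↔ Commute x y := by
        intro x y
        constructor
        · intro h
          have h' : g * x * g⁻¹ * (g * y * g⁻¹) = g * y * g⁻¹ * (g * x * g⁻¹) := h
          show x * y = y * x
          calc x * y = g⁻¹ * (g * x * g⁻¹ * (g * y * g⁻¹)) * g := by group
            _ = g⁻¹ * (g * y * g⁻¹ * (g * x * g⁻¹)) * g := by rw [h']
            _ = y * x := by group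
        · intro h
          have h' : x * y = y * x := h
          show g * x * g⁻¹ * (g * y * g⁻¹) = g * y * g⁻¹ * (g * x * g⁻¹)
          calc g * x * g⁻¹ * (g * y * g⁻¹) = g * (x * y) * g⁻¹ := by group
            _ = g * (y * x) * g⁻¹ := by rw [h']
            _ = g * y * g⁻¹ * (g * x * g⁻¹) := by group
      have hback : ∀ y : G, y = g * (g⁻¹ * y * g⁻¹⁻¹) * g⁻¹ := by intro y; group
      refine ⟨g * v₀ * g⁻¹, fun _ => ⟨hcj g v₀ hv₀, ?_, (key _ _).2 hv₀c, ?_, ?_⟩⟩
      · intro h
        apply hv₀ne
        simpa using h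
      · intro y hy hc
        have hy' := hcj g⁻¹ y hy
        rw [hback y] at hc
        rcases hv₀all _ hy' ((key _ _).1 hc) with h | h
        · left
          rw [hback y, h]
        · right
          rw [hback y, h]
      · intro f hf
        have hf' := hcj g⁻¹ f hf
        rw [hback f, key, key]
        exact hv₀rel _ hf'
    · exact ⟨1, fun h => absurd h he⟩
  choose p hp using hpex
  have hpD : ∀ e ∈ D, p e ∈ D := fun e he => (hp e he).1
  have hpne : ∀ e ∈ D, p e ≠ e := fun e he => (hp e he).2.1
  have hpc : ∀ e ∈ D, Commute e (p e) := fun e he => (hp e he).2.2.1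
  have hpall : ∀ e ∈ D, ∀ y ∈ D, Commute e y → y = e ∨ y = p e := fun e he => (hp e he).2.2.2.1
  have hprel : ∀ e ∈ D, ∀ f ∈ D, Commute (p e) f ↔ Commute e f := fun e he => (hp e he).2.2.2.2
  have hinv : ∀ e ∈ D, e * e = 1 := fun e he => mul_self_of_mem hS he
  -- `p (p e) = e`
  have hpp : ∀ e ∈ D, p (p e) = e := by
    intro e he
    rcases hpall (p e) (hpD e he) e he (hpc e he).symm with h | h
    · exact absurd h.symm (hpne e he)
    · exact h.symm
  -- the product
  let q : G → G := fun e => e * p e
  have hqq : ∀ e ∈ D, q e * q e = 1 := by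
    intro e he
    show e * p e * (e * p e) = 1
    calc e * p e * (e * p e) = e * (p e * e) * p e := by group
      _ = e * (e * p e) * p e := by rw [(hpc e he).symm.eq]
      _ = (e * e) * (p e * p e) := by group
      _ = 1 := by rw [hinv e he, hinv _ (hpD e he), one_mul]
  have hqi : ∀ e ∈ D, (q e)⁻¹ = q e := fun e he => inv_eq_of_mul_eq_one_left (hqq e he)
  -- `p y = q x y q x`
  have hpy : ∀ x ∈ D, ∀ y ∈ D, ¬ Commute x y → q x * y * q x = p y := by
    intro x hx y hy hxy
    have hyx' : ¬ Commute y (p x) := by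
      intro h
      exact hxy ((hprel x hx y hy).1 h.symm)
    have hne : x ≠ p x := (hpne x hx).symm
    obtain ⟨φ, hφ, h0, h1, h2⟩ := Cfsg.Agent.Lib.ThreeT.S4.exists_injective_hom hS hx hy (hpD x hx) hne
      (hpc x hx) hxy hyx'
    have ht : q x * y * q x ∈ D := by
      have := hcj (q x) y hy
      rwa [hqi x hx] at this
    have hqe : q x = φ (swap 0 1 * swap 2 3) := by
      rw [map_mul, h0, h2]
    have hc1 : Commute y (q x * y * q x) := by
      have e : (swap (1 : Fin 4) 2) * ((swap 0 1 * swap 2 3) * swap 1 2 * (swap 0 1 * swap 2 3)) =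
          ((swap 0 1 * swap 2 3) * swap 1 2 * (swap 0 1 * swap 2 3)) * swap 1 2 := by decide
      have := congrArg φ e
      simp only [map_mul] at this
      rw [h0, h1, h2] at this
      show y * (q x * y * q x) = q x * y * q x * y
      show y * (x * p x * y * (x * p x)) = x * p x * y * (x * p x) * y
      exact this
    have hne2 : q x * y * q x ≠ y := by
      intro h
      rw [hqe, ← h1, ← map_mul, ← map_mul] at h
      have h3 := hφ h
      revert h3
      decide
    rcases hpall y hy _ ht hc1 with h | h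
    · exact absurd h hne2
    · exact h
  -- the relation `q(y x y) q x = q y`
  have hpconj : ∀ x ∈ D, ∀ y ∈ D, p (y * x * y) = y * p x * y := by
    intro x hx y hy
    have hyi := inv_of_mem hS hy
    have h1 : y * x * y ∈ D := by
      have := hcj y x hx
      rwa [hyi] at this
    have h2 : y * p x * y ∈ D := by
      have := hcj y (p x) (hpD x hx)
      rwa [hyi] at this
    have hc : Commute (y * x * y) (y * p x * y) := by
      show y * x * y * (y * p x * y) = y * p x * y * (y * x * y)
      have hyy := hinv y hy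
      calc y * x * y * (y * p x * y) = y * x * (y * y) * p x * y := by group
        _ = y * (x * p x) * y := by rw [hyy]; group
        _ = y * (p x * x) * y := by rw [(hpc x hx).eq]
        _ = y * p x * (y * y) * x * y := by rw [hyy]; group
        _ = y * p x * y * (y * x * y) := by group
    rcases hpall _ h1 _ h2 hc with h | h
    · exfalso
      apply hpne x hx
      have hyy := hinv y hy
      calc p x = (y * y) * p x * (y * y) := by rw [hyy]; group
        _ = y * (y * p x * y) * y := by group
        _ = y * (y * x * y) * y := by rw [h]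
        _ = (y * y) * x * (y * y) := by group
        _ = x := by rw [hyy]; group
    · exact h.symm
  have hqrel : ∀ x ∈ D, ∀ y ∈ D, ¬ Commute x y → q (y * x * y) = q y * q x := by
    intro x hx y hy hxy
    show y * x * y * p (y * x * y) = y * p y * (x * p x)
    rw [hpconj x hx y hy, ← hpy x hx y hy hxy]
    have hyy := hinv y hy
    have hqx := hqq x hx
    show y * x * y * (y * p x * y) = y * (x * p x * y * (x * p x)) * (x * p x)
    calc y * x * y * (y * p x * y) = y * x * (y * y) * p x * y := by group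
      _ = y * (x * p x) * y := by rw [hyy]; group
      _ = y * (x * p x) * y * ((x * p x) * (x * p x)) := by
          have : (x * p x) * (x * p x) = 1 := hqx
          rw [this]; group
      _ = y * (x * p x * y * (x * p x)) * (x * p x) := by group
  have hqcomm : ∀ x ∈ D, ∀ y ∈ D, Commute (q x) (q y) := by
    intro x hx y hy
    by_cases hxy : Commute x y
    · rcases hpall x hx y hy hxy with rfl | rfl
      · exact Commute.refl _
      · have : q (p x) = q x := by
          show p x * p (p x) = x * p x
          rw [hpp x hx]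
          exact (hpc x hx).symm.eq
        rw [this]
    · -- conjugation by `q x` swaps `y` and `p y`
      have h1 := hpy x hx y hy hxy
      have h2 : q x * p y * q x = y := by
        rw [← h1]
        have hqx := hqq x hx
        calc q x * (q x * y * q x) * q x = (q x * q x) * y * (q x * q x) := by group
          _ = y := by rw [hqx]; group
      show q x * (y * p y) = y * p y * q x
      have hqx := hqq x hx
      calc q x * (y * p y) = (q x * y * q x) * (q x * p y * q x) * q x := conj_mul_aux hqx
        _ = p y * y * q x := by rw [h1, h2]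
        _ = y * p y * q x := by rw [(hpc y hy).symm.eq]
  -- injectivity
  have hqinj : ∀ x ∈ D, ∀ y ∈ D, q x = q y → Commute x y := by
    intro x hx y hy hxy
    by_contra hnc
    have h1 := hqrel x hx y hy hnc
    rw [← hxy, hqq x hx] at h1
    have h2 : y * x * y ∈ D := by
      have := hcj y x hx
      rwa [inv_of_mem hS hy] at this
    have h3 : y * x * y * p (y * x * y) = 1 := h1
    have h4 : p (y * x * y) = (y * x * y)⁻¹ := eq_inv_of_mul_eq_one_right h3
    rw [inv_of_mem hS h2] at h4
    exact hpne _ h2 h4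
  -- the main contradiction
  have hmain : ∀ a ∈ D, ∀ b ∈ D, ∀ c ∈ D, ¬ Commute a b → ¬ Commute a c → ¬ Commute b c →
      ¬ Commute (a * b * a) c → False := by
    intro a ha b hb c hc hab hac hbc habc
    have haa := hinv a ha
    have hai := inv_of_mem hS ha
    have hbb := hinv b hb
    have hcc := hinv c hc
    have hcac : a * c * a ∈ D := by
      have := hcj a c hc
      rwa [hai] at this
    have hbab : a * b * a ∈ D := by
      have := hcj a b hb
      rwa [hai] at this
    have hq1 : q (a * c * a) = q a * q c := hqrel c hc a ha (fun h => hac h.symm)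
    have hq2 : q (a * b * a) = q a * q b := hqrel b hb a ha (fun h => hab h.symm)
    have hnc1 : ¬ Commute (a * c * a) b := by
      intro h
      apply habc
      have h1 : a * c * a * b = b * (a * c * a) := h
      have key : a * (a * c * a) * a = c := by
        calc a * (a * c * a) * a = (a * a) * c * (a * a) := by group
          _ = c := by rw [haa]; group
      have h2 := conj_comm_inv haa h1
      rw [key] at h2
      exact h2.symm
    have hq3 : q (b * (a * c * a) * b) = q b * (q a * q c) := by
      rw [hqrel _ hcac b hb hnc1, hq1]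
    have hq4 : q (c * (a * b * a) * c) = q c * (q a * q b) := by
      rw [hqrel _ hbab c hc habc, hq2]
    have hr : b * (a * c * a) * b ∈ D := by
      have := hcj b _ hcac
      rwa [inv_of_mem hS hb] at this
    have hs : c * (a * b * a) * c ∈ D := by
      have := hcj c _ hbab
      rwa [inv_of_mem hS hc] at this
    have heq : q (b * (a * c * a) * b) = q (c * (a * b * a) * c) := by
      rw [hq3, hq4]
      have h1 := (hqcomm b hb c hc).eq
      have h2 := (hqcomm a ha c hc).eq
      have h3 := (hqcomm a ha b hb).eq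
      calc q b * (q a * q c) = q b * (q c * q a) := by rw [h2]
        _ = (q b * q c) * q a := by group
        _ = (q c * q b) * q a := by rw [h1]
        _ = q c * (q b * q a) := by group
        _ = q c * (q a * q b) := by rw [h3]
    have hrs := hqinj _ hr _ hs heq
    have hO : (b * (a * c * a) * b)⁻¹ * (c * (a * b * a) * c) ∈ Cfsg.pCore 2 G :=
      mul_mem_pCore_of_hV hD hd hV hr hs hrs
    have hO2 : b * (a * c * a) * b * (c * (a * b * a) * c)⁻¹ ∈ Cfsg.pCore 2 G := by
      rw [inv_of_mem hS hs]
      rw [inv_of_mem hS hr] at hO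
      exact hO
    have hcb := image_cancel hD hd hV hD2 ha hb hc hO2
    have hrel := (rel_iff_mul_mem_pCore hS hcj hc hb).2 hcb
    exact hbc (hrel.commute hc)
  -- the subgroup
  obtain ⟨y, hy, hdy⟩ := exists_not_commute hD hD2 hd
  have hyv : ¬ Commute y (p d) := fun h => hdy ((hprel d hd y hy).1 h.symm)
  obtain ⟨φ, hφ, h0, h1, h2⟩ := Cfsg.Agent.Lib.ThreeT.S4.exists_injective_hom hS hd hy (hpD d hd)
    (hpne d hd).symm (hpc d hd) hdy hyv
  have hdR : d ∈ φ.range := ⟨_, h0⟩
  have hyR : y ∈ φ.range := ⟨_, h1⟩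
  have hvR : p d ∈ φ.range := ⟨_, h2⟩
  have hsurj : φ.range = ⊤ := by
    rw [eq_top_iff, ← hD.2.2, Subgroup.closure_le]
    intro c hc
    by_contra hcR
    have hcR' : c ∉ φ.range := hcR
    have hq : q d ∈ φ.range := φ.range.mul_mem hdR hvR
    have hpy' : p y ∈ φ.range := by
      rw [← hpy d hd y hy hdy]
      exact φ.range.mul_mem (φ.range.mul_mem hq hyR) hq
    have h1' : ¬ Commute d c := by
      intro h
      rcases hpall d hd c hc h with rfl | rfl
      · exact hcR' hdR
      · exact hcR' hvR
    have h2' : ¬ Commute y c := by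
      intro h
      rcases hpall y hy c hc h with rfl | rfl
      · exact hcR' hyR
      · exact hcR' hpy'
    have h3' : ¬ Commute (d * y * d) c := by
      intro h
      have hm1 : d * y * d ∈ D := by
        have := hcj d y hy
        rwa [inv_of_mem hS hd] at this
      rcases hpall _ hm1 c hc h with rfl | rfl
      · exact hcR' (φ.range.mul_mem (φ.range.mul_mem hdR hyR) hdR)
      · rw [hpconj y hy d hd] at hcR'
        exact hcR' (φ.range.mul_mem (φ.range.mul_mem hdR hpy') hdR)
    exact hmain d hd y hy c hc hdy h1' h2' h3'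
  have hsurj' : Function.Surjective φ := MonoidHom.range_eq_top.1 hsurj
  exact ⟨(MulEquiv.ofBijective φ ⟨hφ, hsurj'⟩).symm⟩

end Main

end Cfsg.Agent.Lib.ThreeT.Perp2
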