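import Mathlib
import Cfsg.Agent.Lib.Core.Basic
import Cfsg.Prelude.Def_Local

/-!
# `O₂(SL_n(2)) = 1`

A normal `2`-subgroup of `SL_n(2)` (`n ≥ 2`) fixes a non-zero vector, and the fixed vectors are
stable under transvections.
-/

set_option autoImplicit false

namespace Cfsg.Agent.Lib.ThreeT.SLCore

open Matrix

variable {n : ℕ}

/-- Action of the special linear group on the coordinate space. -/
lemma transv_mulVec (i j : Fin n) (hij : i ≠ j) (v : Fin n → ZMod 2) :
    transvection i j (1 : ZMod 2) *ᵥ v = v + Pi.single i (v j) := by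
  rw [transvection, Matrix.add_mulVec, Matrix.one_mulVec, Matrix.single_mulVec]
  simp only [one_mul]
  rfl

lemma zmod2_eq_one : ∀ a : ZMod 2, a ≠ 0 → a = 1 := by decide

theorem eq_bot_of_normal_of_isPGroup (hn : 2 ≤ n) (P : Subgroup (SpecialLinearGroup (Fin n) (ZMod 2)))
    (hN : P.Normal) (hP : IsPGroup 2 P) : P = ⊥ := by
  classical
  have : Fact (Nat.Prime 2) := ⟨Nat.prime_two⟩
  letI : MulAction P (Fin n → ZMod 2) :=
    { smul := fun g v => ((g : SpecialLinearGroup (Fin n) (ZMod 2)) : Matrix (Fin n) (Fin n) (ZMod 2)) *ᵥ v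
      one_smul := fun v => by
        show ((1 : SpecialLinearGroup (Fin n) (ZMod 2)) : Matrix (Fin n) (Fin n) (ZMod 2)) *ᵥ v = v
        simp
      mul_smul := fun g h v => by
        show (((g * h : P) : SpecialLinearGroup (Fin n) (ZMod 2)) : Matrix (Fin n) (Fin n) (ZMod 2)) *ᵥ v =
          ((g : SpecialLinearGroup (Fin n) (ZMod 2)) : Matrix (Fin n) (Fin n) (ZMod 2)) *ᵥ
            (((h : SpecialLinearGroup (Fin n) (ZMod 2)) : Matrix (Fin n) (Fin n) (ZMod 2)) *ᵥ v)
        simp [Matrix.mulVec_mulVec] }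
  have hsmul : ∀ (g : P) (v : Fin n → ZMod 2),
      g • v = ((g : SpecialLinearGroup (Fin n) (ZMod 2)) : Matrix (Fin n) (Fin n) (ZMod 2)) *ᵥ v :=
    fun _ _ => rfl
  have hmod := hP.card_modEq_card_fixedPoints (Fin n → ZMod 2)
  have hcardV : Nat.card (Fin n → ZMod 2) = 2 ^ n := by
    simp [Nat.card_eq_fintype_card, ZMod.card]
  have h2 : 2 ∣ Nat.card (MulAction.fixedPoints P (Fin n → ZMod 2)) := by
    have h3 : 2 ∣ Nat.card (Fin n → ZMod 2) := by
      rw [hcardV]
      exact dvd_pow_self 2 (by omega)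
    exact (Nat.modEq_zero_iff_dvd.1 (hmod.symm.trans (Nat.modEq_zero_iff_dvd.2 h3)))
  have h0 : (0 : Fin n → ZMod 2) ∈ MulAction.fixedPoints P (Fin n → ZMod 2) := by
    intro g
    rw [hsmul, Matrix.mulVec_zero]
  -- a non-zero fixed vector
  obtain ⟨v, hv, hv0⟩ : ∃ v, v ∈ MulAction.fixedPoints P (Fin n → ZMod 2) ∧ v ≠ 0 := by
    by_contra hcon
    push Not at hcon
    have h4 : Nat.card (MulAction.fixedPoints P (Fin n → ZMod 2)) = 1 := by
      rw [Nat.card_eq_one_iff_unique]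
      refine ⟨⟨fun a b => Subtype.ext ?_⟩, ⟨⟨0, h0⟩⟩⟩
      rw [hcon a.1 a.2, hcon b.1 b.2]
    rw [h4] at h2
    omega
  -- the fixed vectors
  let W : Set (Fin n → ZMod 2) := {w | ∀ g ∈ P, ((g : SpecialLinearGroup (Fin n) (ZMod 2)) :
    Matrix (Fin n) (Fin n) (ZMod 2)) *ᵥ w = w}
  have hvW : v ∈ W := fun g hg => hv ⟨g, hg⟩
  have hWinv : ∀ (h : SpecialLinearGroup (Fin n) (ZMod 2)) (w), w ∈ W →
      ((h : SpecialLinearGroup (Fin n) (ZMod 2)) : Matrix (Fin n) (Fin n) (ZMod 2)) *ᵥ w ∈ W := by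
    intro h w hw g hg
    have h1 := hw (h⁻¹ * g * h) (by
      have := hN.conj_mem g hg h⁻¹
      simpa using this)
    have h2 : ((g : SpecialLinearGroup (Fin n) (ZMod 2)) : Matrix (Fin n) (Fin n) (ZMod 2)) *
        (h : Matrix (Fin n) (Fin n) (ZMod 2)) = (h : Matrix (Fin n) (Fin n) (ZMod 2)) *
        ((h⁻¹ * g * h : SpecialLinearGroup (Fin n) (ZMod 2)) : Matrix (Fin n) (Fin n) (ZMod 2)) := by
      have h3 : g * h = h * (h⁻¹ * g * h) := by group
      exact congrArg (fun y : SpecialLinearGroup (Fin n) (ZMod 2) => (y : Matrix (Fin n) (Fin n) (ZMod 2))) h3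
    rw [Matrix.mulVec_mulVec, h2, ← Matrix.mulVec_mulVec, h1]
  have hWadd : ∀ a b, a ∈ W → b ∈ W → a + b ∈ W := by
    intro a b ha hb g hg
    rw [Matrix.mulVec_add, ha g hg, hb g hg]
  have hWsub : ∀ a b, a ∈ W → a + b ∈ W → b ∈ W := by
    intro a b ha hab g hg
    have h1 := hab g hg
    rw [Matrix.mulVec_add, ha g hg] at h1
    exact add_left_cancel h1
  have hT : ∀ (i j : Fin n), i ≠ j → ∀ w ∈ W, w + Pi.single i (w j) ∈ W := by
    intro i j hij w hw
    have h1 := hWinv ⟨transvection i j (1 : ZMod 2), det_transvection_of_ne i j hij 1⟩ w hw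
    have h2 := transv_mulVec i j hij w
    show _ ∈ W
    rw [← h2]
    exact h1
  -- a non-zero coordinate
  obtain ⟨i, hi⟩ : ∃ i, v i ≠ 0 := by
    by_contra hcon
    push Not at hcon
    exact hv0 (funext hcon)
  have hi1 : v i = 1 := zmod2_eq_one _ hi
  have hej : ∀ j, j ≠ i → (Pi.single j (1 : ZMod 2) : Fin n → ZMod 2) ∈ W := by
    intro j hj
    have h1 := hT j i hj v hvW
    rw [hi1] at h1
    exact hWsub _ _ hvW h1
  have hei : (Pi.single i (1 : ZMod 2) : Fin n → ZMod 2) ∈ W := by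
    obtain ⟨j, hj⟩ : ∃ j : Fin n, j ≠ i := by
      have : Nontrivial (Fin n) := Fin.nontrivial_iff_two_le.2 hn
      exact exists_ne i
    have h1 := hT i j hj.symm _ (hej j hj)
    have h2 : (Pi.single j (1 : ZMod 2) : Fin n → ZMod 2) j = 1 := by simp
    rw [h2] at h1
    exact hWsub _ _ (hej j hj) h1
  have hall : ∀ j, (Pi.single j (1 : ZMod 2) : Fin n → ZMod 2) ∈ W := by
    intro j
    by_cases h : j = i
    · rw [h]; exact hei
    · exact hej j h
  rw [eq_bot_iff]
  intro g hg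
  rw [Subgroup.mem_bot]
  apply Subtype.ext
  ext a b
  have h1 := hall b g hg
  have h2 := congrFun h1 a
  rw [Matrix.mulVec_single_one] at h2
  have h3 : (((1 : SpecialLinearGroup (Fin n) (ZMod 2)) : Matrix (Fin n) (Fin n) (ZMod 2))) a b =
      (Pi.single b (1 : ZMod 2) : Fin n → ZMod 2) a := by
    simp [Matrix.one_apply, Pi.single_apply]
  rw [h3]
  exact h2

end Cfsg.Agent.Lib.ThreeT.SLCore
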